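import Mathlib
import Cfsg.Agent.GeoClasses.Basic
import Cfsg.Agent.GeoClasses.MatrixUnits
import Cfsg.Agent.MaxSub.FieldSub

/-!
In `SL_3(4)` the normaliser of a Singer field lies in a subfield subgroup over the field with two
elements.
-/

set_option autoImplicit false
set_option linter.style.haveILetI false

namespace Cfsg.Agent.ClassicalMax

open Matrix Cfsg.Geo Module
open scoped MatrixGroups Matrix

variable {F : Type*} [Field F] [Fintype F]

/-- The field with 64 elements over a field with 4 elements: `x ^ 21 = 1` forces a factorisation. -/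
lemma exists_mul_of_pow_twentyone {K : Type*} [Field K] [Algebra F K]
    (hF : Fintype.card F = 4) {x : K} (hx : x ^ 21 = 1) :
    ∃ (c : Fˣ) (y : K), y ^ 8 = y ∧ x = (c : F) • y := by
  have h15 : x ^ 15 ≠ 0 := pow_ne_zero _ (by rintro rfl; simp at hx)
  -- x ^ 7 has order dividing 3, hence lies in F
  obtain ⟨ω, hω⟩ : ∃ ω : F, algebraMap F K ω = x ^ 7 := by
    have h3 : (x ^ 7) ^ 3 = 1 := by rw [← pow_mul]; exact hx
    classical
    let S : Finset K := (Finset.univ : Finset Fˣ).image (algebraMap F K ∘ Units.val)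
    let P : Polynomial K := Polynomial.X ^ 3 - 1
    have hP : P ≠ 0 := Polynomial.X_pow_sub_C_ne_zero (by norm_num) (1 : K)
    have hS : S.card = 3 := by
      rw [Finset.card_image_of_injective _ ((algebraMap F K).injective.comp Units.val_injective),
        Finset.card_univ, Fintype.card_units, hF]
    have hsub : S ⊆ P.roots.toFinset := by
      intro z hz
      obtain ⟨u, -, rfl⟩ := Finset.mem_image.mp hz
      rw [Multiset.mem_toFinset, Polynomial.mem_roots hP]
      have : (u : F) ^ 3 = 1 := by simpa [hF] using FiniteField.pow_card_sub_one_eq_one (u : F) u.ne_zero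
      simp [P, ← map_pow, this, Function.comp]
    have heq : S = P.roots.toFinset := by
      refine Finset.eq_of_subset_of_card_le hsub ?_
      rw [hS]
      refine (Multiset.toFinset_card_le _).trans ((Polynomial.card_roots' _).trans ?_)
      exact le_of_eq (Polynomial.natDegree_X_pow_sub_C (r := (1 : K)))
    have hmem : x ^ 7 ∈ S := by
      rw [heq, Multiset.mem_toFinset, Polynomial.mem_roots hP]
      simp [P, h3]
    obtain ⟨u, -, hu⟩ := Finset.mem_image.mp hmem
    exact ⟨u, hu⟩
  have hω0 : ω ≠ 0 := by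
    rintro rfl
    rw [map_zero] at hω
    exact absurd hω.symm (pow_ne_zero _ (by rintro rfl; simp at hx))
  refine ⟨Units.mk0 ω hω0, x ^ 15, ?_, ?_⟩
  · calc (x ^ 15) ^ 8 = (x ^ 21) ^ 5 * x ^ 15 := by ring
      _ = x ^ 15 := by rw [hx, one_pow, one_mul]
  · rw [Units.val_mk0, Algebra.smul_def, hω, ← pow_add]
    calc x = x ^ 21 * x := by rw [hx, one_mul]
      _ = x ^ (7 + 15) := by ring

/-- A basis of the extension of degree 3 lying in the subfield of order 8, whose elements have
coordinates in the prime field. -/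
lemma exists_basis_small {K : Type*} [Field K] [Finite K] [Algebra F K] [CharP F 2]
    (hF : Fintype.card F = 4) (hK : Module.finrank F K = 3) :
    ∃ bK : Basis (Fin 3) F K, (∀ j, bK j ^ 8 = bK j) ∧
      ∀ y : K, y ^ 8 = y → ∀ i, bK.equivFun y i ∈ (ZMod.castHom (dvd_refl 2) F).fieldRange := by
  classical
  haveI := Fintype.ofFinite K
  haveI : CharP K 2 := charP_of_injective_algebraMap (algebraMap F K).injective 2
  have hcardK : Fintype.card K = 64 := by
    have := Module.natCard_eq_pow_finrank (K := F) (V := K)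
    rw [hK, Nat.card_eq_fintype_card, Nat.card_eq_fintype_card, hF] at this
    rw [this]; norm_num
  let F₀ : Subfield F := (ZMod.castHom (dvd_refl 2) F).fieldRange
  have hbit : ∀ a : F, a ∈ F₀ → a = 0 ∨ a = 1 := by
    rintro _ ⟨z, rfl⟩
    fin_cases z
    · exact Or.inl (map_zero _)
    · exact Or.inr (map_one _)
  -- the subfield of order eight as a set
  have h8add : ∀ x y : K, x ^ 8 = x → y ^ 8 = y → (x + y) ^ 8 = x + y := by
    intro x y hx hy
    rw [show (8 : ℕ) = 2 ^ 3 by norm_num, add_pow_char_pow, show (2 : ℕ) ^ 3 = 8 by norm_num, hx, hy]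
  -- an element generating it
  obtain ⟨z, hz⟩ := IsCyclic.exists_ofOrder_eq_natCard (α := Kˣ)
  rw [Nat.card_eq_fintype_card, Fintype.card_units, hcardK] at hz
  set w : K := ((z ^ 9 : Kˣ) : K) with hwdef
  have hw7 : orderOf (z ^ 9 : Kˣ) = 7 := by
    rw [orderOf_pow, hz]; norm_num
  have hw8 : w ^ 8 = w := by
    have : (z ^ 9 : Kˣ) ^ 7 = 1 := hw7 ▸ pow_orderOf_eq_one _
    calc w ^ 8 = ((z ^ 9 : Kˣ) ^ 7 : Kˣ) * w := by rw [pow_succ, Units.val_pow_eq_pow_val]
      _ = w := by rw [this, Units.val_one, one_mul]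
  -- the basis 1, w, w² of K over F
  have hwF : ∀ a : F, algebraMap F K a ≠ w := by
    intro a ha
    have h4 : w ^ 4 = w := by
      rw [← ha, ← map_pow]
      have := FiniteField.pow_card a
      rw [hF] at this
      rw [this]
    have h3 : (z ^ 9 : Kˣ) ^ 3 = 1 := by
      refine Units.ext ?_
      rw [Units.val_pow_eq_pow_val, Units.val_one, ← hwdef]
      have : w * w ^ 3 = w * 1 := by rw [mul_one, ← pow_succ', h4]
      exact mul_left_cancel₀ (Units.ne_zero _) this
    have := orderOf_dvd_of_pow_eq_one h3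
    rw [hw7] at this
    norm_num at this
  have hdeg : (minpoly F w).natDegree = 3 := by
    haveI : FiniteDimensional F K := Module.Finite.of_finite
    have hint : IsIntegral F w := Algebra.IsIntegral.isIntegral w
    have hdvd : (minpoly F w).natDegree ∣ 3 := by
      have := minpoly.degree_dvd hint
      rwa [hK] at this
    rcases (Nat.dvd_prime Nat.prime_three).mp hdvd with h | h
    · obtain ⟨a, ha⟩ := minpoly.natDegree_eq_one_iff.mp h
      exact absurd ha (hwF a)
    · exact h
  have hli : LinearIndependent F fun i : Fin 3 => w ^ (i : ℕ) := by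
    have := linearIndependent_pow (K := F) w
    rw [hdeg] at this
    exact this
  let bK : Basis (Fin 3) F K := basisOfLinearIndependentOfCardEqFinrank hli (by rw [hK]; simp)
  have hbK : ∀ i, bK i = w ^ (i : ℕ) := fun i => by simp [bK]
  -- elements of the small field have coordinates in F₀
  let comb : (Fin 3 → ZMod 2) → K := fun c => ∑ i, (ZMod.castHom (dvd_refl 2) F (c i)) • bK i
  have hcomb8 : ∀ c, comb c ^ 8 = comb c := by
    intro c
    refine Finset.sum_induction _ (fun x : K => x ^ 8 = x) (fun x y => h8add x y) (zero_pow (by norm_num)) ?_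
    intro i _
    rcases hbit _ ⟨c i, rfl⟩ with h | h <;>
      simp [h, hbK, ← pow_mul, mul_comm (i : ℕ) 8]
    rw [pow_mul, hw8]
  have hcoord : ∀ y : K, y ^ 8 = y → ∀ i, bK.equivFun y i ∈ F₀ := by
    intro y hy
    have hinj : Function.Injective comb := by
      intro c d h
      funext i
      have := congrArg (fun x : K => bK.equivFun x i) h
      simp only [comb, map_sum, map_smul, Finset.sum_apply, Pi.smul_apply, Basis.equivFun_self,
        smul_eq_mul, mul_ite, mul_one, mul_zero, Finset.sum_ite_eq', Finset.mem_univ, if_true] at this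
      exact (ZMod.castHom (dvd_refl 2) F).injective this
    let S : Finset K := Finset.univ.image comb
    let P : Polynomial K := Polynomial.X ^ 8 - Polynomial.X
    have hP : P ≠ 0 := FiniteField.X_pow_card_sub_X_ne_zero _ (by norm_num)
    have hS : S.card = 8 := by
      rw [Finset.card_image_of_injective _ hinj]
      simp
    have heq : S = P.roots.toFinset := by
      refine Finset.eq_of_subset_of_card_le (fun x hx => ?_) ?_
      · obtain ⟨c, -, rfl⟩ := Finset.mem_image.mp hx
        rw [Multiset.mem_toFinset, Polynomial.mem_roots hP]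
        simp [P, hcomb8]
      · rw [hS]
        refine (Multiset.toFinset_card_le _).trans ((Polynomial.card_roots' _).trans ?_)
        exact le_of_eq (FiniteField.X_pow_card_sub_X_natDegree_eq _ (by norm_num))
    have hmem : y ∈ S := by
      rw [heq, Multiset.mem_toFinset, Polynomial.mem_roots hP]
      simp [P, hy]
    obtain ⟨c, -, rfl⟩ := Finset.mem_image.mp hmem
    intro i
    simp only [comb, map_sum, map_smul, Finset.sum_apply, Pi.smul_apply, Basis.equivFun_self,
      smul_eq_mul, mul_ite, mul_one, mul_zero, Finset.sum_ite_eq', Finset.mem_univ, if_true]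
    exact ⟨c i, rfl⟩
  refine ⟨bK, fun j => ?_, hcoord⟩
  rw [hbK, ← pow_mul, mul_comm, pow_mul, hw8]

set_option maxHeartbeats 1000000 in
/-- The exception `q = 4` for the field normalisers of `SL_3(q)`. -/
theorem fieldNormalizer_le_subfieldSubgroup (hF : Fintype.card F = 4)
    {K : Subalgebra F (Matrix (Fin 3) (Fin 3) F)} (hK : IsFieldSubalgebra 3 K) :
    ∃ (F₀ : Subfield F) (P : GL (Fin 3) F), Fintype.card F = Nat.card F₀ ^ 2 ∧
      subalgebraNormalizer K ⊓ specialLinear (Fin 3) F ≤ subfieldSubgroup F₀ P := by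
  classical
  letI : Field K := (MaxSub.isField_of_isFieldSubalgebra hK).toField
  haveI : Finite K := Finite.of_injective (fun x : K => (x : Matrix (Fin 3) (Fin 3) F)) Subtype.val_injective
  haveI := Fintype.ofFinite K
  have hcardK : Fintype.card K = 64 := by
    have := Module.natCard_eq_pow_finrank (K := F) (V := K)
    rw [hK.finrank_eq, Nat.card_eq_fintype_card, Nat.card_eq_fintype_card, hF] at this
    rw [this]; norm_num
  haveI : CharP F 2 := by
    have h : ringChar F = 2 := FiniteField.even_card_iff_char_two.mpr (by omega)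
    exact h ▸ ringChar.charP F
  -- the prime subfield and the subfield of order eight
  let F₀ : Subfield F := (ZMod.castHom (dvd_refl 2) F).fieldRange
  have hF₀ : Nat.card F₀ = 2 := by
    have e := Equiv.ofInjective _ (ZMod.castHom (dvd_refl 2) F).injective
    show Nat.card (Set.range (ZMod.castHom (dvd_refl 2) F)) = 2
    rw [← Nat.card_congr e, Nat.card_zmod]
  have hbit : ∀ a : F, a ∈ F₀ → a = 0 ∨ a = 1 := by
    rintro _ ⟨z, rfl⟩
    fin_cases z
    · exact Or.inl (map_zero _)
    · exact Or.inr (map_one _)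
  obtain ⟨bK, hbK8, hcoord⟩ := exists_basis_small (K := K) hF hK.finrank_eq
  -- V is a free K-module on a vector
  let v₀ : Fin 3 → F := Pi.single 0 1
  have hv₀ : v₀ ≠ 0 := fun h => one_ne_zero (congrFun h 0 : (1 : F) = 0)
  let ev : K →ₗ[F] (Fin 3 → F) :=
    { toFun := fun k => (k : Matrix (Fin 3) (Fin 3) F) *ᵥ v₀
      map_add' := fun x y => by simp [Matrix.add_mulVec]
      map_smul' := fun c x => by simp [Matrix.smul_mulVec] }
  have hev : Function.Injective ev := by
    rw [injective_iff_map_eq_zero]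
    intro x hx
    by_contra hx0
    obtain ⟨y, -, hxy⟩ := hK.inv x x.2 fun h => hx0 (Subtype.ext h)
    have hyx : y * (x : Matrix (Fin 3) (Fin 3) F) = 1 := mul_eq_one_comm.mp hxy
    apply hv₀
    have h := congrArg (y *ᵥ ·) hx
    simp only [ev, LinearMap.coe_mk, AddHom.coe_mk, Matrix.mulVec_mulVec, hyx, Matrix.one_mulVec,
      Matrix.mulVec_zero] at h
    exact h
  let E : K ≃ₗ[F] (Fin 3 → F) := LinearEquiv.ofBijective ev
    ⟨hev, (LinearMap.injective_iff_surjective_of_finrank_eq_finrank (by rw [hK.finrank_eq]; simp)).mp hev⟩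
  have hE : ∀ k : K, E k = (k : Matrix (Fin 3) (Fin 3) F) *ᵥ v₀ := fun k => rfl
  let Pe : (Fin 3 → F) ≃ₗ[F] (Fin 3 → F) := bK.equivFun.symm.trans E
  refine ⟨F₀, GeoClasses.glOfEquiv Pe, by rw [hF, hF₀]; norm_num, ?_⟩
  rintro g ⟨hg, hdet⟩
  -- the field automorphism induced by g and the multiplier
  let φ₀ : K →ₐ[F] K :=
    { toFun := fun k => ⟨_, (hg k).mp k.2⟩
      map_one' := Subtype.ext (by simp)
      map_mul' := fun x y => Subtype.ext (by simp [mul_assoc, ← Units.val_mul])
      map_zero' := Subtype.ext (by simp)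
      map_add' := fun x y => Subtype.ext (by simp [mul_add, add_mul])
      commutes' := fun a => Subtype.ext (by
        simp [Algebra.algebraMap_eq_smul_one, ← Units.val_mul]) }
  have hφ₀ : ∀ k : K, ((φ₀ k : K) : Matrix (Fin 3) (Fin 3) F) =
      (g : Matrix (Fin 3) (Fin 3) F) * k * ((g⁻¹ : GL (Fin 3) F) : Matrix (Fin 3) (Fin 3) F) := fun k => rfl
  let x : K := E.symm ((g : Matrix (Fin 3) (Fin 3) F) *ᵥ v₀)
  have hgE : ∀ k : K, (g : Matrix (Fin 3) (Fin 3) F) *ᵥ E k = E (φ₀ k * x) := by
    intro k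
    rw [hE (φ₀ k * x), Subalgebra.coe_mul, ← Matrix.mulVec_mulVec, ← hE x, LinearEquiv.apply_symm_apply,
      Matrix.mulVec_mulVec, hφ₀, hE, Matrix.mulVec_mulVec]
    congr 1
    simp [mul_assoc, ← Units.val_mul]
  have hx0 : x ≠ 0 := by
    intro h
    have h1 := E.apply_symm_apply ((g : Matrix (Fin 3) (Fin 3) F) *ᵥ v₀)
    change E x = _ at h1
    rw [h, map_zero] at h1
    apply hv₀
    apply GeoClasses.mulVec_injective g
    simp [← h1]
  -- the matrix of φ₀ in the basis 1, w, w² has entries in F₀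
  let T : Matrix (Fin 3) (Fin 3) F := LinearMap.toMatrix bK bK φ₀.toLinearMap
  have hT : ∀ i j, T i j ∈ F₀ := by
    intro i j
    simp only [T, LinearMap.toMatrix_apply]
    rw [← Basis.equivFun_apply]
    apply hcoord
    show φ₀ (bK j) ^ 8 = φ₀ (bK j)
    rw [← map_pow, hbK8]
  let T₀ : Matrix (Fin 3) (Fin 3) F₀ := Matrix.of fun i j => ⟨T i j, hT i j⟩
  have hT₀ : T₀.map F₀.subtype = T := rfl
  have hTdet : T.det ≠ 0 := by
    rw [LinearMap.det_toMatrix]
    have hbij : Function.Bijective φ₀ := φ₀.toRingHom.injective.bijective_of_finite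
    exact ((AlgEquiv.ofBijective φ₀ hbij).toLinearEquiv.isUnit_det').ne_zero
  have hTdet1 : T.det = 1 := by
    have : F₀.subtype T₀.det = T.det := by rw [RingHom.map_det]; rfl
    refine ((hbit T.det ?_).resolve_left hTdet)
    rw [← this]; exact SetLike.coe_mem _
  -- x has norm one
  have hnorm : Algebra.norm F x = 1 := by
    have hlin : Matrix.toLin' (g : Matrix (Fin 3) (Fin 3) F) =
        (E : K →ₗ[F] (Fin 3 → F)) ∘ₗ (LinearMap.mulLeft F x ∘ₗ φ₀.toLinearMap) ∘ₗ (E.symm : (Fin 3 → F) →ₗ[F] K) := by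
      refine LinearMap.ext fun v => ?_
      obtain ⟨k, rfl⟩ := E.surjective v
      rw [Matrix.toLin'_apply, hgE]
      simp only [LinearMap.comp_apply, LinearEquiv.coe_coe, LinearEquiv.symm_apply_apply, LinearMap.mulLeft_apply, AlgHom.toLinearMap_apply]
      rw [mul_comm (φ₀ k) x]
    have h1 := congrArg LinearMap.det hlin
    rw [LinearMap.det_toLin', GeoClasses.mem_specialLinear_iff.mp hdet, LinearMap.det_conj,
      LinearMap.det_comp, ← LinearMap.det_toMatrix bK φ₀.toLinearMap, hTdet1, mul_one] at h1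
    rw [Algebra.norm_apply]
    exact h1.symm
  have hx21 : x ^ 21 = 1 := by
    have h := FiniteField.algebraMap_norm_eq_pow_sum F K x
    rw [hnorm, map_one, hK.finrank_eq, Nat.card_eq_fintype_card, hF] at h
    simpa [Finset.sum_range_succ] using h.symm
  obtain ⟨c, y, hy8, hxy⟩ := exists_mul_of_pow_twentyone hF hx21
  -- the matrix over F₀
  let U : Matrix (Fin 3) (Fin 3) F₀ := Matrix.of fun i j =>
    ⟨bK.equivFun (y * φ₀ (bK j)) i, hcoord _ (by
      rw [mul_pow, hy8, ← map_pow, hbK8]) i⟩
  have hg_eq : (g : Matrix (Fin 3) (Fin 3) F) =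
      (GeoClasses.glOfEquiv Pe : Matrix (Fin 3) (Fin 3) F) * ((c : F) • U.map F₀.subtype) *
        ((GeoClasses.glOfEquiv Pe)⁻¹ : GL (Fin 3) F) := by
    rw [← sub_eq_zero]
    have hcancel : ∀ A B : Matrix (Fin 3) (Fin 3) F,
        A * (GeoClasses.glOfEquiv Pe : Matrix (Fin 3) (Fin 3) F) = B * (GeoClasses.glOfEquiv Pe : Matrix (Fin 3) (Fin 3) F) → A = B := by
      intro A B h
      have := congrArg (· * (((GeoClasses.glOfEquiv Pe)⁻¹ : GL (Fin 3) F) : Matrix (Fin 3) (Fin 3) F)) h
      simpa [mul_assoc] using this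
    rw [sub_eq_zero]
    apply hcancel
    rw [Matrix.mul_assoc _ (((GeoClasses.glOfEquiv Pe)⁻¹ : GL (Fin 3) F) : Matrix (Fin 3) (Fin 3) F),
      Units.inv_mul, Matrix.mul_one]
    refine Matrix.toLin'.injective ((Pi.basisFun F (Fin 3)).ext fun j => ?_)
    simp only [Pi.basisFun_apply, Matrix.toLin'_apply, ← Matrix.mulVec_mulVec, GeoClasses.glOfEquiv_mulVec,
      Matrix.smul_mulVec, map_smul]
    have hPj : Pe (Pi.single j 1) = E (bK j) := by
      simp [Pe, LinearEquiv.trans_apply, Basis.equivFun_symm_apply, Pi.single_apply]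
    have hUj : U.map F₀.subtype *ᵥ Pi.single j 1 = bK.equivFun (y * φ₀ (bK j)) := by
      rw [Matrix.mulVec_single_one]
      rfl
    rw [hPj, hgE, hUj, show Pe (bK.equivFun (y * φ₀ (bK j))) = E (y * φ₀ (bK j)) by simp [Pe], ← map_smul, hxy]
    congr 1
    rw [Algebra.mul_smul_comm, mul_comm]
  have hUdet : U.det ≠ 0 := by
    intro h
    have : (g : Matrix (Fin 3) (Fin 3) F).det = 0 := by
      rw [hg_eq, Matrix.det_mul, Matrix.det_mul, Matrix.det_smul,
        show U.map F₀.subtype = F₀.subtype.mapMatrix U from rfl, ← RingHom.map_det, h, map_zero]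
      simp
    exact Matrix.GeneralLinearGroup.det_ne_zero g this
  let cs : GL (Fin 3) F := Units.map (Matrix.scalar (Fin 3) : F →+* Matrix (Fin 3) (Fin 3) F).toMonoidHom c
  let U' : GL (Fin 3) F₀ := Matrix.GeneralLinearGroup.mkOfDetNeZero U hUdet
  have hgmem : g = MulAut.conj (GeoClasses.glOfEquiv Pe)
      (cs * Matrix.GeneralLinearGroup.map (F₀.subtype : F₀ →+* F) U') := by
    refine Units.ext ?_
    rw [hg_eq, MulAut.conj_apply, Units.val_mul, Units.val_mul, Units.val_mul]
    congr 2
    simp [cs, U', Matrix.smul_eq_diagonal_mul]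
  rw [subfieldSubgroup, hgmem]
  exact ⟨_, Subgroup.mul_mem _ (Subgroup.mem_sup_right ⟨c, rfl⟩) (Subgroup.mem_sup_left ⟨U', rfl⟩), rfl⟩

end Cfsg.Agent.ClassicalMax
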