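import Cfsg.Agent.ClassicalMax.UnitaryExceptions
import Cfsg.Agent.ClassicalMax.FieldExceptionThree

/-!
In `SU_6(2)` the normaliser of an adjoint-closed cubic field lies in a subfield group carrying a
symplectic form over the field with two elements.
-/

set_option autoImplicit false
set_option linter.style.haveILetI false

namespace Cfsg.Agent.ClassicalMax

open Matrix Cfsg.Geo Module
open Cfsg.Agent.Classical.U (SqField sqField_of_fintype)
open scoped MatrixGroups Matrix

variable {F : Type*} [Field F]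

/-- An element mapping the `F₀`-span of the columns of `P` into itself up to a scalar is in the subfield group. -/
theorem mem_subfieldSubgroup_of_columns {ι : Type} [Fintype ι] [DecidableEq ι] {F₀ : Subfield F} {P g : GL ι F}
    {s : F} (hs : s ≠ 0)
    (h : ∀ j, ∃ u : ι → F, (∀ i, u i ∈ F₀) ∧
      s • ((g : Matrix ι ι F) *ᵥ ((P : Matrix ι ι F) *ᵥ Pi.single j 1)) = (P : Matrix ι ι F) *ᵥ u) :
    g ∈ subfieldSubgroup F₀ P := by
  classical
  choose u hu hgu using h
  let U : Matrix ι ι F₀ := Matrix.of fun i j => ⟨u j i, hu j i⟩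
  have hmat : s • ((g : Matrix ι ι F) * (P : Matrix ι ι F)) = (P : Matrix ι ι F) * U.map F₀.subtype := by
    refine Matrix.toLin'.injective ((Pi.basisFun F ι).ext fun j => ?_)
    simp only [Pi.basisFun_apply, Matrix.toLin'_apply, Matrix.smul_mulVec, ← Matrix.mulVec_mulVec]
    rw [hgu j]
    congr 1
    funext i
    rw [Matrix.mulVec_single_one]
    rfl
  have hdet := congrArg Matrix.det hmat
  rw [Matrix.det_smul, Matrix.det_mul, Matrix.det_mul, show U.map F₀.subtype = F₀.subtype.mapMatrix U from rfl,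
    ← RingHom.map_det] at hdet
  have hU : U.det ≠ 0 := by
    intro h0
    rw [h0, map_zero, mul_zero] at hdet
    exact mul_ne_zero (pow_ne_zero _ hs)
      (mul_ne_zero (Matrix.GeneralLinearGroup.det_ne_zero g) (Matrix.GeneralLinearGroup.det_ne_zero P)) hdet
  let U' : GL ι F₀ := Matrix.GeneralLinearGroup.mkOfDetNeZero U hU
  let cs : GL ι F := Units.map (Matrix.scalar ι : F →+* Matrix ι ι F).toMonoidHom (Units.mk0 s hs)⁻¹
  have hgmem : g = MulAut.conj P (cs * Matrix.GeneralLinearGroup.map (F₀.subtype : F₀ →+* F) U') := by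
    rw [MulAut.conj_apply, eq_mul_inv_iff_mul_eq]
    refine Units.ext ?_
    simp only [Units.val_mul]
    have : (cs : Matrix ι ι F) = s⁻¹ • (1 : Matrix ι ι F) := by
      simp [cs, Matrix.smul_one_eq_diagonal]
    rw [this, Matrix.smul_mul, Matrix.one_mul, Matrix.mul_smul,
      show ((Matrix.GeneralLinearGroup.map (F₀.subtype : F₀ →+* F) U' : GL ι F) : Matrix ι ι F) = U.map F₀.subtype from rfl,
      ← hmat, inv_smul_smul₀ hs]
  rw [subfieldSubgroup, hgmem]
  exact ⟨_, Subgroup.mul_mem _ (Subgroup.mem_sup_right ⟨(Units.mk0 s hs)⁻¹, rfl⟩)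
    (Subgroup.mem_sup_left ⟨U', rfl⟩), rfl⟩

set_option maxHeartbeats 1000000 in
/-- The exception `q = 2` for the field normalisers of `SU_6(q)`. -/
theorem fieldNormalizer_le_subfield_six (hF : SqField F 2)
    {K : Subalgebra F (Matrix (Fin 6) (Fin 6) F)} (hK : IsFieldSubalgebra 3 K)
    (hac : IsAdjointClosedFor (Cfsg.hermForm 6 F 2) K) :
    ∃ (F₀ : Subfield F) (P : GL (Fin 6) F) (ζ : F), Nat.card F = Nat.card F₀ ^ 2 ∧ ζ ≠ 0 ∧ ζ + ζ ^ 2 = 0 ∧
      IsFormRationalStructure (Cfsg.hermForm 6 F 2) F₀ ζ P ∧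
      (∀ u : Fin 6 → F, (∀ i, u i ∈ F₀) →
        Cfsg.hermForm 6 F 2 ((P : Matrix (Fin 6) (Fin 6) F) *ᵥ u) ((P : Matrix (Fin 6) (Fin 6) F) *ᵥ u) = 0) ∧
      subalgebraNormalizer K ⊓ suGL 6 F 2 ≤ subfieldSubgroup F₀ P := by
  classical
  obtain ⟨hfin, hcardF⟩ := id hF
  letI : Fintype F := Fintype.ofFinite F
  rw [Nat.card_eq_fintype_card] at hcardF
  have hf := hermForm_isUnitaryFormPow (n := 6) hF
  have h2 := two_eq_zero_of_sqField hF
  obtain ⟨ω, hω, hω0, hω1⟩ := exists_omega hF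
  letI : Field K := (MaxSub.isField_of_isFieldSubalgebra hK).toField
  haveI : Finite K := Finite.of_injective (fun x : K => (x : Matrix (Fin 6) (Fin 6) F)) Subtype.val_injective
  haveI : Fintype K := Fintype.ofFinite K
  haveI : CharP F 2 := (CharP.charP_iff_prime_eq_zero Nat.prime_two).2 (by exact_mod_cast h2)
  haveI : CharP K 2 := charP_of_injective_algebraMap (algebraMap F K).injective 2
  have hcardK : Fintype.card K = 64 := by
    have := Module.natCard_eq_pow_finrank (K := F) (V := K)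
    rw [hK.finrank_eq, Nat.card_eq_fintype_card, Nat.card_eq_fintype_card, hcardF] at this
    rw [this]; norm_num
  have h64 : ∀ x : K, x ^ 64 = x := fun x => hcardK ▸ FiniteField.pow_card x
  have h2K : (2 : K) = 0 := by exact_mod_cast CharP.cast_eq_zero K 2
  obtain ⟨bK, hbK8, hcoord⟩ := exists_basis_small (K := K) (by rw [hcardF]; norm_num) hK.finrank_eq
  let F₀ : Subfield F := (ZMod.castHom (dvd_refl 2) F).fieldRange
  have hF₀ : Nat.card F₀ = 2 := by
    have e := Equiv.ofInjective _ (ZMod.castHom (dvd_refl 2) F).injective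
    show Nat.card (Set.range (ZMod.castHom (dvd_refl 2) F)) = 2
    rw [← Nat.card_congr e, Nat.card_zmod]
  have hbit : ∀ a : F, a ∈ F₀ → a = 0 ∨ a = 1 := by
    rintro _ ⟨z, rfl⟩
    fin_cases z
    · exact Or.inl (map_zero _)
    · exact Or.inr (map_one _)
  have hF₀mem : ∀ a : F, a ^ 2 = a → a ∈ F₀ := fun a ha =>
    (eq_zero_or_one_of_sq hF ha).elim (fun h => h ▸ F₀.zero_mem) (fun h => h ▸ F₀.one_mem)
  -- the adjoint is the eighth power
  have hadj : ∀ (k : K) (u v : Fin 6 → F), Cfsg.hermForm 6 F 2 ((k : Matrix (Fin 6) (Fin 6) F) *ᵥ u) v =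
      Cfsg.hermForm 6 F 2 u (((k ^ 8 : K) : Matrix (Fin 6) (Fin 6) F) *ᵥ v) := by
    choose ad hadK had using hac
    let φ : K → K := fun k => ⟨ad k k.2, hadK k k.2⟩
    have hφ : ∀ (k : K) u v, Cfsg.hermForm 6 F 2 ((k : Matrix (Fin 6) (Fin 6) F) *ᵥ u) v =
        Cfsg.hermForm 6 F 2 u ((φ k : Matrix (Fin 6) (Fin 6) F) *ᵥ v) := fun k => had k k.2
    have huniq : ∀ (k m : K), (∀ u v, Cfsg.hermForm 6 F 2 ((k : Matrix (Fin 6) (Fin 6) F) *ᵥ u) v =
        Cfsg.hermForm 6 F 2 u ((m : Matrix (Fin 6) (Fin 6) F) *ᵥ v)) → φ k = m := by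
      intro k m h
      apply Subtype.ext
      apply Matrix.toLin'.injective
      refine LinearMap.ext fun v => ?_
      rw [Matrix.toLin'_apply, Matrix.toLin'_apply]
      by_contra hne
      obtain ⟨⟨x, hx⟩, -⟩ := hf.nondegenerate _ (sub_ne_zero.mpr hne)
      apply hx
      rw [sub_eq_add_neg, hf.add_right' hF, ← neg_one_smul F, hf.smul_right', ← hφ, ← h]
      linear_combination (Cfsg.hermForm 6 F 2 ((k : Matrix (Fin 6) (Fin 6) F) *ᵥ x) v) * h2
    have hsymm : ∀ k : K, φ (φ k) = k := fun k => huniq _ _ fun u v => by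
      rw [hf.herm, ← hφ, ← hf.herm]
    have hadd : ∀ x y : K, φ (x + y) = φ x + φ y := fun x y => huniq _ _ fun u v => by
      push_cast
      rw [Matrix.add_mulVec, Matrix.add_mulVec, hf.add_left, hf.add_right' hF, hφ, hφ]
    have hmul : ∀ x y : K, φ (x * y) = φ x * φ y := fun x y => huniq _ _ fun u v => by
      rw [mul_comm (φ x)]
      push_cast
      rw [← Matrix.mulVec_mulVec, ← Matrix.mulVec_mulVec, hφ, hφ]
    have hscal : ∀ a : F, φ (algebraMap F K a) = algebraMap F K (a ^ 2) := fun a => huniq _ _ fun u v => by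
      rw [show ((algebraMap F K a : K) : Matrix (Fin 6) (Fin 6) F) = a • 1 from Algebra.algebraMap_eq_smul_one a,
        show ((algebraMap F K (a ^ 2) : K) : Matrix (Fin 6) (Fin 6) F) = (a ^ 2) • 1 from Algebra.algebraMap_eq_smul_one _,
        Matrix.smul_mulVec, Matrix.smul_mulVec, Matrix.one_mulVec, Matrix.one_mulVec, hf.smul_left, hf.smul_right',
        ← _root_.pow_mul]
      congr 1
      have := FiniteField.pow_card a
      rw [hcardF] at this
      exact this.symm
    let ψ : K →ₐ[F] K :=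
      { toFun := fun k => φ k ^ 2
        map_one' := by
          have := hscal 1
          rw [map_one, one_pow, map_one] at this
          rw [this, one_pow]
        map_mul' := fun x y => by rw [hmul, mul_pow]
        map_zero' := by
          have := hscal 0
          rw [map_zero, zero_pow two_ne_zero, map_zero] at this
          rw [this, zero_pow two_ne_zero]
        map_add' := fun x y => by rw [hadd]; linear_combination (φ x * φ y) * h2K
        commutes' := fun a => by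
          rw [hscal, ← map_pow, ← _root_.pow_mul]
          congr 1
          have := FiniteField.pow_card a
          rw [hcardF] at this
          exact this }
    haveI : FiniteDimensional F K := Module.Finite.of_finite
    obtain ⟨⟨i, hi⟩, hψ⟩ := (FiniteField.bijective_frobeniusAlgHom_pow F K).2 ψ
    have hfrob : ∀ (j : ℕ) (x : K), (FiniteField.frobeniusAlgHom F K ^ j) x = x ^ (4 ^ j) := by
      intro j
      induction j with
      | zero => simp
      | succ j ih =>
        intro x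
        rw [pow_succ', AlgHom.mul_apply, ih, FiniteField.coe_frobeniusAlgHom]
        show (x ^ 4 ^ j) ^ Fintype.card F = _
        rw [hcardF, ← _root_.pow_mul, pow_succ]
        norm_num [pow_succ]
    have hψx : ∀ x : K, φ x = x ^ (32 * 4 ^ i) := fun x => by
      have : ψ x = x ^ (4 ^ i) := by rw [← hψ]; exact hfrob i x
      calc φ x = (φ x) ^ 64 := (h64 _).symm
        _ = (ψ x) ^ 32 := by show _ = (φ x ^ 2) ^ 32; rw [← _root_.pow_mul]
        _ = x ^ (32 * 4 ^ i) := by rw [this, ← _root_.pow_mul, mul_comm]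
    obtain ⟨z, hz⟩ := IsCyclic.exists_ofOrder_eq_natCard (α := Kˣ)
    rw [Nat.card_eq_fintype_card, Fintype.card_units, hcardK] at hz
    have hz' := hsymm (z : K)
    rw [hψx, hψx, ← _root_.pow_mul] at hz'
    have hz'' : z ^ (32 * 4 ^ i * (32 * 4 ^ i)) = z ^ 1 := Units.ext (by simpa using hz')
    rw [pow_eq_pow_iff_modEq, hz] at hz''
    rw [hK.finrank_eq] at hi
    intro k u v
    rw [hφ]
    congr 3
    rw [hψx]
    interval_cases i
    · exact absurd hz'' (by decide)
    · exact absurd hz'' (by decide)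
    · show k ^ 512 = k ^ 8
      rw [show 512 = 64 * 8 by norm_num, _root_.pow_mul, h64]
  -- the hermitian form over K
  haveI : FiniteDimensional F K := Module.Finite.of_finite
  let T := (Algebra.traceForm F K).toDual (traceForm_nondegenerate F K)
  have hT : ∀ x k : K, T x k = Algebra.trace F K (x * k) := fun x k => rfl
  let HK : (Fin 6 → F) → (Fin 6 → F) → K := fun u v => T.symm
    { toFun := fun k => Cfsg.hermForm 6 F 2 ((k : Matrix (Fin 6) (Fin 6) F) *ᵥ u) v
      map_add' := fun x y => by push_cast; rw [Matrix.add_mulVec, hf.add_left]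
      map_smul' := fun a x => by
        simp only [SetLike.val_smul, Matrix.smul_mulVec, hf.smul_left, RingHom.id_apply, smul_eq_mul] }
  have hHK : ∀ u v k, Algebra.trace F K (HK u v * k) =
      Cfsg.hermForm 6 F 2 ((k : Matrix (Fin 6) (Fin 6) F) *ᵥ u) v := fun u v k => by
    rw [← hT, LinearEquiv.apply_symm_apply]; rfl
  have hext : ∀ x y : K, (∀ k, Algebra.trace F K (x * k) = Algebra.trace F K (y * k)) → x = y := fun x y h =>
    T.injective (LinearMap.ext fun k => by rw [hT, hT]; exact h k)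
  have hHadd : ∀ u u' v, HK (u + u') v = HK u v + HK u' v := fun u u' v => hext _ _ fun k => by
    rw [hHK, add_mul, map_add, hHK, hHK, Matrix.mulVec_add, hf.add_left]
  have hHsmul : ∀ (m : K) u v, HK ((m : Matrix (Fin 6) (Fin 6) F) *ᵥ u) v = m * HK u v := fun m u v => hext _ _ fun k => by
    rw [hHK, Matrix.mulVec_mulVec, mul_assoc, mul_left_comm, hHK]
    rw [show m * k = k * m from mul_comm m k]
    rfl
  have hfr8 : ∀ y : K, Algebra.trace F K (y ^ 8) = (Algebra.trace F K y) ^ 2 := fun y => by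
    apply (algebraMap F K).injective
    rw [map_pow (algebraMap F K), FiniteField.algebraMap_trace_eq_sum_pow, FiniteField.algebraMap_trace_eq_sum_pow, hK.finrank_eq,
      Nat.card_eq_fintype_card, hcardF]
    simp only [Finset.sum_range_succ, Finset.sum_range_zero, zero_add]
    norm_num
    rw [← _root_.pow_mul, ← _root_.pow_mul]
    norm_num
    rw [show (128 : ℕ) = 64 * 2 by norm_num, _root_.pow_mul, h64]
    linear_combination -(y * y ^ 4 + y * y ^ 16 + y ^ 4 * y ^ 16) * h2K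
  have hHsymm : ∀ u v, HK v u = (HK u v) ^ 8 := fun u v => hext _ _ fun k => by
    rw [hHK, hadj, hf.herm, ← hHK u v, ← hfr8, mul_pow, ← _root_.pow_mul]
    norm_num
    rw [h64]
  have hHsmulr : ∀ (m : K) u v, HK u ((m : Matrix (Fin 6) (Fin 6) F) *ᵥ v) = m ^ 8 * HK u v := fun m u v => by
    rw [hHsymm, hHsmul, mul_pow, ← hHsymm]
  have hHaddr : ∀ u v v', HK u (v + v') = HK u v + HK u v' := fun u v v' => by
    rw [hHsymm, hHadd, show (8 : ℕ) = 2 ^ 3 by norm_num, add_pow_char_pow, show (2 : ℕ) ^ 3 = 8 by norm_num,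
      ← hHsymm, ← hHsymm]
  have hH0 : ∀ v, HK 0 v = 0 := fun v => by
    have := hHsmul 0 0 v
    rwa [ZeroMemClass.coe_zero, Matrix.zero_mulVec, zero_mul] at this
  have hh : ∀ u v, Cfsg.hermForm 6 F 2 u v = Algebra.trace F K (HK u v) := fun u v => by
    rw [← mul_one (HK u v), hHK, OneMemClass.coe_one, Matrix.one_mulVec]
  -- an orthonormal pair
  have hHfix : ∀ u, HK u u ^ 8 = HK u u := fun u => (hHsymm u u).symm
  have hnorm : ∀ u, HK u u ≠ 0 → ∃ m : K, HK ((m : Matrix (Fin 6) (Fin 6) F) *ᵥ u) ((m : Matrix (Fin 6) (Fin 6) F) *ᵥ u) = 1 := by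
    intro u hu
    refine ⟨HK u u ^ 3, ?_⟩
    rw [hHsmul, hHsmulr]
    have h7 : HK u u ^ 7 = 1 := mul_right_cancel₀ hu (by rw [one_mul, ← pow_succ]; exact hHfix u)
    rw [← mul_assoc, ← _root_.pow_mul, ← pow_add, ← pow_succ]
    norm_num
    rw [show (28 : ℕ) = 7 * 4 by norm_num, _root_.pow_mul, h7, one_pow]
  obtain ⟨m₁, hm₁⟩ := hnorm (Pi.single 0 1) fun h0 => by
    have := hh (Pi.single 0 1) (Pi.single 0 1)
    rw [h0, map_zero, show Cfsg.hermForm 6 F 2 (Pi.single 0 1) (Pi.single 0 1) = 1 by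
      show Classical.U.herm 2 _ _ = 1
      rw [Classical.U.herm_single_one _ two_ne_zero]; simp] at this
    exact one_ne_zero this
  obtain ⟨a, hm₁⟩ : ∃ a : Fin 6 → F, HK a a = 1 := ⟨_, hm₁⟩
  let ev : (Fin 6 → F) → (K →ₗ[F] (Fin 6 → F)) := fun u =>
    { toFun := fun k => (k : Matrix (Fin 6) (Fin 6) F) *ᵥ u
      map_add' := fun x y => by push_cast; rw [Matrix.add_mulVec]
      map_smul' := fun c x => by simp [Matrix.smul_mulVec] }
  obtain ⟨w, hw⟩ : ∃ w, w ∉ LinearMap.range (ev a) := by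
    by_contra hc
    push Not at hc
    have := LinearMap.finrank_range_le (ev a)
    rw [show LinearMap.range (ev a) = ⊤ from eq_top_iff.mpr fun x _ => hc x, finrank_top, hK.finrank_eq,
      Module.finrank_fintype_fun_eq_card, Fintype.card_fin] at this
    omega
  set b₀ := w + ((HK w a : K) : Matrix (Fin 6) (Fin 6) F) *ᵥ a with hb₀
  have hb₀a : HK b₀ a = 0 := by rw [hb₀, hHadd, hHsmul, hm₁]; linear_combination HK w a * h2K
  have hb₀ne : b₀ ≠ 0 := fun h => hw ⟨HK w a, by
    show ((HK w a : K) : Matrix (Fin 6) (Fin 6) F) *ᵥ a = w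
    rw [hb₀] at h
    funext i
    have := congrFun h i
    simp only [Pi.add_apply, Pi.zero_apply] at this
    linear_combination this - w i * h2⟩
  have hspan : ∀ b, b ≠ 0 → HK b a = 0 → Function.Bijective (fun p : K × K =>
      (p.1 : Matrix (Fin 6) (Fin 6) F) *ᵥ a + (p.2 : Matrix (Fin 6) (Fin 6) F) *ᵥ b) := by
    intro b hb hba
    let E : K × K →ₗ[F] (Fin 6 → F) := (ev a).coprod (ev b)
    have hinj : Function.Injective E := by
      rw [← LinearMap.ker_eq_bot, LinearMap.ker_eq_bot']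
      rintro ⟨x, y⟩ hxy
      change (x : Matrix (Fin 6) (Fin 6) F) *ᵥ a + (y : Matrix (Fin 6) (Fin 6) F) *ᵥ b = 0 at hxy
      have hx : x = 0 := by
        have := congrArg (fun v => HK v a) hxy
        simpa [hHadd, hHsmul, hm₁, hba, hH0] using this
      subst hx
      rw [ZeroMemClass.coe_zero, Matrix.zero_mulVec, zero_add] at hxy
      by_contra hy
      have hy0 : y ≠ 0 := fun h => hy (by rw [h]; rfl)
      obtain ⟨z, hz, hzy⟩ := hK.inv y y.2 fun h => hy0 (Subtype.ext h)
      apply hb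
      have := congrArg (z *ᵥ ·) hxy
      simpa [Matrix.mulVec_mulVec, mul_eq_one_comm.mp hzy] using this
    exact ⟨hinj, (LinearMap.injective_iff_surjective_of_finrank_eq_finrank (by
      rw [Module.finrank_prod, hK.finrank_eq]; simp)).mp hinj⟩
  obtain ⟨m₂, hm₂⟩ := hnorm b₀ fun h0 => by
    obtain ⟨⟨x, hx⟩, -⟩ := hf.nondegenerate b₀ hb₀ne
    obtain ⟨⟨y, z⟩, rfl⟩ := (hspan b₀ hb₀ne hb₀a).2 x
    apply hx
    rw [hh, hHadd, hHsmul, hHsmul, h0, hHsymm b₀ a, hb₀a]
    simp
  obtain ⟨b, hm₂, hba⟩ : ∃ b : Fin 6 → F, HK b b = 1 ∧ HK b a = 0 :=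
    ⟨_, hm₂, by rw [hHsmul, hb₀a, mul_zero]⟩
  have hab : HK a b = 0 := by rw [hHsymm, hba, zero_pow (by norm_num)]
  have hbne : b ≠ 0 := fun h => by rw [h, hH0] at hm₂; exact zero_ne_one hm₂
  let E : (K × K) ≃ₗ[F] (Fin 6 → F) := LinearEquiv.ofBijective ((ev a).coprod (ev b)) (hspan b hbne hba)
  have hE : ∀ p, E p = (p.1 : Matrix (Fin 6) (Fin 6) F) *ᵥ a + (p.2 : Matrix (Fin 6) (Fin 6) F) *ᵥ b := fun p => rfl
  have hHE : ∀ p p', HK (E p) (E p') = p.1 * p'.1 ^ 8 + p.2 * p'.2 ^ 8 := by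
    intro p p'
    simp only [hE, hHadd, hHaddr, hHsmul, hHsmulr, hab, hba, hm₁, hm₂, mul_zero, mul_one, add_zero, zero_add]
  -- the structure over the field with two elements
  let coef : Fin 2 → F := ![1, ω]
  let ix : Fin 2 × Fin 3 ≃ Fin 6 := finProdFinEquiv
  let col : Fin 6 → (Fin 6 → F) := fun j => E (coef (ix.symm j).1 • bK (ix.symm j).2,
    (coef (ix.symm j).1 • bK (ix.symm j).2) ^ 8)
  have hpow8 : ∀ (c : F) (x : K), (c • x) ^ 8 = c ^ 2 • x ^ 8 := fun c x => by
    rw [Algebra.smul_def, Algebra.smul_def, mul_pow, ← map_pow]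
    congr 2
    calc c ^ 8 = (c ^ Fintype.card F) * (c ^ Fintype.card F) := by rw [hcardF]; ring
      _ = c ^ 2 := by rw [FiniteField.pow_card]; ring
  have hsumcol : ∀ u : Fin 6 → F, (∀ i, u i ∈ F₀) → ∃ x : K, ∑ j, u j • col j = E (x, x ^ 8) := by
    intro u hu
    refine ⟨∑ j, u j • (coef (ix.symm j).1 • bK (ix.symm j).2), ?_⟩
    have hs : (∑ j, u j • (coef (ix.symm j).1 • bK (ix.symm j).2)) ^ 8 =
        ∑ j, u j • (coef (ix.symm j).1 • bK (ix.symm j).2) ^ 8 := by
      rw [show (8 : ℕ) = 2 ^ 3 by norm_num, sum_pow_char_pow, show (2 : ℕ) ^ 3 = 8 by norm_num]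
      refine Finset.sum_congr rfl fun j _ => ?_
      rw [hpow8]
      rcases hbit _ (hu j) with h | h <;> simp [h]
    simp only [col]
    rw [hs]
    simp only [← map_smul, ← map_sum]
    congr 1
  have hsolve : ∀ x : K, ∃ u : Fin 6 → F, (∀ i, u i ∈ F₀) ∧
      ∑ j, u j • (coef (ix.symm j).1 • bK (ix.symm j).2) = x := by
    intro x
    have hdec : ∀ c : F, ∃ s : Fin 2 → F, (∀ l, s l ∈ F₀) ∧ c = s 0 + s 1 * ω := by
      intro c
      have hs1 : (c + c ^ 2) ^ 2 = c + c ^ 2 := by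
        have := FiniteField.pow_card c
        rw [hcardF] at this
        linear_combination this + (c ^ 3) * h2
      refine ⟨![c + (c + c ^ 2) * ω, c + c ^ 2], fun l => hF₀mem _ ?_, ?_⟩
      · fin_cases l
        · show (c + (c + c ^ 2) * ω) ^ 2 = c + (c + c ^ 2) * ω
          linear_combination ω ^ 2 * hs1 + (c + c ^ 2) * hω + (c * (c + c ^ 2) * ω - (c + c ^ 2) * ω - c) * h2
        · exact hs1
      · show c = (c + (c + c ^ 2) * ω) + (c + c ^ 2) * ω
        linear_combination -((c + c ^ 2) * ω) * h2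
    choose s hs hdecs using hdec
    refine ⟨fun j => s (bK.equivFun x (ix.symm j).2) (ix.symm j).1, fun j => hs _ _, ?_⟩
    rw [← Equiv.sum_comp ix]
    simp only [Equiv.symm_apply_apply]
    conv_rhs => rw [← bK.sum_equivFun x]
    rw [Fintype.sum_prod_type, Fin.sum_univ_two, ← Finset.sum_add_distrib]
    refine Finset.sum_congr rfl fun i _ => ?_
    rw [smul_smul, smul_smul, ← add_smul]
    congr 1
    simp only [coef, Matrix.cons_val_zero, Matrix.cons_val_one, mul_one]
    exact (hdecs _).symm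
  have hli : LinearIndependent F col := by
    rw [Fintype.linearIndependent_iff]
    intro t ht
    simp only [col, ← map_smul, ← map_sum, LinearEquiv.map_eq_zero_iff] at ht
    have h1 := congrArg Prod.fst ht
    have h2' := congrArg Prod.snd ht
    simp only [Prod.fst_sum, Prod.snd_sum, Prod.smul_mk, Prod.fst_zero, Prod.snd_zero] at h1 h2'
    rw [← Equiv.sum_comp ix] at h1 h2'
    simp only [Equiv.symm_apply_apply, hpow8, hbK8, smul_smul, Fintype.sum_prod_type, Fin.sum_univ_two,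
      ← Finset.sum_add_distrib, ← add_smul] at h1 h2'
    intro j
    obtain ⟨⟨l, i⟩, rfl⟩ := ix.surjective j
    have e1 := congrFun (congrArg bK.equivFun h1) i
    have e2 := congrFun (congrArg bK.equivFun h2') i
    simp [map_sum, Pi.single_apply, Finsupp.single_apply, coef] at e1 e2
    have hω2 : ω ^ 2 + ω ≠ 0 := fun h => one_ne_zero (by linear_combination hω - h)
    have ht1 : t (ix (1, i)) = 0 := by
      refine (mul_eq_zero.mp (?_ : t (ix (1, i)) * (ω ^ 2 + ω) = 0)).resolve_right hω2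
      linear_combination e1 + e2 - t (ix (0, i)) * h2
    fin_cases l
    · show t (ix (0, i)) = 0
      linear_combination e1 - ω * ht1
    · exact ht1
  let bV := basisOfLinearIndependentOfCardEqFinrank hli (by simp)
  let Pe : (Fin 6 → F) ≃ₗ[F] (Fin 6 → F) := bV.equivFun.symm
  have hPe : ∀ u, Pe u = ∑ j, u j • col j := fun u => by
    simp [Pe, Basis.equivFun_symm_apply, bV]
  refine ⟨F₀, GeoClasses.glOfEquiv Pe, 1, by rw [Nat.card_eq_fintype_card, hcardF, hF₀], one_ne_zero,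
    by linear_combination h2, fun u v hu hv => ?_, fun u hu => ?_, ?_⟩
  · rw [GeoClasses.glOfEquiv_mulVec, GeoClasses.glOfEquiv_mulVec, hPe, hPe, one_mul]
    obtain ⟨x, hx⟩ := hsumcol u hu
    obtain ⟨y, hy⟩ := hsumcol v hv
    rw [hx, hy, hh, hHE]
    apply hF₀mem
    rw [← hfr8]
    congr 1
    show (x * y ^ 8 + x ^ 8 * (y ^ 8) ^ 8) ^ 8 = x * y ^ 8 + x ^ 8 * (y ^ 8) ^ 8
    rw [← _root_.pow_mul, show (8 * 8 : ℕ) = 64 by norm_num, h64]
    rw [show (8 : ℕ) = 2 ^ 3 by norm_num, add_pow_char_pow, show (2 : ℕ) ^ 3 = 8 by norm_num, mul_pow, mul_pow,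
      ← _root_.pow_mul, ← _root_.pow_mul, show (8 * 8 : ℕ) = 64 by norm_num, h64, h64, add_comm]
  · rw [GeoClasses.glOfEquiv_mulVec, hPe]
    obtain ⟨x, hx⟩ := hsumcol u hu
    rw [hx, hh, hHE]
    show Algebra.trace F K (x * x ^ 8 + x ^ 8 * (x ^ 8) ^ 8) = 0
    rw [← _root_.pow_mul, show (8 * 8 : ℕ) = 64 by norm_num, h64,
      show x * x ^ 8 + x ^ 8 * x = 0 by linear_combination (x * x ^ 8) * h2K, map_zero]
  rintro g ⟨hg, hgU, hgdet⟩
  let σ₀ : K →ₐ[F] K :=
    { toFun := fun k => ⟨_, (hg k).mp k.2⟩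
      map_one' := Subtype.ext (by simp)
      map_mul' := fun x y => Subtype.ext (by simp [mul_assoc, ← Units.val_mul])
      map_zero' := Subtype.ext (by simp)
      map_add' := fun x y => Subtype.ext (by simp [mul_add, add_mul])
      commutes' := fun a => Subtype.ext (by simp [Algebra.algebraMap_eq_smul_one, ← Units.val_mul]) }
  have hbij : Function.Bijective σ₀ := σ₀.toRingHom.injective.bijective_of_finite
  let σ : K ≃ₐ[F] K := AlgEquiv.ofBijective σ₀ hbij
  have hσ : ∀ (k : K) (v : Fin 6 → F), (g : Matrix (Fin 6) (Fin 6) F) *ᵥ ((k : Matrix (Fin 6) (Fin 6) F) *ᵥ v) =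
      ((σ k : K) : Matrix (Fin 6) (Fin 6) F) *ᵥ ((g : Matrix (Fin 6) (Fin 6) F) *ᵥ v) := by
    intro k v
    rw [Matrix.mulVec_mulVec, Matrix.mulVec_mulVec]
    congr 1
    show _ = (g : Matrix (Fin 6) (Fin 6) F) * k * ((g⁻¹ : GL (Fin 6) F) : Matrix (Fin 6) (Fin 6) F) * g
    rw [Matrix.mul_assoc _ _ (g : Matrix (Fin 6) (Fin 6) F), Units.inv_mul, Matrix.mul_one]
  have hHg : ∀ u v, HK ((g : Matrix (Fin 6) (Fin 6) F) *ᵥ u) ((g : Matrix (Fin 6) (Fin 6) F) *ᵥ v) = σ (HK u v) := by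
    intro u v
    refine hext _ _ fun k => ?_
    obtain ⟨k, rfl⟩ := σ.surjective k
    rw [hHK, ← map_mul, Algebra.trace_eq_of_algEquiv, hHK, ← hσ]
    exact hgU _ _
  obtain ⟨⟨α, β⟩, hga⟩ := E.surjective ((g : Matrix (Fin 6) (Fin 6) F) *ᵥ a)
  obtain ⟨⟨γ, δ⟩, hgb⟩ := E.surjective ((g : Matrix (Fin 6) (Fin 6) F) *ᵥ b)
  have haa := hHg a a
  have hba' := hHg b a
  have hbb := hHg b b
  rw [← hga, hHE, hm₁, map_one] at haa
  rw [← hgb, ← hga, hHE, hba, map_zero] at hba'
  rw [← hgb, hHE, hm₂, map_one] at hbb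
  simp only at haa hba' hbb
  obtain ⟨c, hc⟩ : ∃ c, c = α * δ + β * γ := ⟨_, rfl⟩
  have hγ : γ = c * β ^ 8 := by
    rw [hc]
    linear_combination -γ * haa + α * hba' - (α * δ * β ^ 8) * h2K
  have hδ : δ = c * α ^ 8 := by
    rw [hc]
    linear_combination -δ * haa + β * hba' - (β * γ * α ^ 8) * h2K
  have hc9 : c ^ 9 = 1 := by
    have h8 : ∀ y : K, (c * y ^ 8) ^ 8 = c ^ 8 * y := fun y => by
      rw [mul_pow, ← _root_.pow_mul, show (8 * 8 : ℕ) = 64 by norm_num, h64]
    rw [hγ, hδ, h8, h8] at hbb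
    linear_combination hbb - c ^ 9 * haa
  -- the determinant
  have hc21 : c ^ 21 = 1 := by
    let A : Matrix (Fin 2) (Fin 2) K := !![α, γ; β, δ]
    let pK : (Fin 2 → K) ≃ₗ[F] K × K := LinearEquiv.finTwoArrow F K
    let Eg : (Fin 2 → K) ≃ₗ[F] (Fin 6 → F) := pK.trans E
    let S : (Fin 2 → K) →ₗ[F] (Fin 2 → K) := LinearMap.pi fun l => σ.toLinearMap ∘ₗ LinearMap.proj l
    have hlin : Matrix.toLin' (g : Matrix (Fin 6) (Fin 6) F) =
        (Eg : (Fin 2 → K) →ₗ[F] (Fin 6 → F)) ∘ₗ ((Matrix.toLin' A).restrictScalars F ∘ₗ S) ∘ₗ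
          (Eg.symm : (Fin 6 → F) →ₗ[F] (Fin 2 → K)) := by
      refine LinearMap.ext fun v => ?_
      obtain ⟨p, rfl⟩ := Eg.surjective v
      simp only [LinearMap.comp_apply, LinearEquiv.coe_coe, LinearEquiv.symm_apply_apply, Matrix.toLin'_apply,
        LinearMap.coe_restrictScalars]
      show (g : Matrix (Fin 6) (Fin 6) F) *ᵥ E (p 0, p 1) = E ((A *ᵥ S p) 0, (A *ᵥ S p) 1)
      rw [hE (p 0, p 1), Matrix.mulVec_add, hσ, hσ, ← hga, ← hgb]
      simp only [hE, Matrix.mulVec, dotProduct, Fin.sum_univ_two, A, S, LinearMap.pi_apply, LinearMap.comp_apply,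
        LinearMap.proj_apply]
      simp only [Matrix.of_apply, Matrix.cons_val', Matrix.cons_val_zero, Matrix.cons_val_one, Matrix.empty_val',
        Matrix.cons_val_fin_one, AlgEquiv.toLinearMap_apply]
      push_cast
      simp only [Matrix.add_mulVec, Matrix.mulVec_add, Matrix.mulVec_mulVec]
      rw [hK.comm _ α.2 _ (σ (p 0)).2, hK.comm _ β.2 _ (σ (p 0)).2, hK.comm _ γ.2 _ (σ (p 1)).2, hK.comm _ δ.2 _ (σ (p 1)).2]
      abel
    let B : Basis (Σ _ : Fin 2, Fin 3) F (Fin 2 → K) := Pi.basis fun _ => bK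
    have hS : LinearMap.det S = 1 := by
      have hent : ∀ i j, LinearMap.toMatrix B B S i j ∈ F₀ := by
        rintro ⟨l, i⟩ ⟨l', j⟩
        rw [LinearMap.toMatrix_apply, Pi.basis_repr, ← Basis.equivFun_apply]
        apply hcoord
        simp only [S, LinearMap.pi_apply, LinearMap.comp_apply, LinearMap.proj_apply, Pi.basis_apply, B,
          AlgEquiv.toLinearMap_apply]
        by_cases h : l = l'
        · subst h; rw [Pi.single_eq_same, ← map_pow, hbK8]
        · rw [Pi.single_eq_of_ne h, map_zero, zero_pow (by norm_num)]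
      let S₀ : Matrix (Σ _ : Fin 2, Fin 3) (Σ _ : Fin 2, Fin 3) F₀ := Matrix.of fun i j => ⟨_, hent i j⟩
      have hd : (F₀.subtype S₀.det) = LinearMap.det S := by
        rw [← LinearMap.det_toMatrix B S, RingHom.map_det]; rfl
      refine (hbit _ (hd ▸ SetLike.coe_mem S₀.det)).resolve_left fun h0 => ?_
      have := congrArg LinearMap.det hlin
      rw [LinearMap.det_toLin', GeoClasses.mem_specialLinear_iff.mp hgdet, LinearMap.det_conj, LinearMap.det_comp,
        h0, mul_zero] at this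
      exact one_ne_zero this
    have h1 := congrArg LinearMap.det hlin
    rw [LinearMap.det_toLin', GeoClasses.mem_specialLinear_iff.mp hgdet, LinearMap.det_conj, LinearMap.det_comp,
      hS, mul_one, LinearMap.det_restrictScalars, LinearMap.det_toLin', Matrix.det_fin_two_of] at h1
    have hdet : α * δ - γ * β = c := by rw [hc]; linear_combination -(γ * β) * h2K
    rw [hdet] at h1
    have h := FiniteField.algebraMap_norm_eq_pow_sum F K c
    rw [← h1, map_one, hK.finrank_eq, Nat.card_eq_fintype_card, hcardF] at h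
    simpa [Finset.sum_range_succ] using h.symm
  have hc3 : c ^ 3 = 1 := by
    calc c ^ 3 = c ^ 3 * (c ^ 21) ^ 2 := by rw [hc21]; ring
      _ = (c ^ 9) ^ 5 := by ring
      _ = 1 := by rw [hc9, one_pow]
  obtain ⟨r, hr⟩ : ∃ r : F, algebraMap F K r = c := by
    have hw := congrArg (algebraMap F K) hω
    simp only [map_add, map_pow, map_one, map_zero] at hw
    set w := algebraMap F K ω with hwdef
    have : (c - 1) * ((c - w) * (c - w ^ 2)) = 0 := by
      linear_combination hc3 + (-c ^ 2 + c * w - w + 1) * hw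
    rcases mul_eq_zero.mp this with h | h
    · exact ⟨1, by rw [map_one]; exact (sub_eq_zero.mp h).symm⟩
    rcases mul_eq_zero.mp h with h | h
    · exact ⟨ω, by rw [← hwdef]; exact (sub_eq_zero.mp h).symm⟩
    · exact ⟨ω ^ 2, by rw [map_pow, ← hwdef]; exact (sub_eq_zero.mp h).symm⟩
  have hr0 : r ≠ 0 := fun h => by
    rw [h, map_zero] at hr
    rw [← hr, zero_pow (by norm_num)] at hc3
    exact zero_ne_one hc3
  refine mem_subfieldSubgroup_of_columns hr0 fun j => ?_
  have hj : (GeoClasses.glOfEquiv Pe : Matrix (Fin 6) (Fin 6) F) *ᵥ Pi.single j 1 = col j := by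
    rw [GeoClasses.glOfEquiv_mulVec, hPe, Finset.sum_eq_single j (fun i _ hi => by rw [Pi.single_eq_of_ne hi, zero_smul])
      (by simp), Pi.single_eq_same, one_smul]
  set x : K := coef (ix.symm j).1 • bK (ix.symm j).2
  set y : K := c * (σ x * α + σ (x ^ 8) * γ) with hy
  have hr8 : ∀ z : K, (z ^ 8) ^ 8 = z := fun z => by rw [← _root_.pow_mul]; norm_num; exact h64 z
  have hgx : r • ((g : Matrix (Fin 6) (Fin 6) F) *ᵥ E (x, x ^ 8)) = E (y, y ^ 8) := by
    have hgE : (g : Matrix (Fin 6) (Fin 6) F) *ᵥ E (x, x ^ 8) =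
        E (σ x * α + σ (x ^ 8) * γ, σ x * β + σ (x ^ 8) * δ) := by
      rw [hE (x, x ^ 8), Matrix.mulVec_add, hσ, hσ, ← hga, ← hgb]
      simp only [hE]
      push_cast
      simp only [Matrix.add_mulVec, Matrix.mulVec_add, Matrix.mulVec_mulVec]
      abel
    rw [hgE, ← map_smul]
    congr 1
    refine Prod.ext ?_ ?_
    · show r • _ = y
      rw [Algebra.smul_def, hr]
    · show r • _ = y ^ 8
      rw [Algebra.smul_def, hr, hy, mul_pow,
        show (8 : ℕ) = 2 ^ 3 by norm_num, add_pow_char_pow, show (2 : ℕ) ^ 3 = 8 by norm_num, mul_pow, mul_pow,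
        map_pow, hr8, hγ, hδ, mul_pow, hr8]
      have hc8 : c ^ 8 = c ^ 2 := by rw [show c ^ 8 = (c ^ 3) ^ 2 * c ^ 2 by ring, hc3, one_pow, one_mul]
      rw [hc8, show c ^ 2 * ((σ x) ^ 8 * α ^ 8 + σ x * (c ^ 2 * β)) =
          c ^ 2 * ((σ x) ^ 8 * α ^ 8) + c ^ 3 * c * (σ x * β) by ring, hc3]
      ring
  obtain ⟨u, hu, hux⟩ := hsolve y
  refine ⟨u, hu, ?_⟩
  rw [hj]
  show r • ((g : Matrix (Fin 6) (Fin 6) F) *ᵥ E (x, x ^ 8)) = _
  rw [hgx, GeoClasses.glOfEquiv_mulVec, hPe]
  have hu8 : y ^ 8 = ∑ i, u i • (coef (ix.symm i).1 • bK (ix.symm i).2) ^ 8 := by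
    rw [← hux, show (8 : ℕ) = 2 ^ 3 by norm_num, sum_pow_char_pow, show (2 : ℕ) ^ 3 = 8 by norm_num]
    refine Finset.sum_congr rfl fun i _ => ?_
    rw [hpow8]
    rcases hbit _ (hu i) with h | h <;> simp [h]
  simp only [col, ← map_smul, ← map_sum]
  congr 1
  refine Prod.ext ?_ ?_
  · simp [Prod.fst_sum, hux]
  · simp [Prod.snd_sum, hu8]

end Cfsg.Agent.ClassicalMax
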