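import Cfsg.Agent.ClassicalMax.FormProper
import Cfsg.Agent.Classical.UGen

/-!
The special unitary group lies in no geometric member relative to its form.
-/

set_option autoImplicit false
set_option linter.style.haveILetI false

namespace Cfsg.Agent.ClassicalMax

open Matrix Cfsg.Geo
open Cfsg.Agent.Classical.U (SqField herm_def herm_add_left herm_smul_left herm_smul_right herm_single_one)
open scoped MatrixGroups Matrix commutatorElement

variable {F : Type*} [Field F] {n q : ℕ}

/-- The special unitary group inside `GL`. -/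
abbrev suGL (n : ℕ) (F : Type*) [Field F] (q : ℕ) : Subgroup (GL (Fin n) F) :=
  Cfsg.GU n F q ⊓ specialLinear (Fin n) F

/-- The trace of a product of two transvections. -/
theorem IsTransvec.trace_mul {ι : Type} [Fintype ι] [DecidableEq ι] {g h : GL ι F}
    {φ ψ : (ι → F) →ₗ[F] F} {v w : ι → F} (hg : IsTransvec g φ v) (hh : IsTransvec h ψ w) :
    ((g * h : GL ι F) : Matrix ι ι F).trace = Fintype.card ι + φ w * ψ v := by
  have hdot : ∀ (χ : (ι → F) →ₗ[F] F) u, (fun i => χ (Pi.single i 1)) ⬝ᵥ u = χ u := by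
    intro χ u
    conv_rhs => rw [pi_eq_sum_univ' u, map_sum]
    simp [dotProduct, mul_comm]
  have hmat : ∀ {g : GL ι F} {χ : (ι → F) →ₗ[F] F} {x : ι → F}, IsTransvec g χ x →
      (g : Matrix ι ι F) = 1 + Matrix.vecMulVec x (fun i => χ (Pi.single i 1)) := by
    intro g χ x hgx
    apply Matrix.toLin'.injective
    refine LinearMap.ext fun u => ?_
    rw [Matrix.toLin'_apply, Matrix.toLin'_apply, hgx.apply_eq, Matrix.add_mulVec, Matrix.one_mulVec,
      Matrix.vecMulVec_mulVec, hdot]
    simp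
  rw [Units.val_mul, hmat hg, hmat hh]
  simp only [add_mul, mul_add, one_mul, mul_one, Matrix.trace_add, Matrix.trace_one,
    Matrix.vecMulVec_mul_vecMulVec, Matrix.trace_vecMulVec, hdot,
    dotProduct_comm v, dotProduct_comm w, hg.centre, hh.centre]
  rw [smul_dotProduct, hdot, smul_eq_mul]
  ring

variable (q) in
/-- `x ↦ h(x, v)`. -/
noncomputable def hermDual (v : Fin n → F) : (Fin n → F) →ₗ[F] F where
  toFun x := Cfsg.hermForm n F q x v
  map_add' x y := herm_add_left x y v
  map_smul' c x := herm_smul_left c x v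

theorem hermDual_apply (v x : Fin n → F) : hermDual q v x = Cfsg.hermForm n F q x v := rfl

/-- The unitary transvection. -/
noncomputable def uTau {v : Fin n → F} (hv : Cfsg.hermForm n F q v v = 0) (a : F) : GL (Fin n) F :=
  GeoClasses.transv (a • hermDual q v) v (by simp [hermDual_apply, hv])

theorem uTau_isTransvec {v : Fin n → F} (hv : Cfsg.hermForm n F q v v = 0) (a : F) :
    IsTransvec (uTau hv a) (a • hermDual q v) v where
  centre := by simp [hermDual_apply, hv]
  apply_eq u := GeoClasses.transv_mulVec _ _ _ u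

variable (hF : SqField F q)
include hF

theorem hermDual_ne_zero {v : Fin n → F} (hv : v ≠ 0) : hermDual q v ≠ 0 := by
  intro h
  refine hv (hF.eq_zero_of_herm v fun x => ?_)
  rw [← hF.herm_symm]
  show (hermDual q v x) ^ q = 0
  rw [h, LinearMap.zero_apply, zero_pow hF.q_ne_zero]

theorem uTau_mem {v : Fin n → F} (hv : Cfsg.hermForm n F q v v = 0) {a : F} (ha : a ^ q = -a) :
    uTau hv a ∈ suGL n F q := by
  refine ⟨fun x y => ?_, GeoClasses.transv_mem_specialLinear _ _ _⟩
  simp only [Units.coeHom_apply, (uTau_isTransvec hv a).apply_eq, LinearMap.smul_apply, hermDual_apply,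
    smul_eq_mul]
  show Classical.U.herm q _ _ = Classical.U.herm q _ _
  rw [herm_add_left, hF.herm_add_right, hF.herm_add_right, herm_smul_left, herm_smul_left,
    herm_smul_right, herm_smul_right, mul_pow, ha, hF.herm_symm y v]
  simp only [Classical.U.herm, hv]
  ring

theorem uTau_ne_one {v : Fin n → F} (hv : Cfsg.hermForm n F q v v = 0) (hv0 : v ≠ 0) {a : F} (ha : a ≠ 0) :
    uTau hv a ≠ 1 := by
  intro h
  rcases (uTau_isTransvec hv a).eq_one_iff.mp h with h0 | h0
  · exact hermDual_ne_zero hF hv0 ((smul_eq_zero.mp h0).resolve_left ha)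
  · exact hv0 h0

/-- Scalars of norm minus one avoiding two given values. -/
theorem exists_eps (a b : F) : ∃ ε : F, ε ^ (q + 1) = -1 ∧ ε ≠ a ∧ ε ≠ b := by
  classical
  obtain ⟨h, -⟩ := id hF
  have : Fintype F := Fintype.ofFinite F
  have hc := hF.card_norm_eq (c := (-1 : F)) (by rw [hF.neg_pow, one_pow]) (by simp)
  rw [Nat.card_eq_fintype_card, Fintype.card_subtype] at hc
  obtain ⟨ε, hε⟩ : ((Finset.univ.filter fun x : F => x ^ (q + 1) = -1) \ {a, b}).Nonempty := by
    rw [← Finset.card_pos]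
    have h1 := Finset.le_card_sdiff {a, b} (Finset.univ.filter fun x : F => x ^ (q + 1) = -1)
    have h2 : ({a, b} : Finset F).card ≤ 2 := Finset.card_le_two
    have h3 := hF.one_lt
    omega
  simp at hε
  exact ⟨ε, hε.1, hε.2.1, hε.2.2⟩

/-- The standard isotropic vectors. -/
theorem isotropic_pair {i j : Fin n} (hij : i ≠ j) {ε : F} (hε : ε ^ (q + 1) = -1) :
    Cfsg.hermForm n F q (Pi.single i 1 + ε • Pi.single j 1) (Pi.single i 1 + ε • Pi.single j 1) = 0 := by
  have hq := hF.q_ne_zero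
  show Classical.U.herm q _ _ = 0
  rw [herm_add_left, hF.herm_add_right, hF.herm_add_right, herm_smul_left, herm_smul_left,
    herm_smul_right, herm_smul_right, herm_single_one i hq, herm_single_one j hq, herm_single_one i hq,
    herm_single_one j hq]
  simp [hij, hij.symm]
  rw [← pow_succ']
  linear_combination hε

omit hF in
theorem pair_ne_zero {i j : Fin n} (hij : i ≠ j) (ε : F) :
    (Pi.single i 1 + ε • Pi.single j 1 : Fin n → F) ≠ 0 := fun h => by
  have := congrFun h i
  simp [hij] at this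

theorem suGL_commutator (hn : 3 ≤ n) (hex : ¬ (n = 3 ∧ q = 2)) :
    ⁅suGL n F q, suGL n F q⁆ = suGL n F q := by
  have hmap : (suGL n F q).map (Classical.U.glEquiv n F).toMonoidHom =
      (Classical.U.SUG n F q).map (Classical.U.UG n F q).subtype := by
    ext g
    obtain ⟨a, rfl⟩ := (Classical.U.glEquiv n F).surjective g
    constructor
    · rintro ⟨b, ⟨hb1, hb2⟩, e⟩
      obtain rfl : b = a := (Classical.U.glEquiv n F).injective e
      refine ⟨⟨_, fun u v => hb1 u v⟩, ?_, rfl⟩
      show LinearEquiv.det (Classical.U.glEquiv n F b) = 1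
      rw [Classical.U.det_glEquiv]
      exact hb2
    · rintro ⟨b, hb, e⟩
      refine ⟨a, ⟨fun u v => ?_, ?_⟩, rfl⟩
      · have := b.2 u v
        rw [show (b : (Fin n → F) ≃ₗ[F] (Fin n → F)) = Classical.U.glEquiv n F a from e] at this
        exact this
      · have hd : LinearEquiv.det (b : (Fin n → F) ≃ₗ[F] (Fin n → F)) = 1 := hb
        rw [show (b : (Fin n → F) ≃ₗ[F] (Fin n → F)) = Classical.U.glEquiv n F a from e,
          Classical.U.det_glEquiv] at hd
        exact hd
  apply Subgroup.map_injective (f := (Classical.U.glEquiv n F).toMonoidHom) (Classical.U.glEquiv n F).injective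
  rw [Subgroup.map_commutator, hmap, ← Subgroup.map_commutator, Classical.U.SUG_eq_TG hF (by omega) hex,
    ← Classical.U.TG_perfect hF hn (Classical.U.hasUni hF hn hex)]

theorem suGL_not_le_stabilizer (hn : 2 ≤ n) {W : Submodule F (Fin n → F)} (hb : W ≠ ⊥) (ht : W ≠ ⊤) :
    ¬ suGL n F q ≤ subspaceStabilizer W := by
  intro hle
  obtain ⟨δ, hδ0, hδ⟩ := hF.exists_skew
  have hq := hF.q_ne_zero
  have key : ∀ w ∈ W, ∀ v, Cfsg.hermForm n F q v v = 0 → Cfsg.hermForm n F q w v ≠ 0 → v ∈ W := by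
    intro w hw v hv hne
    have h := (GeoClasses.mem_subspaceStabilizer_iff.mp (hle (uTau_mem hF hv hδ)) w).mp hw
    rw [(uTau_isTransvec hv δ).apply_eq] at h
    have := W.sub_mem h hw
    simp only [LinearMap.smul_apply, hermDual_apply, smul_eq_mul, add_sub_cancel_left] at this
    have h' := W.smul_mem (δ * Cfsg.hermForm n F q w v)⁻¹ this
    rwa [inv_smul_smul₀ (mul_ne_zero hδ0 hne)] at h'
  obtain ⟨w, hw, hw0⟩ := Submodule.exists_mem_ne_zero_of_ne_bot hb
  obtain ⟨i, hi⟩ : ∃ i, w i ≠ 0 := by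
    by_contra hc
    push Not at hc
    exact hw0 (funext hc)
  have hpair : ∀ j, j ≠ i → (Pi.single i 1 : Fin n → F) ∈ W ∧ (Pi.single j 1 : Fin n → F) ∈ W := by
    intro j hj
    have hval : ∀ ε : F, Cfsg.hermForm n F q w (Pi.single i 1 + ε • Pi.single j 1) = w i + ε ^ q * w j := by
      intro ε
      show Classical.U.herm q _ _ = _
      rw [hF.herm_add_right, herm_smul_right, herm_single_one i hq, herm_single_one j hq]
    -- at most one scalar gives an orthogonal vector
    obtain ⟨e, he⟩ : ∃ e : F, ∀ ε : F, w i + ε ^ q * w j = 0 → ε = e := by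
      by_cases hwj : w j = 0
      · exact ⟨0, fun ε h => absurd h (by rw [hwj, mul_zero, add_zero]; exact hi)⟩
      · refine ⟨(-w i / w j) ^ q, fun ε h => ?_⟩
        rw [← show ε ^ q = -w i / w j by rw [eq_div_iff hwj]; linear_combination h, hF.pow_pow]
    obtain ⟨ε₁, hε₁, hne₁, -⟩ := exists_eps hF e e
    obtain ⟨ε₂, hε₂, hne₂, hne12⟩ := exists_eps hF e ε₁
    have m₁ := key w hw _ (isotropic_pair hF hj.symm hε₁) (by rw [hval]; exact fun h => hne₁ (he _ h))
    have m₂ := key w hw _ (isotropic_pair hF hj.symm hε₂) (by rw [hval]; exact fun h => hne₂ (he _ h))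
    have hmj : (Pi.single j 1 : Fin n → F) ∈ W := by
      have := W.smul_mem (ε₂ - ε₁)⁻¹ (W.sub_mem m₂ m₁)
      rwa [add_sub_add_left_eq_sub, ← sub_smul, inv_smul_smul₀ (sub_ne_zero.mpr hne12)] at this
    exact ⟨by simpa using W.sub_mem m₁ (W.smul_mem ε₁ hmj), hmj⟩
  haveI : Nontrivial (Fin n) := Fin.nontrivial_iff_two_le.mpr hn
  obtain ⟨j₀, hj₀⟩ := exists_ne i
  have hall : ∀ j, (Pi.single j 1 : Fin n → F) ∈ W := fun j => by
    by_cases hj : j = i
    · exact hj ▸ (hpair j₀ hj₀).1
    · exact (hpair j hj).2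
  apply ht
  rw [eq_top_iff]
  intro x _
  rw [pi_eq_sum_univ' x]
  exact W.sum_mem fun k _ => W.smul_mem _ (hall k)

theorem suGL_not_le_decompositionStabilizer {t k : ℕ} {D : Fin t → Submodule F (Fin n → F)}
    (hD : IsMDecomposition k D) (hk : 2 ≤ k) : ¬ suGL n F q ≤ decompositionStabilizer D := by
  intro hle
  obtain ⟨δ, hδ0, hδ⟩ := hF.exists_skew
  have hcen : ∀ v, v ≠ 0 → Cfsg.hermForm n F q v v = 0 → ∃ a, v ∈ D a := by
    intro v hv0 hv
    obtain ⟨a, b, hmem, heq⟩ := transvec_centre_mem_sup hD (uTau_isTransvec hv δ)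
      (smul_ne_zero hδ0 (hermDual_ne_zero hF hv0)) (hle (uTau_mem hF hv hδ))
    obtain rfl := heq hk
    exact ⟨a, by simpa using hmem⟩
  have hd := fun a => Submodule.disjoint_def.mp (hD.indep a)
  have hsup : ∀ {a b : Fin t}, b ≠ a → ∀ {x}, x ∈ D b → x ∈ ⨆ (c) (_ : c ≠ a), D c :=
    fun h _ hx => Submodule.mem_iSup_of_mem _ (Submodule.mem_iSup_of_mem h hx)
  -- two basis vectors lie in a common member
  have hpair : ∀ i j : Fin n, i ≠ j → ∃ a, (Pi.single i 1 : Fin n → F) ∈ D a ∧ (Pi.single j 1 : Fin n → F) ∈ D a := by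
    intro i j hij
    obtain ⟨ε₁, hε₁, -, -⟩ := exists_eps hF (0 : F) 0
    obtain ⟨ε₂, hε₂, h21, -⟩ := exists_eps hF ε₁ ε₁
    obtain ⟨ε₃, hε₃, h31, h32⟩ := exists_eps hF ε₁ ε₂
    set v : F → (Fin n → F) := fun ε => Pi.single i 1 + ε • Pi.single j 1 with hvdef
    obtain ⟨a, ha⟩ := hcen (v ε₁) (pair_ne_zero hij _) (isotropic_pair hF hij hε₁)
    obtain ⟨b, hb⟩ := hcen (v ε₂) (pair_ne_zero hij _) (isotropic_pair hF hij hε₂)
    obtain ⟨c, hc⟩ := hcen (v ε₃) (pair_ne_zero hij _) (isotropic_pair hF hij hε₃)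
    obtain rfl : a = b := by
      by_contra hab
      set β := (ε₃ - ε₁) / (ε₂ - ε₁)
      have h3 : v ε₃ = (1 - β) • v ε₁ + β • v ε₂ := by
        have hβ : β * (ε₂ - ε₁) = ε₃ - ε₁ := div_mul_cancel₀ _ (sub_ne_zero.mpr h21)
        simp only [hvdef, smul_add, smul_smul]
        rw [show ε₃ = (1 - β) * ε₁ + β * ε₂ by linear_combination -hβ, add_smul]
        module
      by_cases hca : c = a
      · subst hca
        have hm : β • v ε₂ ∈ D c := by
          rw [show β • v ε₂ = v ε₃ - (1 - β) • v ε₁ by rw [h3]; abel]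
          exact Submodule.sub_mem _ hc (Submodule.smul_mem _ _ ha)
        have := hd c _ hm (hsup (Ne.symm hab) (Submodule.smul_mem _ _ hb))
        exact (smul_eq_zero.mp this).elim (div_ne_zero (sub_ne_zero.mpr h31) (sub_ne_zero.mpr h21))
          (pair_ne_zero hij _)
      · have hm : (1 - β) • v ε₁ ∈ ⨆ (d) (_ : d ≠ a), D d := by
          rw [show (1 - β) • v ε₁ = v ε₃ - β • v ε₂ by rw [h3]; abel]
          exact Submodule.sub_mem _ (hsup hca hc) (Submodule.smul_mem _ _ (hsup (Ne.symm hab) hb))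
        have := hd a _ (Submodule.smul_mem _ _ ha) hm
        refine (smul_eq_zero.mp this).elim (fun h => h32 ?_) (pair_ne_zero hij _)
        have hβ : β * (ε₂ - ε₁) = ε₃ - ε₁ := div_mul_cancel₀ _ (sub_ne_zero.mpr h21)
        linear_combination (ε₁ - ε₂) * h - hβ
    have hmj : (Pi.single j 1 : Fin n → F) ∈ D a := by
      have := Submodule.smul_mem _ (ε₂ - ε₁)⁻¹ (Submodule.sub_mem _ hb ha)
      rwa [hvdef, add_sub_add_left_eq_sub, ← sub_smul, inv_smul_smul₀ (sub_ne_zero.mpr h21)] at this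
    exact ⟨a, by simpa [hvdef] using Submodule.sub_mem _ ha (Submodule.smul_mem _ ε₁ hmj), hmj⟩
  have ht := hD.two_le
  by_cases hn : 2 ≤ n
  · obtain ⟨a, ha, -⟩ := hpair ⟨0, by omega⟩ ⟨1, by omega⟩ (by simp)
    have hall : ∀ j, (Pi.single j 1 : Fin n → F) ∈ D a := by
      intro j
      by_cases hj : j = ⟨0, by omega⟩
      · exact hj ▸ ha
      · obtain ⟨b, hb, hbj⟩ := hpair ⟨0, by omega⟩ j (Ne.symm hj)
        obtain rfl : b = a := by
          by_contra hba
          have := hd a _ ha (hsup hba hb)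
          simp at this
        exact hbj
    have htop : D a = ⊤ := eq_top_iff.mpr fun x _ => by
      rw [pi_eq_sum_univ' x]
      exact Submodule.sum_mem _ fun k _ => Submodule.smul_mem _ _ (hall k)
    obtain ⟨b, hb⟩ : ∃ b : Fin t, b ≠ a := by
      haveI : Nontrivial (Fin t) := Fin.nontrivial_iff_two_le.mpr ht
      exact exists_ne a
    obtain ⟨y, hy, hy0⟩ := Submodule.exists_mem_ne_zero_of_ne_bot (p := D b) fun h => by
      have := hD.finrank_eq b
      rw [h, finrank_bot] at this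
      omega
    exact hy0 (hd a y (htop ▸ Submodule.mem_top) (hsup hb hy))
  · have h1 := hD.finrank_eq ⟨0, by omega⟩
    have := Submodule.finrank_le (D ⟨0, by omega⟩)
    rw [Module.finrank_fintype_fun_eq_card, Fintype.card_fin] at this
    omega

theorem suGL_not_le_frameStabilizer (hn : 3 ≤ n) (hex : ¬ (n = 3 ∧ q = 2)) {t : ℕ}
    {D : Fin t → Submodule F (Fin n → F)} (hD : IsNondegenerateMDecomposition (Cfsg.hermForm n F q) 1 D)
    (ht : t = n) : ¬ suGL n F q ≤ decompositionStabilizer D := by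
  classical
  subst ht
  intro hle
  obtain ⟨δ, hδ0, hδ⟩ := hF.exists_skew
  have hq := hF.q_ne_zero
  have hv : ∀ i, ∃ v, v ∈ D i ∧ v ≠ 0 := fun i => by
    obtain ⟨v, hv, hv0⟩ := Submodule.exists_mem_ne_zero_of_ne_bot (p := D i) fun h => by
      have := hD.decomp.finrank_eq i
      rw [h, finrank_bot] at this
      exact zero_ne_one this
    exact ⟨v, hv, hv0⟩
  choose v hv hv0 using hv
  have horth : ∀ i j, i ≠ j → Classical.U.herm q (v i) (v j) = 0 := fun i j h => hD.orthogonal i j h _ (hv i) _ (hv j)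
  have hline : ∀ i x, x ∈ D i → ∃ c : F, x = c • v i := fun i x hx => by
    obtain ⟨c, hc⟩ := exists_smul_eq_of_finrank_eq_one (hD.decomp.finrank_eq i) (x := ⟨v i, hv i⟩)
      (fun h => hv0 i (congrArg Subtype.val h)) ⟨x, hx⟩
    exact ⟨c, (congrArg Subtype.val hc).symm⟩
  set d := fun i => Classical.U.herm q (v i) (v i) with hd
  have hdfix : ∀ i, d i ^ q = d i := fun i => hF.herm_symm _ _
  have hd0 : ∀ i, d i ≠ 0 := by
    intro i h0
    obtain ⟨-, x, hx, hne⟩ := hD.nondegenerate i _ (hv i) (hv0 i)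
    obtain ⟨c, rfl⟩ := hline i x hx
    exact hne (show Classical.U.herm q (v i) (c • v i) = 0 by rw [herm_smul_right]; exact mul_eq_zero_of_right _ h0)
  -- prescribed norms on the coordinates
  obtain ⟨c, hcfix, hc0, hcsum, hc3⟩ : ∃ c : Fin t → F, (∀ i, c i ^ q = c i) ∧ c ⟨0, by omega⟩ ≠ 0 ∧
      ∑ i, c i = 0 ∧ ∀ i : Fin t, ∃ j, j ≠ i ∧ j ≠ ⟨0, by omega⟩ ∧ c j ≠ 0 := by
    let i0 : Fin t := ⟨0, by omega⟩
    let i1 : Fin t := ⟨1, by omega⟩
    let i2 : Fin t := ⟨2, by omega⟩
    have h01 : i0 ≠ i1 := by simp [i0, i1, Fin.ext_iff]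
    have h02 : i0 ≠ i2 := by simp [i0, i2, Fin.ext_iff]
    have h12 : i1 ≠ i2 := by simp [i1, i2, Fin.ext_iff]
    by_cases hq2 : q = 2
    · have ht4 : 4 ≤ t := by
        by_contra h
        exact hex ⟨by omega, hq2⟩
      let i3 : Fin t := ⟨3, by omega⟩
      obtain ⟨h, e⟩ := id hF
      have h2 : (2 : F) = 0 := by
        have : Fintype F := Fintype.ofFinite F
        have h4 := Nat.cast_card_eq_zero F
        rw [Nat.card_eq_fintype_card, hq2] at e
        rw [e] at h4
        push_cast at h4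
        exact pow_eq_zero_iff two_ne_zero |>.mp ((show (2:F) ^ 2 = 4 by norm_num).trans h4)
      have h03 : i0 ≠ i3 := by simp [i0, i3, Fin.ext_iff]
      have h13 : i1 ≠ i3 := by simp [i1, i3, Fin.ext_iff]
      have h23 : i2 ≠ i3 := by simp [i2, i3, Fin.ext_iff]
      refine ⟨fun i => if i ∈ ({i0, i1, i2, i3} : Finset (Fin t)) then 1 else 0, fun i => ?_, by simp [i0], ?_, fun i => ?_⟩
      · dsimp only; split <;> simp [hq]
      · rw [Finset.sum_ite_mem, Finset.univ_inter, Finset.sum_const, Finset.card_insert_of_notMem (by simp [h01, h02, h03]),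
          Finset.card_insert_of_notMem (by simp [h12, h13]), Finset.card_pair h23]
        norm_num
        linear_combination (2 : F) * h2
      · by_cases hi : i = i1
        · exact ⟨i2, hi ▸ h12.symm, h02.symm, by simp⟩
        · exact ⟨i1, Ne.symm hi, h01.symm, by simp⟩
    · obtain ⟨α, hαfix, hα0, hα1⟩ : ∃ α : F, α ^ q = α ∧ α ≠ 0 ∧ α ≠ -1 := by
        obtain ⟨h, -⟩ := id hF
        have : Fintype F := Fintype.ofFinite F
        have hc := hF.card_fixed_units
        rw [Nat.card_eq_fintype_card, Fintype.card_subtype] at hc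
        obtain ⟨α, hα⟩ : ((Finset.univ.filter fun x : F => x ^ (q - 1) = 1) \ {-1}).Nonempty := by
          rw [← Finset.card_pos]
          have h1 := Finset.le_card_sdiff {(-1 : F)} (Finset.univ.filter fun x : F => x ^ (q - 1) = 1)
          have h3 := hF.one_lt
          rw [Finset.card_singleton] at h1
          omega
        simp at hα
        have hα0 : α ≠ 0 := fun h0 => by
          rw [h0, zero_pow (by have := hF.one_lt; omega)] at hα
          exact zero_ne_one hα.1
        exact ⟨α, (hF.fixed_iff hα0).2 hα.1, hα0, hα.2⟩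
      refine ⟨fun i => if i = i0 then 1 else if i = i1 then α else if i = i2 then -(1 + α) else 0, fun i => ?_,
        by simp [i0], ?_, fun i => ?_⟩
      · dsimp only; split_ifs <;> simp [hq, hF.neg_pow, hF.add_pow, hαfix]
      · rw [← Finset.sum_subset (Finset.subset_univ ({i0, i1, i2} : Finset (Fin t))) (fun x _ hx => by
            simp only [Finset.mem_insert, Finset.mem_singleton, not_or] at hx
            simp [hx.1, hx.2.1, hx.2.2]),
          Finset.sum_insert (by simp [h01, h02]), Finset.sum_pair h12]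
        simp [h01.symm, h02.symm, h12.symm]
      · by_cases hi : i = i1
        · refine ⟨i2, hi ▸ h12.symm, h02.symm, ?_⟩
          simp [h02.symm, h12.symm]
          exact fun h => hα1 (by linear_combination -h)
        · exact ⟨i1, Ne.symm hi, h01.symm, by simpa [h01.symm] using hα0⟩
  have hx : ∀ i, ∃ x : F, x ^ (q + 1) = c i / d i := fun i => hF.exists_norm (by rw [div_pow, hcfix, hdfix])
  choose x hx using hx
  set u := ∑ i, x i • v i with hu
  have huv : ∀ j, Classical.U.herm q (v j) u = x j ^ q * d j := by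
    intro j
    rw [← hF.herm_symm u (v j)]
    have : Classical.U.herm q u (v j) = x j * d j := by
      have h : hermDual q (v j) u = x j * d j := by
        rw [hu, map_sum, Finset.sum_eq_single j (fun i _ hi => by
          rw [map_smul, smul_eq_mul]; exact mul_eq_zero_of_right _ (horth i j hi)) (by simp), map_smul, smul_eq_mul]
        rfl
      exact h
    rw [this, mul_pow, hdfix]
  have hu0 : Classical.U.herm q u u = 0 := by
    have h : hermDual q u u = 0 := by
      conv_lhs => arg 2; rw [hu]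
      rw [map_sum, ← hcsum]
      refine Finset.sum_congr rfl fun j _ => ?_
      rw [map_smul, smul_eq_mul, hermDual_apply, show Cfsg.hermForm t F q (v j) u = _ from huv j,
        ← mul_assoc, ← pow_succ', hx, div_mul_cancel₀ _ (hd0 j)]
    exact h
  have hxne : ∀ i, c i ≠ 0 → x i ≠ 0 := fun i hi h0 => by
    have := hx i
    rw [h0, zero_pow (Nat.succ_ne_zero q)] at this
    exact hi (((div_eq_zero_iff.mp this.symm)).resolve_right (hd0 i))
  obtain ⟨σ, hσ⟩ := hle (uTau_mem hF hu0 hδ)
  set z : Fin t := ⟨0, by omega⟩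
  have hmem : (uTau hu0 δ : Matrix (Fin t) (Fin t) F) *ᵥ v z ∈ D (σ z) := by
    rw [← hσ z]; exact ⟨v z, hv z, Matrix.toLin'_apply _ _⟩
  rw [(uTau_isTransvec hu0 δ).apply_eq, LinearMap.smul_apply, hermDual_apply,
    show Cfsg.hermForm t F q (v z) u = _ from huv z, smul_eq_mul] at hmem
  obtain ⟨j, hji, hjz, hcj⟩ := hc3 (σ z)
  obtain ⟨a, ha⟩ := hline _ _ hmem
  have h := congrArg (hermDual q (v j)) ha
  have huj : hermDual q (v j) u = x j * d j := by
    rw [hermDual_apply, show Cfsg.hermForm t F q u (v j) = Classical.U.herm q u (v j) from rfl,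
      ← hF.herm_symm (v j) u, huv, mul_pow, hF.pow_pow, hdfix]
  rw [map_add, map_smul, map_smul, huj, hermDual_apply, hermDual_apply,
    show Cfsg.hermForm t F q (v z) (v j) = 0 from horth z j (Ne.symm hjz),
    show Cfsg.hermForm t F q (v (σ z)) (v j) = 0 from horth (σ z) j (Ne.symm hji), zero_add, smul_zero,
    smul_eq_mul, mul_eq_zero, mul_eq_zero, mul_eq_zero, mul_eq_zero] at h
  rcases h with (h | h | h) | h | h
  · exact hδ0 h
  · exact hxne z hc0 (eq_zero_of_pow_eq_zero h)
  · exact hd0 z h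
  · exact hxne j hcj h
  · exact hd0 j h

theorem suGL_not_le_subalgebraNormalizer (hn : 3 ≤ n) {r : ℕ} (hr : 1 < r)
    {K : Subalgebra F (Matrix (Fin n) (Fin n) F)} (hK : IsFieldSubalgebra r K) :
    ¬ suGL n F q ≤ subalgebraNormalizer K := by
  intro hle
  obtain ⟨h, -⟩ := id hF
  obtain ⟨δ, hδ0, hδ⟩ := hF.exists_skew
  obtain ⟨ε, hε, -, -⟩ := exists_eps hF (0 : F) 0
  have hij : (⟨0, by omega⟩ : Fin n) ≠ ⟨1, by omega⟩ := by simp
  have hv := isotropic_pair hF hij hε
  exact transvec_not_mem_subalgebraNormalizer (by rw [Fintype.card_fin]; exact hn) hr hK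
    (uTau_isTransvec hv δ) (smul_ne_zero hδ0 (hermDual_ne_zero hF (pair_ne_zero hij ε)))
    (pair_ne_zero hij ε) (hle (uTau_mem hF hv hδ))

theorem suGL_not_le_tensorProductSubgroup (hn : 2 ≤ n) {n₁ n₂ : ℕ} (h1 : 2 ≤ n₁) (h2 : 2 ≤ n₂)
    (e : Fin n ≃ Fin n₁ × Fin n₂) (P : GL (Fin n) F) : ¬ suGL n F q ≤ tensorProductSubgroup n₁ n₂ e P := by
  intro hle
  obtain ⟨δ, hδ0, hδ⟩ := hF.exists_skew
  obtain ⟨ε, hε, -, -⟩ := exists_eps hF (0 : F) 0
  have hij : (⟨0, by omega⟩ : Fin n) ≠ ⟨1, by omega⟩ := by simp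
  have hv := isotropic_pair hF hij hε
  exact transvec_not_mem_tensorProductSubgroup h1 h2 e P (uTau_isTransvec hv δ)
    (uTau_ne_one hF hv (pair_ne_zero hij ε) hδ0) (hle (uTau_mem hF hv hδ))

omit hF in
/-- A diagonal element of norm-one entries and determinant one. -/
theorem exists_diag_mem {d : Fin n → F} (hd : ∀ i, d i ^ (q + 1) = 1) (hp : ∏ i, d i = 1) :
    ∃ g ∈ suGL n F q, (g : Matrix (Fin n) (Fin n) F) = Matrix.diagonal d := by
  have hdet : (Matrix.diagonal d).det ≠ 0 := by rw [Matrix.det_diagonal, hp]; exact one_ne_zero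
  refine ⟨Matrix.GeneralLinearGroup.mkOfDetNeZero _ hdet, ⟨fun u v => ?_, ?_⟩, rfl⟩
  · show Cfsg.hermForm n F q (Matrix.diagonal d *ᵥ u) (Matrix.diagonal d *ᵥ v) = _
    simp only [Cfsg.hermForm, Matrix.mulVec_diagonal, mul_pow]
    refine Finset.sum_congr rfl fun i _ => ?_
    have := hd i
    rw [pow_succ] at this
    linear_combination (u i * v i ^ q) * this
  · show Matrix.GeneralLinearGroup.mkOfDetNeZero _ hdet ∈ specialLinear (Fin n) F
    rw [GeoClasses.mem_specialLinear_iff]
    show (Matrix.diagonal d).det = 1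
    rw [Matrix.det_diagonal, hp]

theorem suGL_not_le_subfieldSubgroup (hn : 3 ≤ n) (hperf : ⁅suGL n F q, suGL n F q⁆ = suGL n F q)
    {F₀ : Subfield F} (hF₀ : F₀ ≠ ⊤) (P : GL (Fin n) F) : ¬ suGL n F q ≤ subfieldSubgroup F₀ P := by
  classical
  intro hle
  obtain ⟨h, -⟩ := id hF
  have : Fintype F := Fintype.ofFinite F
  have hq := hF.q_ne_zero
  obtain ⟨δ, hδ0, hδ⟩ := hF.exists_skew
  obtain ⟨ε₁, hε₁, -, -⟩ := exists_eps hF (0 : F) 0
  obtain ⟨ε₂, hε₂, h21, -⟩ := exists_eps hF ε₁ ε₁
  let i0 : Fin n := ⟨0, by omega⟩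
  let i1 : Fin n := ⟨1, by omega⟩
  let i2 : Fin n := ⟨2, by omega⟩
  have h01 : i0 ≠ i1 := by simp [i0, i1, Fin.ext_iff]
  have h02 : i0 ≠ i2 := by simp [i0, i2, Fin.ext_iff]
  have h12 : i1 ≠ i2 := by simp [i1, i2, Fin.ext_iff]
  set v : F → (Fin n → F) := fun ε => Pi.single i0 1 + ε • Pi.single i1 1
  have hv : ∀ ε, ε ^ (q + 1) = -1 → Cfsg.hermForm n F q (v ε) (v ε) = 0 := fun ε hε => isotropic_pair hF h01 hε
  set L := Cfsg.hermForm n F q (v ε₂) (v ε₁) with hLdef
  have hL : L = 1 + ε₁ ^ q * ε₂ := by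
    show Classical.U.herm q _ _ = _
    rw [hF.herm_add_right, herm_smul_right, herm_single_one i0 hq, herm_single_one i1 hq]
    simp [v, h01, h01.symm]
  have hL0 : L ≠ 0 := by
    rw [hL]
    intro h0
    apply h21
    have hε₁0 : ε₁ ≠ 0 := fun h1 => by rw [h1, zero_pow (Nat.succ_ne_zero q)] at hε₁; simp at hε₁
    apply mul_left_cancel₀ (pow_ne_zero q hε₁0)
    rw [← pow_succ, hε₁]
    linear_combination h0
  have hfixed : ∀ s : F, s ^ q = s → s ∈ F₀ := by
    intro s hs
    set K := L * L ^ q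
    have hK0 : K ≠ 0 := mul_ne_zero hL0 (pow_ne_zero _ hL0)
    have hKfix : K ^ q = K := by rw [mul_pow, hF.pow_pow, mul_comm]
    set t := s / (δ * δ * K) with ht
    have htfix : t ^ q = t := by rw [ht, div_pow, hs, mul_pow, mul_pow, hδ, hKfix, neg_mul_neg]
    have hδt : (δ * t) ^ q = -(δ * t) := by rw [mul_pow, hδ, htfix, neg_mul]
    have hg := fun a (ha : a ^ q = -a) => trace_mem_of_perfect hperf hle
      (mul_mem (uTau_mem hF (hv _ hε₁) hδ) (uTau_mem hF (hv _ hε₂) ha))
    have h1 := hg _ hδt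
    have h0 := hg 0 (by rw [zero_pow hq, neg_zero])
    rw [(uTau_isTransvec (hv _ hε₁) δ).trace_mul (uTau_isTransvec (hv _ hε₂) _)] at h1 h0
    simp only [LinearMap.smul_apply, hermDual_apply, smul_eq_mul, zero_mul, mul_zero, add_zero] at h1 h0
    have := F₀.sub_mem h1 h0
    have hsym : Cfsg.hermForm n F q (v ε₁) (v ε₂) = L ^ q := (hF.herm_symm _ _).symm
    rw [add_sub_cancel_left, hsym] at this
    rwa [show δ * L * (δ * t * L ^ q) = s by
      rw [ht]; field_simp; simp only [K]; ring] at this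
  -- an element with trace outside the fixed field
  obtain ⟨a, ha, ha2⟩ : ∃ a : F, a ^ (q + 1) = 1 ∧ a ^ 2 ≠ 1 := by
    by_contra hc
    push Not at hc
    have hle : Nat.card {x : F // x ^ (q + 1) = 1} ≤ ({1, -1} : Finset F).card := by
      rw [Nat.card_eq_fintype_card, Fintype.card_subtype]
      refine Finset.card_le_card fun x hx => ?_
      simp only [Finset.mem_filter, Finset.mem_univ, true_and] at hx
      have := sq_eq_one_iff.mp (hc x hx)
      simpa using this
    rw [hF.card_norm_one] at hle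
    have h2 : ({1, -1} : Finset F).card ≤ 2 := Finset.card_le_two
    have := hF.one_lt
    omega
  have ha0 : a ≠ 0 := fun h0 => by rw [h0, zero_pow (Nat.succ_ne_zero q)] at ha; exact zero_ne_one ha
  have haq : a ^ q = a⁻¹ := eq_inv_of_mul_eq_one_left (by rw [← pow_succ, ha])
  set d : Fin n → F := fun i => if i = i0 then a else if i = i1 then a else if i = i2 then (a ^ 2)⁻¹ else 1 with hd
  have hd3 : ∀ i ∉ ({i0, i1, i2} : Finset (Fin n)), d i = 1 := fun i hi => by
    simp only [Finset.mem_insert, Finset.mem_singleton, not_or] at hi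
    simp [hd, hi.1, hi.2.1, hi.2.2]
  obtain ⟨g, hg, hgd⟩ := exists_diag_mem (n := n) (q := q) (d := d) (fun i => by
      simp only [hd]; split_ifs <;> simp [ha, inv_pow, ← pow_mul, mul_comm 2, pow_mul a (q + 1) 2])
    (by
      rw [← Finset.prod_subset (Finset.subset_univ _) (fun i _ hi => hd3 i hi),
        Finset.prod_insert (by simp [h01, h02]), Finset.prod_pair h12]
      simp [hd, h01.symm, h02.symm, h12.symm]
      field_simp)
  have htr := trace_mem_of_perfect hperf hle hg
  have hsum : ∑ i, d i = 2 * a + (a ^ 2)⁻¹ + ((n : F) - 3) := by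
    have := Finset.sum_subset (Finset.subset_univ ({i0, i1, i2} : Finset (Fin n)))
      (f := fun i => d i - 1) (fun i _ hi => by rw [hd3 i hi, sub_self])
    rw [Finset.sum_sub_distrib (s := Finset.univ), Finset.sum_insert (by simp [h01, h02]), Finset.sum_pair h12] at this
    simp [hd, h01.symm, h02.symm, h12.symm] at this
    linear_combination -this
  rw [hgd, Matrix.trace_diagonal, hsum] at htr
  have hx : 2 * a + (a ^ 2)⁻¹ ∈ F₀ := by
    have hn3 : ((n : F) - 3) ∈ F₀ := hfixed _ (by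
      rw [hF.sub_pow]
      congr 1
      · obtain ⟨p, k, hp, hc, rfl⟩ := hF.exists_char
        have := Fact.mk hp
        rw [← iterateFrobenius_def, map_natCast]
      · obtain ⟨p, k, hp, hc, rfl⟩ := hF.exists_char
        have := Fact.mk hp
        rw [← iterateFrobenius_def, map_ofNat])
    simpa using F₀.sub_mem htr hn3
  set X := 2 * a + (a ^ 2)⁻¹ with hX
  have hXq : X ^ q = 2 * a⁻¹ + a ^ 2 := by
    obtain ⟨p, k, hp, hc, rfl⟩ := hF.exists_char
    have := Fact.mk hp
    rw [hX, ← iterateFrobenius_def, map_add, map_mul, map_ofNat, map_inv₀, map_pow, iterateFrobenius_def, haq]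
    simp
  have hXne : X ^ q ≠ X := by
    rw [hXq, hX]
    intro h0
    field_simp at h0
    have hz : (a - 1) * ((a - 1) * (a ^ 2 - 1)) = 0 := by linear_combination h0
    rcases mul_eq_zero.mp hz with h1 | h1
    · exact ha2 (by linear_combination (a + 1) * h1)
    · rcases mul_eq_zero.mp h1 with h2 | h2
      · exact ha2 (by linear_combination (a + 1) * h2)
      · exact ha2 (by linear_combination h2)
  apply hF₀
  rw [eq_top_iff]
  intro z _
  set β := (z ^ q - z) / (X ^ q - X) with hβ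
  have hβfix : β ^ q = β := by
    rw [hβ, div_pow, hF.sub_pow, hF.sub_pow, hF.pow_pow, hF.pow_pow, ← neg_sub (z ^ q), ← neg_sub (X ^ q),
      neg_div_neg_eq]
  have hαfix : (z - β * X) ^ q = z - β * X := by
    rw [hF.sub_pow, mul_pow, hβfix]
    have : β * (X ^ q - X) = z ^ q - z := div_mul_cancel₀ _ (sub_ne_zero.mpr hXne)
    linear_combination -this
  have := F₀.add_mem (hfixed _ hαfix) (F₀.mul_mem (hfixed _ hβfix) hx)
  simpa using this

/-- With parameters of different squares the root group normalises no class-two group. -/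
theorem suGL_not_le_subgroupNormalizer (hn : 3 ≤ n) (hnF : (n : F) ≠ 0)
    {R : Subgroup (GL (Fin n) F)} (hirr : ActsAbsolutelyIrreducibly (matrixSet R))
    (hcl : commutator R ≤ Subgroup.center R)
    (hscal : ∀ z ∈ Subgroup.center R, ∃ c : F,
      ((z : GL (Fin n) F) : Matrix (Fin n) (Fin n) F) = c • 1)
    (hq : 4 ≤ q) : ¬ suGL n F q ≤ subgroupNormalizer R := by
  classical
  intro hle
  obtain ⟨h, -⟩ := id hF
  have : Fintype F := Fintype.ofFinite F
  obtain ⟨δ, hδ0, hδ⟩ := hF.exists_skew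
  obtain ⟨ε, hε, -, -⟩ := exists_eps hF (0 : F) 0
  obtain ⟨s, hsfix, hs0, hs2⟩ : ∃ s : F, s ^ q = s ∧ s ≠ 0 ∧ s ^ 2 ≠ 1 := by
    have hc := hF.card_fixed_units
    rw [Nat.card_eq_fintype_card, Fintype.card_subtype] at hc
    obtain ⟨s, hs⟩ : ((Finset.univ.filter fun x : F => x ^ (q - 1) = 1) \ {1, -1}).Nonempty := by
      rw [← Finset.card_pos]
      have h1 := Finset.le_card_sdiff {(1 : F), -1} (Finset.univ.filter fun x : F => x ^ (q - 1) = 1)
      have h2 : ({1, -1} : Finset F).card ≤ 2 := Finset.card_le_two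
      omega
    simp at hs
    have hs0 : s ≠ 0 := fun h0 => by
      rw [h0, zero_pow (by omega)] at hs
      exact zero_ne_one hs.1
    exact ⟨s, (hF.fixed_iff hs0).2 hs.1, hs0, fun h2 => (sq_eq_one_iff.mp h2).elim hs.2.1 hs.2.2⟩
  have hij : (⟨0, by omega⟩ : Fin n) ≠ ⟨1, by omega⟩ := by simp
  have hv := isotropic_pair hF hij hε
  have hδs : (δ * s) ^ q = -(δ * s) := by rw [mul_pow, hδ, hsfix, neg_mul]
  refine transvec_pair_not_mem_normalizer (by rw [Fintype.card_fin]; exact hn) (by rw [Fintype.card_fin]; exact hnF)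
    hirr hcl hscal (hermDual_ne_zero hF (pair_ne_zero hij ε)) (pair_ne_zero hij ε) (c₁ := δ) (c₂ := δ * s)
    hδ0 (mul_ne_zero hδ0 hs0) ?_ (uTau_isTransvec hv δ) (uTau_isTransvec hv (δ * s))
    ⟨hle (uTau_mem hF hv hδ), hle (uTau_mem hF hv hδs)⟩
  rw [mul_pow]
  exact fun h => hs2 (mul_left_cancel₀ (pow_ne_zero 2 hδ0) (by rw [mul_one]; exact h.symm))

end Cfsg.Agent.ClassicalMax
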