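import Mathlib
import Cfsg.Prelude.Def_GeometricClasses
import Cfsg.Agent.GeoClasses.Basic

/-!
Adapted bases for decompositions into subspaces of equal dimension, and block coordinates of
the matrices in the stabiliser of a decomposition.
-/

set_option autoImplicit false
set_option linter.style.haveILetI false

namespace Cfsg.Agent.ClassicalMax

open Matrix Cfsg.Geo Module
open scoped MatrixGroups Matrix

variable {ι : Type} [Fintype ι] [DecidableEq ι] {F : Type*} [Field F]
variable {t m : ℕ} {D : Fin t → Submodule F (ι → F)}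

/-- A basis adapted to a decomposition. -/
lemma exists_adapted_basis (hD : IsMDecomposition m D) :
    ∃ b : Basis (Fin m × Fin t) F (ι → F),
      ∀ i, D i = Submodule.span F (Set.range fun k => b (k, i)) := by
  classical
  have hint : DirectSum.IsInternal D :=
    DirectSum.isInternal_submodule_of_iSupIndep_of_iSup_eq_top hD.indep hD.iSup_eq_top
  let v : ∀ i, Basis (Fin m) F (D i) := fun i => Module.finBasisOfFinrankEq F (D i) (hD.finrank_eq i)
  let e : (Σ _ : Fin t, Fin m) ≃ Fin m × Fin t :=
    (Equiv.sigmaEquivProd (Fin t) (Fin m)).trans (Equiv.prodComm _ _)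
  refine ⟨(hint.collectedBasis v).reindex e, fun i => ?_⟩
  have h : (fun k => ((hint.collectedBasis v).reindex e) (k, i)) = (D i).subtype ∘ v i := by
    funext k
    rw [Basis.reindex_apply, DirectSum.IsInternal.collectedBasis_coe]
    rfl
  rw [h, Set.range_comp, ← Submodule.map_span, (v i).span_eq, Submodule.map_top,
    Submodule.range_subtype]

variable {b : Basis (Fin m × Fin t) F (ι → F)}

/-- Block data of an element of the stabiliser: the permutation and the blocks. -/
structure BlockData (b : Basis (Fin m × Fin t) F (ι → F)) (g : GL ι F) where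
  /-- the permutation of blocks -/
  perm : Equiv.Perm (Fin t)
  /-- the blocks -/
  blk : Fin t → Matrix (Fin m) (Fin m) F
  /-- the action on the basis -/
  apply : ∀ k i, (g : Matrix ι ι F) *ᵥ b (k, i) = ∑ l, blk i l k • b (l, perm i)

lemma exists_blockData (hb : ∀ i, D i = Submodule.span F (Set.range fun k => b (k, i))) {g : GL ι F}
    (hg : g ∈ decompositionStabilizer D) : Nonempty (BlockData b g) := by
  obtain ⟨σ, hσ⟩ := hg
  have h : ∀ k i, ∃ c : Fin m → F, ∑ l, c l • b (l, σ i) = (g : Matrix ι ι F) *ᵥ b (k, i) := by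
    intro k i
    rw [← Submodule.mem_span_range_iff_exists_fun, ← hb, ← hσ i]
    refine ⟨b (k, i), ?_, Matrix.toLin'_apply _ _⟩
    rw [hb]
    exact Submodule.subset_span ⟨k, rfl⟩
  choose c hc using h
  exact ⟨⟨σ, fun i => Matrix.of fun l k => c k i l, fun k i => (hc k i).symm⟩⟩

variable {g : GL ι F}

lemma BlockData.repr_mulVec (B : BlockData b g) (v : ι → F) (l : Fin m) (i : Fin t) :
    b.equivFun ((g : Matrix ι ι F) *ᵥ v) (l, B.perm i) = ∑ k, B.blk i l k * b.equivFun v (k, i) := by
  classical
  conv_lhs => rw [← b.sum_equivFun v, ← Matrix.toLin'_apply, map_sum]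
  simp only [map_smul, Matrix.toLin'_apply, B.apply, map_sum, Finset.smul_sum, smul_smul,
    Finset.sum_apply, Pi.smul_apply, Basis.equivFun_self, smul_eq_mul]
  rw [Fintype.sum_prod_type]
  refine Finset.sum_congr rfl fun k _ => ?_
  rw [Finset.sum_eq_single i (fun j _ hj => ?_) (by simp)]
  · simp [Prod.ext_iff, mul_comm]
  · simp [Prod.ext_iff, B.perm.injective.eq_iff, hj]

lemma BlockData.det_eq (B : BlockData b g) :
    (g : Matrix ι ι F).det = ((Equiv.Perm.sign B.perm : ℤˣ) : F) ^ m * ∏ i, (B.blk i).det := by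
  classical
  have h : LinearMap.toMatrix b b (Matrix.toLin' (g : Matrix ι ι F)) =
      (Matrix.blockDiagonal B.blk).submatrix
        (Equiv.prodCongrRight fun _ : Fin m => B.perm.symm) id := by
    ext ⟨l, j⟩ ⟨k, i⟩
    rw [LinearMap.toMatrix_apply, Matrix.toLin'_apply, ← Basis.equivFun_apply]
    obtain ⟨j, rfl⟩ := B.perm.surjective j
    rw [B.repr_mulVec, Finset.sum_eq_single k (fun x _ hx => by simp [Prod.ext_iff, hx.symm]) (by simp)]
    by_cases hji : j = i
    · subst hji
      simp [Matrix.blockDiagonal_apply]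
    · simp [Matrix.blockDiagonal_apply, Prod.ext_iff, Ne.symm hji, hji]
  rw [← LinearMap.det_toLin', ← LinearMap.det_toMatrix b, h, Matrix.det_permute,
    Matrix.det_blockDiagonal, Equiv.Perm.sign_prodCongrRight]
  simp [Finset.prod_const]

lemma BlockData.det_blk_ne_zero (B : BlockData b g) (i : Fin t) : (B.blk i).det ≠ 0 := by
  intro h
  have hdet : (g : Matrix ι ι F).det ≠ 0 := Matrix.GeneralLinearGroup.det_ne_zero g
  rw [B.det_eq, Finset.prod_eq_zero (Finset.mem_univ i) h, mul_zero] at hdet
  exact hdet rfl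

end Cfsg.Agent.ClassicalMax
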