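import Mathlib
import Cfsg.Agent.ClassicalMax.Decomp

/-!
Over very small fields the stabiliser of a decomposition lies in another geometric member.
-/

set_option autoImplicit false
set_option linter.style.haveILetI false

namespace Cfsg.Agent.ClassicalMax

open Matrix Cfsg.Geo Module
open scoped MatrixGroups Matrix

variable {ι : Type} [Fintype ι] [DecidableEq ι] {F : Type*} [Field F] [Fintype F]
variable {t m : ℕ} {D : Fin t → Submodule F (ι → F)}

omit [Fintype ι] [DecidableEq ι] [Fintype F] in
lemma sq_eq_one_of_card_three [Fintype F] (hF : Fintype.card F = 3) {x : F} (hx : x ≠ 0) : x ^ 2 = 1 := by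
  simpa [hF] using FiniteField.pow_card_sub_one_eq_one x hx

/-- q = 2, blocks of dimension 1: a vector is fixed. -/
theorem decomposition_le_subspaceStabilizer_of_two (hD : IsMDecomposition 1 D)
    (hF : Fintype.card F = 2) :
    ∃ W : Submodule F (ι → F), W ≠ ⊥ ∧ W ≠ ⊤ ∧ decompositionStabilizer D ≤ subspaceStabilizer W := by
  classical
  obtain ⟨b, hb⟩ := exists_adapted_basis hD
  let w : ι → F := ∑ i, b (0, i)
  have hw : ∀ i, b.equivFun w (0, i) = 1 := by
    intro i
    simp only [w, map_sum, Finset.sum_apply, Basis.equivFun_self]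
    rw [Finset.sum_eq_single i (fun j _ hj => by simp [hj]) (by simp)]
    simp
  have h0 : 0 < t := by have := hD.two_le; omega
  refine ⟨Submodule.span F {w}, ?_, ?_, fun g hg => ?_⟩
  · rw [Ne, Submodule.span_singleton_eq_bot]
    intro h
    have := hw ⟨0, h0⟩
    rw [h] at this
    simp at this
  · intro h
    have h1 := congrArg (fun S : Submodule F (ι → F) => Module.finrank F S) h
    simp only [finrank_top] at h1
    have h2 : Module.finrank F (Submodule.span F {w}) ≤ 1 := by
      refine (finrank_span_le_card ({w} : Set (ι → F))).trans ?_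
      simp
    rw [Module.finrank_eq_card_basis b, Fintype.card_prod, Fintype.card_fin, Fintype.card_fin] at h1
    have := hD.two_le
    omega
  · obtain ⟨B⟩ := exists_blockData hb hg
    have hfix : (g : Matrix ι ι F) *ᵥ w = w := by
      apply b.equivFun.injective
      funext z
      obtain ⟨l, j⟩ := z
      obtain rfl : l = 0 := Subsingleton.elim _ _
      obtain ⟨i, rfl⟩ := B.perm.surjective j
      rw [B.repr_mulVec, hw, Fin.sum_univ_one, hw, mul_one]
      have := B.det_blk_ne_zero i
      rw [Matrix.det_fin_one] at this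
      have h := FiniteField.pow_card_sub_one_eq_one _ this
      simpa [hF] using h
    refine GeoClasses.mem_subspaceStabilizer_of_le fun v hv => ?_
    obtain ⟨c, rfl⟩ := Submodule.mem_span_singleton.mp hv
    rw [Matrix.mulVec_smul, hfix]
    exact hv

/-- q = 3, blocks of dimension 1: a quadratic form is fixed. -/
theorem decomposition_le_quadSimilarityGroup_of_three (hD : IsMDecomposition 1 D)
    (hF : Fintype.card F = 3) :
    ∃ Q : (ι → F) → F, IsNondegenerateQuadraticForm Q ∧ decompositionStabilizer D ≤ quadSimilarityGroup Q := by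
  classical
  obtain ⟨b, hb⟩ := exists_adapted_basis hD
  let c := b.equivFun
  refine ⟨fun v => ∑ i, c v (0, i) ^ 2, ⟨fun a v => ?_, ?_, ?_⟩, fun g hg => ⟨1, fun v => ?_⟩⟩
  · simp [Finset.mul_sum, mul_pow]
  · have hpol : QuadraticMap.polar (fun v => ∑ i, c v (0, i) ^ 2) =
        fun u v => ∑ i, 2 * (c u (0, i) * c v (0, i)) := by
      funext u v
      simp only [QuadraticMap.polar, map_add, Pi.add_apply, ← Finset.sum_sub_distrib]
      refine Finset.sum_congr rfl fun i _ => ?_
      ring
    rw [hpol]
    constructor <;> intros <;>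
      simp [Finset.mul_sum, ← Finset.sum_add_distrib, mul_add, add_mul, mul_left_comm, mul_assoc]
  · have h2 : (2 : F) ≠ 0 := by
      have : ringChar F ≠ 2 := by
        intro h
        have := FiniteField.even_card_iff_char_two.mp h
        omega
      exact Ring.two_ne_zero this
    intro v hv
    obtain ⟨⟨l, i⟩, hi⟩ : ∃ z, c v z ≠ 0 := by
      by_contra h
      push Not at h
      exact hv (c.injective (funext fun z => by simp [h]))
    obtain rfl : l = 0 := Subsingleton.elim _ _
    have key : ∀ u, c u = Pi.single (0, i) 1 →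
        QuadraticMap.polar (fun v => ∑ i, c v (0, i) ^ 2) u v = 2 * c v (0, i) := by
      intro u hu
      simp only [QuadraticMap.polar, map_add, Pi.add_apply, ← Finset.sum_sub_distrib, hu]
      rw [Finset.sum_eq_single i (fun j _ hj => by simp [hj]) (by simp)]
      simp only [Pi.single_eq_same]
      ring
    have hu : c (c.symm (Pi.single (0, i) 1)) = Pi.single (0, i) 1 := c.apply_symm_apply _
    refine ⟨⟨c.symm (Pi.single (0, i) 1), ?_⟩, ⟨c.symm (Pi.single (0, i) 1), ?_⟩⟩
    · rw [key _ hu]
      exact mul_ne_zero h2 hi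
    · rw [QuadraticMap.polar_comm, key _ hu]
      exact mul_ne_zero h2 hi
  · obtain ⟨B⟩ := exists_blockData hb hg
    simp only [Units.val_one, one_mul]
    conv_lhs => rw [← Equiv.sum_comp B.perm]
    refine Finset.sum_congr rfl fun i _ => ?_
    simp only [c, B.repr_mulVec, Fin.sum_univ_one]
    have := B.det_blk_ne_zero i
    rw [Matrix.det_fin_one] at this
    rw [mul_pow, sq_eq_one_of_card_three hF this, one_mul]

/-- q = 4, blocks of dimension 1: a unitary form is fixed. -/
theorem decomposition_le_similarityGroup_unitary_of_four (hD : IsMDecomposition 1 D)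
    (hF : Fintype.card F = 4) :
    ∃ (σ : F ≃+* F) (f : (ι → F) → (ι → F) → F), IsUnitaryForm σ f ∧
      decompositionStabilizer D ≤ similarityGroup f := by
  classical
  obtain ⟨b, hb⟩ := exists_adapted_basis hD
  haveI : CharP F 2 := by
    have h : ringChar F = 2 := FiniteField.even_card_iff_char_two.mpr (by omega)
    exact h ▸ ringChar.charP F
  let σ : F ≃+* F := RingEquiv.ofBijective (frobenius F 2)
    ⟨(frobenius F 2).injective, Finite.surjective_of_injective (frobenius F 2).injective⟩
  have hσ : ∀ a, σ a = a ^ 2 := fun a => rfl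
  have h4 : ∀ a : F, a ^ 4 = a := fun a => by simpa [hF] using FiniteField.pow_card a
  let c := b.equivFun
  refine ⟨σ, fun u v => ∑ i, c u (0, i) * σ (c v (0, i)), ⟨?_, fun a => ?_, ?_, ?_, ?_, ?_⟩, fun g hg => ⟨1, fun u v => ?_⟩⟩
  · intro h
    have hall : ∀ a : F, a ^ 2 = a := fun a => by rw [← hσ, h]; rfl
    have hcard : Fintype.card F ≤ 2 := by
      have : (Finset.univ : Finset F) ⊆ {0, 1} := by
        intro a _
        have h' : a * (a - 1) = 0 := by linear_combination hall a
        rcases mul_eq_zero.mp h' with h'' | h''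
        · simp [h'']
        · simp [sub_eq_zero.mp h'']
      exact (Finset.card_le_card this).trans Finset.card_le_two
    omega
  · rw [hσ, hσ, ← pow_mul, h4]
  · intros
    simp [add_mul, Finset.sum_add_distrib]
  · intros
    simp [Finset.mul_sum, mul_assoc]
  · intro v w
    simp only [map_sum, map_mul]
    refine Finset.sum_congr rfl fun i _ => ?_
    simp only [hσ, ← pow_mul, h4, mul_comm]
  · intro v hv
    obtain ⟨⟨l, i⟩, hi⟩ : ∃ z, c v z ≠ 0 := by
      by_contra h
      push Not at h
      exact hv (c.injective (funext fun z => by simp [h]))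
    obtain rfl : l = 0 := Subsingleton.elim _ _
    refine ⟨⟨c.symm (Pi.single (0, i) 1), ?_⟩, ⟨c.symm (Pi.single (0, i) 1), ?_⟩⟩ <;>
      (simp only [LinearEquiv.apply_symm_apply];
       rw [Finset.sum_eq_single i (fun j _ hj => by simp [hj]) (by simp)])
    · simpa using hi
    · simpa using hi
  · obtain ⟨B⟩ := exists_blockData hb hg
    simp only [Units.val_one, one_mul]
    conv_lhs => rw [← Equiv.sum_comp B.perm]
    refine Finset.sum_congr rfl fun i _ => ?_
    simp only [c, B.repr_mulVec, Fin.sum_univ_one]
    have := B.det_blk_ne_zero i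
    rw [Matrix.det_fin_one] at this
    have h3 : B.blk i 0 0 ^ 3 = 1 := by simpa [hF] using FiniteField.pow_card_sub_one_eq_one _ this
    simp only [hσ]
    linear_combination (b.equivFun u (0, i) * b.equivFun v (0, i) ^ 2) * h3

/-- Blocks of dimension 2 over tiny fields: a symplectic form is fixed up to a scalar. -/
theorem decomposition_le_similarityGroup_symplectic (hD : IsMDecomposition 2 D)
    (hq : Fintype.card F = 2 ∨ (Fintype.card F = 3 ∧ t = 2)) :
    ∃ f : (ι → F) → (ι → F) → F, IsSymplecticForm f ∧
      decompositionStabilizer D ⊓ specialLinear ι F ≤ similarityGroup f := by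
  classical
  obtain ⟨b, hb⟩ := exists_adapted_basis hD
  let c := b.equivFun
  refine ⟨fun u v => ∑ i, (c u (0, i) * c v (1, i) - c u (1, i) * c v (0, i)),
    ⟨⟨?_, ?_, ?_, ?_⟩, ?_, ?_, ?_⟩, ?_⟩
  · intros
    simp only [map_add, Pi.add_apply, ← Finset.sum_add_distrib]
    exact Finset.sum_congr rfl fun i _ => by ring
  · intros
    simp only [map_smul, Pi.smul_apply, Finset.mul_sum, smul_eq_mul]
    exact Finset.sum_congr rfl fun i _ => by ring
  · intros
    simp only [map_add, Pi.add_apply, ← Finset.sum_add_distrib]
    exact Finset.sum_congr rfl fun i _ => by ring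
  · intros
    simp only [map_smul, Pi.smul_apply, Finset.mul_sum, smul_eq_mul]
    exact Finset.sum_congr rfl fun i _ => by ring
  · intros
    simp only [← Finset.sum_neg_distrib]
    exact Finset.sum_congr rfl fun i _ => by ring
  · intro v
    exact Finset.sum_eq_zero fun i _ => by ring
  · intro v hv
    obtain ⟨⟨l, i⟩, hi⟩ : ∃ z, c v z ≠ 0 := by
      by_contra h
      push Not at h
      exact hv (c.injective (funext fun z => by simp [h]))
    fin_cases l
    · refine ⟨⟨c.symm (Pi.single (1, i) 1), ?_⟩, ⟨c.symm (Pi.single (1, i) 1), ?_⟩⟩ <;>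
        (simp only [LinearEquiv.apply_symm_apply];
         rw [Finset.sum_eq_single i (fun j _ hj => by simp [hj]) (by simp)];
         simpa [Prod.ext_iff] using hi)
    · refine ⟨⟨c.symm (Pi.single (0, i) 1), ?_⟩, ⟨c.symm (Pi.single (0, i) 1), ?_⟩⟩ <;>
        (simp only [LinearEquiv.apply_symm_apply];
         rw [Finset.sum_eq_single i (fun j _ hj => by simp [hj]) (by simp)];
         simpa [Prod.ext_iff] using hi)
  · rintro g ⟨hg, hgdet⟩
    obtain ⟨B⟩ := exists_blockData hb hg
    have hdet := B.det_eq
    rw [GeoClasses.mem_specialLinear_iff.mp hgdet] at hdet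
    obtain ⟨d, hd⟩ : ∃ d : Fˣ, ∀ i, (B.blk i).det = (d : F) := by
      rcases hq with hF | ⟨hF, rfl⟩
      · exact ⟨1, fun i => by simpa [hF] using FiniteField.pow_card_sub_one_eq_one _ (B.det_blk_ne_zero i)⟩
      · refine ⟨Units.mk0 _ (B.det_blk_ne_zero 0), fun i => ?_⟩
        have hprod : (B.blk 0).det * (B.blk 1).det = 1 := by
          rcases Int.units_eq_one_or (Equiv.Perm.sign B.perm) with h | h <;>
            simpa [h, Fin.prod_univ_two] using hdet.symm
        have h0 := sq_eq_one_of_card_three hF (B.det_blk_ne_zero 0)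
        fin_cases i
        · rfl
        · simp only [Units.val_mk0, Fin.mk_one]
          linear_combination ((B.blk 0).det) * hprod - (B.blk 1).det * h0
    refine ⟨d, fun u v => ?_⟩
    beta_reduce
    rw [Finset.mul_sum]
    conv_lhs => rw [← Equiv.sum_comp B.perm]
    refine Finset.sum_congr rfl fun i _ => ?_
    simp only [c, B.repr_mulVec, Fin.sum_univ_two, ← hd i, Matrix.det_fin_two]
    ring

end Cfsg.Agent.ClassicalMax
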