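import Mathlib

/-!
A 2-group of exponent four with centre of order two all of whose characteristic abelian subgroups
are cyclic has class at most two.
-/

set_option autoImplicit false
set_option linter.style.haveILetI false

namespace Cfsg.Agent.ClassicalMax

open scoped commutatorElement

variable {R : Type*} [Group R]

/-- A normal subgroup outside a term of the upper central series meets the next term outside it. -/
theorem exists_mem_upperCentralSeries_succ [Group.IsNilpotent R] {N : Subgroup R} (hN : N.Normal) {i : ℕ}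
    (h : ¬ N ≤ Subgroup.upperCentralSeries R i) :
    ∃ w ∈ N, w ∈ Subgroup.upperCentralSeries R (i + 1) ∧ w ∉ Subgroup.upperCentralSeries R i := by
  by_contra hc
  push Not at hc
  obtain ⟨n, hn⟩ := Group.IsNilpotent.nilpotent (G := R)
  have key : ∀ k, ∀ w ∈ N, w ∈ Subgroup.upperCentralSeries R k → w ∈ Subgroup.upperCentralSeries R i := by
    intro k
    induction k with
    | zero =>
      intro w _ hw
      rw [Subgroup.upperCentralSeries_zero, Subgroup.mem_bot] at hw
      exact hw ▸ one_mem _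
    | succ k ih =>
      intro w hwN hw
      refine hc w hwN ?_
      rw [Subgroup.mem_upperCentralSeries_succ_iff] at hw ⊢
      intro y
      refine ih _ ?_ (hw y)
      simpa [commutatorElement_def, mul_assoc] using
        N.mul_mem hwN (hN.conj_mem _ (N.inv_mem hwN) y)
  exact h fun w hw => key n w hw (hn ▸ Subgroup.mem_top w)

/-- Exponent four, centre of order two and cyclic characteristic abelian subgroups: class two. -/
theorem commutator_le_center_of_exponent_four [Finite R] [Group.IsNilpotent R]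
    (hexp : ∀ x : R, x ^ 4 = 1)
    (hcyc : ∀ A : Subgroup R, A.Characteristic → IsMulCommutative A → IsCyclic A)
    (hZ : Nat.card (Subgroup.center R) = 2) : commutator R ≤ Subgroup.center R := by
  have hZmem : ∀ x ∈ Subgroup.center R, x * x = 1 := by
    intro x hx
    have := pow_card_eq_one' (x := (⟨x, hx⟩ : Subgroup.center R))
    rw [hZ, pow_two] at this
    exact congrArg Subtype.val this
  set Sq := Set.range fun x : R => x * x with hSq
  set Φ := Subgroup.closure Sq with hΦ
  haveI hΦc : Φ.Characteristic := by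
    rw [Subgroup.characteristic_iff_map_eq]
    intro φ
    rw [hΦ, MonoidHom.map_closure]
    congr 1
    ext y
    constructor
    · rintro ⟨_, ⟨x, rfl⟩, rfl⟩; exact ⟨φ x, by simp⟩
    · rintro ⟨x, rfl⟩; exact ⟨_, ⟨φ.symm x, rfl⟩, by simp⟩
  have hsq : ∀ x : R, x * x ∈ Φ := fun x => Subgroup.subset_closure ⟨x, rfl⟩
  have hD : commutator R ≤ Φ := by
    rw [commutator_def, Subgroup.commutator_le]
    intro x _ y _
    rw [show ⁅x, y⁆ = (x * y) * (x * y) * ((y⁻¹ * x⁻¹ * y) * (y⁻¹ * x⁻¹ * y)) * (y⁻¹ * y⁻¹) by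
      rw [commutatorElement_def]; group]
    exact mul_mem (mul_mem (hsq _) (hsq _)) (hsq _)
  by_contra hne
  have hΦZ : ¬ Φ ≤ Subgroup.upperCentralSeries R 1 := by
    rw [Subgroup.upperCentralSeries_one]
    exact fun h => hne (hD.trans h)
  obtain ⟨a, haΦ, ha2, ha1⟩ := exists_mem_upperCentralSeries_succ (inferInstance : Φ.Normal) hΦZ
  rw [Subgroup.upperCentralSeries_one] at ha1
  have hc1 : ∀ b ∈ Subgroup.upperCentralSeries R 2, ∀ x : R, ⁅b, x⁆ ∈ Subgroup.center R := by
    intro b hb x
    have := Subgroup.mem_upperCentralSeries_succ_iff.mp hb x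
    rwa [Subgroup.upperCentralSeries_one] at this
  -- `Φ` centralises the second centre
  have hcomm : ∀ b ∈ Subgroup.upperCentralSeries R 2, ∀ φ ∈ Φ, b * φ = φ * b := by
    intro b hb φ hφ
    induction hφ using Subgroup.closure_induction with
    | one => simp
    | mul p q _ _ hp hq => rw [← mul_assoc, hp, mul_assoc, hq, mul_assoc]
    | inv p _ hp => exact (Commute.inv_right hp).eq
    | mem s hs =>
      obtain ⟨x, rfl⟩ := hs
      have e : b * x = ⁅b, x⁆ * (x * b) := by rw [commutatorElement_def]; group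
      have hc := Subgroup.mem_center_iff.mp (hc1 b hb x)
      calc b * (x * x) = b * x * x := (mul_assoc _ _ _).symm
        _ = ⁅b, x⁆ * (x * (b * x)) := by rw [e]; group
        _ = ⁅b, x⁆ * (x * (⁅b, x⁆ * (x * b))) := by rw [e]
        _ = ⁅b, x⁆ * ⁅b, x⁆ * (x * x * b) := by
          rw [← mul_assoc x ⁅b, x⁆, hc x]; group
        _ = x * x * b := by rw [hZmem _ (hc1 b hb x), one_mul]
  -- the abelian characteristic subgroups inside `Φ`
  set C := Φ ⊓ Subgroup.centralizer (Φ : Set R)
  haveI : C.Characteristic := inferInstance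
  have hCa : IsMulCommutative C := by
    constructor; constructor
    intro x y
    exact Subtype.ext ((Subgroup.mem_centralizer_iff.mp y.2.2) x x.2.1)
  haveI := hcyc C inferInstance hCa
  have haC : a ∈ C := ⟨haΦ, Subgroup.mem_centralizer_iff.mpr fun φ hφ => (hcomm a ha2 φ hφ).symm⟩
  set A := Φ ⊓ Subgroup.upperCentralSeries R 2
  have hAC : A ≤ C := fun b hb =>
    ⟨hb.1, Subgroup.mem_centralizer_iff.mpr fun φ hφ => (hcomm b hb.2 φ hφ).symm⟩
  -- the only involution in the cyclic group is central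
  obtain ⟨z, hzΦ, hz1, hz0⟩ := exists_mem_upperCentralSeries_succ (inferInstance : Φ.Normal) (i := 0) (by
    rw [Subgroup.upperCentralSeries_zero]
    intro h
    exact hΦZ (h.trans bot_le))
  rw [Subgroup.upperCentralSeries_one] at hz1
  rw [Subgroup.upperCentralSeries_zero, Subgroup.mem_bot] at hz0
  have hzC : z ∈ C := ⟨hzΦ, Subgroup.mem_centralizer_iff.mpr fun φ _ => Subgroup.mem_center_iff.mp hz1 φ⟩
  have hsqC : ∀ b ∈ C, b * b = 1 → b ∈ Subgroup.center R := by
    intro b hb hbb
    by_contra hbc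
    classical
    haveI := Fintype.ofFinite C
    have hle := IsCyclic.card_pow_eq_one_le (α := C) (n := 2) two_pos
    have hsub : ({1, ⟨z, hzC⟩, ⟨b, hb⟩} : Finset C) ⊆ Finset.univ.filter fun x : C => x ^ 2 = 1 := by
      intro x hx
      simp only [Finset.mem_insert, Finset.mem_singleton] at hx
      rw [Finset.mem_filter]
      refine ⟨Finset.mem_univ _, Subtype.ext ?_⟩
      rw [pow_two]
      rcases hx with rfl | rfl | rfl
      · simp
      · exact hZmem z hz1
      · exact hbb
    have h3 : ({1, ⟨z, hzC⟩, ⟨b, hb⟩} : Finset C).card = 3 := by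
      rw [Finset.card_eq_three]
      exact ⟨1, ⟨z, hzC⟩, ⟨b, hb⟩, fun h => hz0 (congrArg Subtype.val h).symm,
        fun h => hbc (by rw [show b = 1 from (congrArg Subtype.val h).symm]; exact one_mem _),
        fun h => hbc (by rw [show b = z from (congrArg Subtype.val h).symm]; exact hz1), rfl⟩
    have := (Finset.card_le_card hsub).trans hle
    omega
  -- `Φ` is not inside the second centre
  have hΦ2 : ¬ Φ ≤ Subgroup.upperCentralSeries R 2 := by
    intro hle
    apply hΦZ
    rw [Subgroup.upperCentralSeries_one, hΦ, Subgroup.closure_le]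
    rintro _ ⟨x, rfl⟩
    refine hsqC _ (hAC ⟨hsq x, hle (hsq x)⟩) ?_
    have := hexp x
    rwa [pow_succ, pow_succ, pow_two, mul_assoc (x * x)] at this
  obtain ⟨w, hwΦ, hw3, hw2⟩ := exists_mem_upperCentralSeries_succ (inferInstance : Φ.Normal) hΦ2
  have hwx : ∀ x : R, ⁅w, x⁆ ∈ C := fun x => hAC ⟨by
    simpa [commutatorElement_def, mul_assoc] using
      Φ.mul_mem hwΦ ((inferInstance : Φ.Normal).conj_mem _ (Φ.inv_mem hwΦ) x),
    Subgroup.mem_upperCentralSeries_succ_iff.mp hw3 x⟩
  -- squares commute with `w` up to the centre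
  have hwsq : ∀ φ ∈ Φ, ⁅w, φ⁆ ∈ Subgroup.center R := by
    intro φ hφ
    induction hφ using Subgroup.closure_induction with
    | one => simp
    | mul p q _ _ hp hq =>
      have e : ⁅w, p * q⁆ = ⁅w, p⁆ * (p * ⁅w, q⁆ * p⁻¹) := by simp only [commutatorElement_def]; group
      rw [e, Subgroup.mem_center_iff.mp hq p, mul_inv_cancel_right]
      exact mul_mem hp hq
    | inv p _ hp =>
      have e : ⁅w, p⁻¹⁆ = p⁻¹ * ⁅w, p⁆⁻¹ * p := by simp only [commutatorElement_def]; group
      rw [e, Subgroup.mem_center_iff.mp (inv_mem hp) p⁻¹, inv_mul_cancel_right]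
      exact inv_mem hp
    | mem s hs =>
      obtain ⟨x, rfl⟩ := hs
      set c := ⁅w, x⁆ with hc
      have e : ⁅w, x * x⁆ = c * (x * c * x⁻¹) := by rw [hc]; simp only [commutatorElement_def]; group
      rw [e]
      have hcC : c ∈ C := hwx x
      have hc' : c ∈ Subgroup.upperCentralSeries R 2 := Subgroup.mem_upperCentralSeries_succ_iff.mp hw3 x
      refine hsqC _ (mul_mem hcC ((inferInstance : C.Normal).conj_mem _ hcC x)) ?_
      have hk := hc1 c hc' x
      have hconj : x * c * x⁻¹ = ⁅c, x⁆⁻¹ * c := by rw [commutatorElement_def]; group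
      rw [hconj]
      have hkc := Subgroup.mem_center_iff.mp (inv_mem hk) c
      calc c * (⁅c, x⁆⁻¹ * c) * (c * (⁅c, x⁆⁻¹ * c))
          = ⁅c, x⁆⁻¹ * c * c * (⁅c, x⁆⁻¹ * c * c) := by simp only [← mul_assoc, hkc]
        _ = ⁅c, x⁆⁻¹ * (⁅c, x⁆⁻¹) * (c * c * (c * c)) := by
          rw [mul_assoc ⁅c, x⁆⁻¹ c c, mul_assoc ⁅c, x⁆⁻¹ _ (⁅c, x⁆⁻¹ * (c * c)),
            ← mul_assoc (c * c) ⁅c, x⁆⁻¹, Subgroup.mem_center_iff.mp (inv_mem hk) (c * c)]
          group
        _ = 1 := by
          rw [← _root_.mul_inv_rev, hZmem _ hk, inv_one, one_mul, ← mul_assoc]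
          have := hexp c
          rwa [pow_succ, pow_succ, pow_two] at this
  have hwwC : w * w ∈ C := by
    refine ⟨mul_mem hwΦ hwΦ, Subgroup.mem_centralizer_iff.mpr fun φ hφ => ?_⟩
    have hc := hwsq φ hφ
    have e : w * φ = ⁅w, φ⁆ * (φ * w) := by rw [commutatorElement_def]; group
    calc φ * (w * w) = ⁅w, φ⁆ * ⁅w, φ⁆ * (φ * w * w) := by rw [hZmem _ hc, one_mul, mul_assoc]
      _ = ⁅w, φ⁆ * (w * φ * w) := by rw [e]; group
      _ = w * (⁅w, φ⁆ * (φ * w)) := by
        rw [← mul_assoc w, Subgroup.mem_center_iff.mp hc w]; group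
      _ = w * (w * φ) := by rw [← e]
      _ = w * w * φ := (mul_assoc _ _ _).symm
  have hww : w * w ∈ Subgroup.center R := by
    refine hsqC _ hwwC ?_
    have := hexp w
    rwa [pow_succ, pow_succ, pow_two, mul_assoc (w * w)] at this
  -- adjust `w` to an involution
  obtain ⟨v, hvΦ, hv3, hv2, hvv⟩ : ∃ v ∈ Φ, v ∈ Subgroup.upperCentralSeries R 3 ∧
      v ∉ Subgroup.upperCentralSeries R 2 ∧ v * v = 1 := by
    by_cases h1 : w * w = 1
    · exact ⟨w, hwΦ, hw3, hw2, h1⟩
    · have haa1 : a * a ≠ 1 := fun h => ha1 (hsqC a haC h)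
      have haaZ : a * a ∈ Subgroup.center R := hsqC _ (mul_mem haC haC) (by
        have := hexp a
        rwa [pow_succ, pow_succ, pow_two, mul_assoc (a * a)] at this)
      have heq : w * w = a * a := by
        have hcard : Nat.card (Subgroup.center R) = 2 := hZ
        obtain ⟨z, -, hz⟩ := (Nat.card_eq_two_iff' (1 : Subgroup.center R)).mp hcard
        have e1 := hz ⟨_, hww⟩ (fun h => h1 (congrArg Subtype.val h))
        have e2 := hz ⟨_, haaZ⟩ (fun h => haa1 (congrArg Subtype.val h))
        exact congrArg Subtype.val (e1.trans e2.symm)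
      refine ⟨w * a, mul_mem hwΦ haΦ, mul_mem hw3 (Subgroup.upperCentralSeries_mono R (by norm_num) ha2),
        fun h => hw2 ((mul_mem_cancel_right ha2).mp h), ?_⟩
      have hwa : a * w = w * a := hcomm a ha2 w hwΦ
      calc w * a * (w * a) = w * (a * w) * a := by group
        _ = w * w * (a * a) := by rw [hwa]; group
        _ = a * a * (a * a) := by rw [heq]
        _ = 1 := by
          have := hexp a
          rwa [pow_succ, pow_succ, pow_two, mul_assoc (a * a)] at this
  apply hv2
  rw [Subgroup.mem_upperCentralSeries_succ_iff, Subgroup.upperCentralSeries_one]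
  intro x
  have hc' : ⁅v, x⁆ ∈ Subgroup.upperCentralSeries R 2 := Subgroup.mem_upperCentralSeries_succ_iff.mp hv3 x
  have hcC : ⁅v, x⁆ ∈ C := hAC ⟨by
    simpa [commutatorElement_def, mul_assoc] using
      Φ.mul_mem hvΦ ((inferInstance : Φ.Normal).conj_mem _ (Φ.inv_mem hvΦ) x), hc'⟩
  refine hsqC _ hcC ?_
  have e := hcomm _ hc' v hvΦ
  have hvi : v⁻¹ = v := inv_eq_of_mul_eq_one_right hvv
  have hxvx : x * v * x⁻¹ = ⁅v, x⁆⁻¹ * v := by rw [commutatorElement_def]; group
  have hinv : x * v * x⁻¹ * (x * v * x⁻¹) = 1 := by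
    rw [show x * v * x⁻¹ * (x * v * x⁻¹) = x * (v * v) * x⁻¹ by group, hvv]; group
  rw [hxvx] at hinv
  have e' : v * ⁅v, x⁆⁻¹ = ⁅v, x⁆⁻¹ * v := (Commute.inv_left e).eq.symm
  rw [mul_assoc, ← mul_assoc v, e', mul_assoc, hvv, mul_one, ← _root_.mul_inv_rev, inv_eq_one] at hinv
  exact hinv

end Cfsg.Agent.ClassicalMax
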