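import Mathlib
import Cfsg.Agent.ClassicalMax.Decomp
import Cfsg.Agent.GeoClasses.MatrixUnits

/-!
In `SL_4(5)` the stabiliser of a decomposition into four lines lies in the normaliser of a group of
symplectic type of order 64.
-/

set_option autoImplicit false
set_option linter.style.haveILetI false

namespace Cfsg.Agent.ClassicalMax

open Matrix Cfsg.Geo Module
open scoped MatrixGroups Matrix

namespace MonomialFive

/-- Translations of the Klein four group on `Fin 4`. -/
def tr (k i : Fin 4) : Fin 4 := ![![0, 1, 2, 3], ![1, 0, 3, 2], ![2, 3, 0, 1], ![3, 2, 1, 0]] k i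

/-- The characters of the Klein four group, as exponents of -1. -/
def bit (l i : Fin 4) : Fin 2 := ![![0, 0, 0, 0], ![0, 1, 0, 1], ![0, 0, 1, 1], ![0, 1, 1, 0]] l i

/-- The characters, integral values. -/
def chi (l i : Fin 4) : ℤ := if bit l i = 0 then 1 else -1

/-- Diagonal sign matrix. -/
def dZ (l : Fin 4) : Matrix (Fin 4) (Fin 4) ℤ := Matrix.of fun i j => if i = j then chi l i else 0

/-- Translation matrix. -/
def tZ (k : Fin 4) : Matrix (Fin 4) (Fin 4) ℤ := Matrix.of fun i j => if i = tr k j then 1 else 0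

/-- The character table. -/
def hZ : Matrix (Fin 4) (Fin 4) ℤ := Matrix.of chi

lemma dZ_mul : ∀ l m, dZ l * dZ m = dZ (tr l m) := by decide +kernel
lemma tZ_mul : ∀ l m, tZ l * tZ m = tZ (tr l m) := by decide +kernel
lemma tZ_dZ : ∀ k l, tZ k * dZ l = chi l k • (dZ l * tZ k) := by decide +kernel
lemma hZ_tZ : ∀ k, hZ * tZ k = dZ k * hZ := by decide +kernel
lemma hZ_dZ : ∀ k, hZ * dZ k = tZ k * hZ := by decide +kernel
lemma hZ_sq : hZ * hZ = (4 : ℤ) • 1 := by decide +kernel
lemma one_eq_zero_zero : dZ 0 * tZ 0 = 1 := by decide +kernel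
lemma tr_self : ∀ k, tr k k = 0 := by decide
lemma tr_self_apply : ∀ k i, tr k (tr k i) = i := by decide
lemma tr_zero_right : ∀ k, tr k 0 = k := by decide
lemma chi_sum : ∀ i j, ∑ l, chi l i * chi l j = if i = j then 4 else 0 := by decide +kernel
lemma bit_zero_right : ∀ l, bit l 0 = 0 := by decide
lemma bit_inj : ∀ l m, (∀ i, bit l i = bit m i) → l = m := by decide
lemma eq_zero_of_bit : ∀ k, (∀ l, bit l k = 0) → k = 0 := by decide
lemma eq_zero_of_bit_left : ∀ l, (∀ k, bit l k = 0) → l = 0 := by decide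

/-- Affine action of all permutations on translations. -/
lemma perm_tr (f : Fin 4 → Fin 4) (hf : Function.Injective f) :
    ∀ k, ∃ k', ∀ i, f (tr k i) = tr k' (f i) := by
  revert f
  decide +kernel

/-- Affine action of all permutations on characters. -/
lemma perm_bit (f : Fin 4 → Fin 4) (hf : Function.Injective f) :
    ∀ l, ∃ l', ∃ s : Fin 2, ∀ i, bit l i = s + bit l' (f i) := by
  revert f
  decide +kernel

/-- Exponent form of the diagonal normalisers. -/
lemma diag_exponent : ∀ e : Fin 4 → Fin 4, (e 0 + e 1 + e 2 + e 3) + (e 0 + e 1 + e 2 + e 3) = 0 →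
    ∀ k, ∃ w l, ∀ i, e (tr k i) = e i + w + (if bit l (tr k i) = 0 then 0 else 2) := by
  decide +kernel

/-- Enough diagonal normalisers. -/
lemma diag_exponent_exists : ∀ k : Fin 4, k ≠ 0 → ∃ e : Fin 4 → Fin 4,
    (e 0 + e 1 + e 2 + e 3) + (e 0 + e 1 + e 2 + e 3) = 0 ∧
    ∀ w l, (∀ i, e (tr k i) = e i + w + (if bit l (tr k i) = 0 then 0 else 2)) → bit l k = 1 := by
  decide +kernel

variable {F : Type*} [Field F]

/-- Integer matrices over `F`. -/
def toF (F : Type*) [Field F] : Matrix (Fin 4) (Fin 4) ℤ →+* Matrix (Fin 4) (Fin 4) F :=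
  (Int.castRingHom F).mapMatrix

/-- The element `D_l T_k`. -/
def el (F : Type*) [Field F] (l k : Fin 4) : Matrix (Fin 4) (Fin 4) F := toF F (dZ l * tZ k)

lemma el_mul (l k m j : Fin 4) :
    el F l k * el F m j = (chi m k : F) • el F (tr l m) (tr k j) := by
  have h : dZ l * tZ k * (dZ m * tZ j) = chi m k • (dZ (tr l m) * tZ (tr k j)) := by
    rw [mul_assoc, ← mul_assoc (tZ k), tZ_dZ, smul_mul_assoc, mul_smul_comm, mul_assoc (dZ m),
      ← mul_assoc (dZ l), dZ_mul, tZ_mul]
  rw [el, el, ← map_mul, h, map_zsmul, Int.cast_smul_eq_zsmul]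
  rfl

lemma el_zero : el F 0 0 = 1 := by rw [el, one_eq_zero_zero, map_one]

lemma el_apply (l k i j : Fin 4) : el F l k i j = if i = tr k j then (chi l i : F) else 0 := by
  have h : (dZ l * tZ k) i j = if i = tr k j then chi l i else 0 := by
    simp [dZ, tZ, Matrix.mul_apply, ite_mul]
  simp only [el, toF, RingHom.mapMatrix_apply, Matrix.map_apply, h]
  split <;> simp

lemma chi_eq (l i : Fin 4) : (chi l i : F) = if bit l i = 0 then 1 else -1 := by
  simp only [chi]; split <;> simp

lemma chi_sq (l i : Fin 4) : (chi l i : F) * (chi l i : F) = 1 := by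
  rw [chi_eq]; split <;> simp

variable (F) in
/-- The symplectic-type group in standard coordinates. -/
def R₀ : Subgroup (GL (Fin 4) F) where
  carrier := {g | ∃ (u : Fˣ) (l k : Fin 4), (g : Matrix (Fin 4) (Fin 4) F) = (u : F) • el F l k}
  one_mem' := ⟨1, 0, 0, by rw [el_zero]; simp⟩
  mul_mem' := by
    rintro g h ⟨u, l, k, hg⟩ ⟨v, m, j, hh⟩
    refine ⟨u * v * Units.mk0 (chi m k : F) (fun h0 => by simpa [h0] using chi_sq (F := F) m k),
      tr l m, tr k j, ?_⟩
    rw [Units.val_mul, hg, hh, smul_mul_smul_comm, el_mul, smul_smul]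
    rfl
  inv_mem' := by
    rintro g ⟨u, l, k, hg⟩
    refine ⟨u⁻¹ * Units.mk0 (chi l k : F) (fun h0 => by simpa [h0] using chi_sq (F := F) l k), l, k, ?_⟩
    refine (eq_comm.mp (left_inv_eq_right_inv (a := (g : Matrix (Fin 4) (Fin 4) F)) ?_ (Units.mul_inv g)))
    rw [hg, smul_mul_smul_comm, el_mul, smul_smul, tr_self, tr_self, el_zero]
    simp only [Units.val_mul, Units.val_mk0]
    rw [show ((u⁻¹ : Fˣ) : F) * (chi l k : F) * (u : F) * (chi l k : F) = (((u⁻¹ : Fˣ) : F) * (u : F)) * ((chi l k : F) * (chi l k : F)) by ring,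
      chi_sq, Units.inv_mul, one_mul, one_smul]

/-- An element of `R₀` by parameters. -/
def mkEl (u : Fˣ) (l k : Fin 4) : GL (Fin 4) F where
  val := (u : F) • el F l k
  inv := (((u⁻¹ : Fˣ) : F) * (chi l k : F)) • el F l k
  val_inv := by
    rw [smul_mul_smul_comm, el_mul, smul_smul, tr_self, tr_self, el_zero]
    rw [show (u : F) * (((u⁻¹ : Fˣ) : F) * (chi l k : F)) * (chi l k : F) = ((u : F) * ((u⁻¹ : Fˣ) : F)) * ((chi l k : F) * (chi l k : F)) by ring,
      chi_sq, Units.mul_inv, one_mul, one_smul]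
  inv_val := by
    rw [smul_mul_smul_comm, el_mul, smul_smul, tr_self, tr_self, el_zero]
    rw [show ((u⁻¹ : Fˣ) : F) * (chi l k : F) * (u : F) * (chi l k : F) = (((u⁻¹ : Fˣ) : F) * (u : F)) * ((chi l k : F) * (chi l k : F)) by ring,
      chi_sq, Units.inv_mul, one_mul, one_smul]

lemma mkEl_mem (u : Fˣ) (l k : Fin 4) : mkEl u l k ∈ R₀ F := ⟨u, l, k, rfl⟩

lemma param_inj [NeZero (2 : F)] {u v : Fˣ} {l k m j : Fin 4}
    (h : (u : F) • el F l k = (v : F) • el F m j) : u = v ∧ l = m ∧ k = j := by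
  have hap := fun a b => congrFun (congrFun h a) b
  simp only [Matrix.smul_apply, el_apply, smul_eq_mul] at hap
  obtain rfl : k = j := by
    by_contra hne
    have h0 := hap k 0
    rw [tr_zero_right, tr_zero_right, if_pos rfl, if_neg hne, mul_zero] at h0
    have := congrArg (· * (chi l k : F)) h0
    simp [mul_assoc, chi_sq] at this
  have h0 := hap 0 k
  rw [tr_self, if_pos rfl, if_pos rfl, chi_eq, chi_eq, bit_zero_right, bit_zero_right, if_pos rfl,
    mul_one, mul_one] at h0
  refine ⟨Units.ext h0, bit_inj l m fun i => ?_, rfl⟩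
  have hi := hap i (tr k i)
  rw [tr_self_apply, if_pos rfl, if_pos rfl, h0, chi_eq, chi_eq] at hi
  have h11 : (1 : F) ≠ -1 := fun h => NeZero.ne (2 : F) (by linear_combination h)
  have hi' := mul_left_cancel₀ v.ne_zero hi
  rcases Fin.exists_fin_two.mp ⟨bit l i, rfl⟩ with a | a <;>
    rcases Fin.exists_fin_two.mp ⟨bit m i, rfl⟩ with c | c <;>
    simp [a, c, h11, Ne.symm h11] at hi' ⊢

variable [Fintype F]

lemma card_R₀ [NeZero (2 : F)] : Nat.card (R₀ F) = 16 * (Fintype.card F - 1) := by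
  classical
  let φ : Fˣ × Fin 4 × Fin 4 → R₀ F := fun z => ⟨mkEl z.1 z.2.1 z.2.2, mkEl_mem _ _ _⟩
  have hφ : Function.Bijective φ := by
    refine ⟨fun z z' h => ?_, fun g => ?_⟩
    · obtain ⟨h1, h2, h3⟩ := param_inj (congrArg (fun x : R₀ F => ((x : GL (Fin 4) F) : Matrix (Fin 4) (Fin 4) F)) h)
      exact Prod.ext h1 (Prod.ext h2 h3)
    · obtain ⟨u, l, k, h⟩ := g.2
      exact ⟨(u, l, k), Subtype.ext (Units.ext h.symm)⟩
  rw [← Nat.card_congr (Equiv.ofBijective φ hφ), Nat.card_prod, Nat.card_prod, Nat.card_units,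
    Nat.card_fin, Nat.card_eq_fintype_card]
  ring

omit [Fintype F] in
lemma eq_zero_of_commute [NeZero (2 : F)] {u : Fˣ} {l k : Fin 4}
    (h : ∀ m j, el F l k * el F m j = el F m j * el F l k) (_hu : u = u) : l = 0 ∧ k = 0 := by
  have key : ∀ m j, (chi m k : F) = chi l j := by
    intro m j
    have h' := h m j
    rw [el_mul, el_mul] at h'
    have hc : ∀ a b : Fin 4, tr a b = tr b a := by decide
    rw [hc m l, hc j k] at h'
    have := congrFun (congrFun h' 0) (tr k j)
    simp only [Matrix.smul_apply, el_apply, tr_self, if_true, smul_eq_mul] at this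
    rwa [chi_eq (tr l m) 0, bit_zero_right, if_pos rfl, mul_one, mul_one] at this
  have h11 : (1 : F) ≠ -1 := fun h => NeZero.ne (2 : F) (by linear_combination h)
  constructor
  · refine eq_zero_of_bit_left l fun j => ?_
    have := key 0 j
    rw [chi_eq, chi_eq, (by decide : ∀ a, bit 0 a = 0) k, if_pos rfl] at this
    by_contra hb
    rw [if_neg hb] at this
    exact h11 this
  · refine eq_zero_of_bit k fun m => ?_
    have := key m 0
    rw [chi_eq, chi_eq, bit_zero_right, if_pos rfl] at this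
    by_contra hb
    rw [if_neg hb] at this
    exact h11 this.symm

/-- Diagonal matrix from exponents of a fixed unit. -/
def dg (z : Fˣ) (e : Fin 4 → Fin 4) : GL (Fin 4) F where
  val := Matrix.diagonal fun i => ((z ^ (e i : ℕ) : Fˣ) : F)
  inv := Matrix.diagonal fun i => (((z ^ (e i : ℕ))⁻¹ : Fˣ) : F)
  val_inv := by rw [Matrix.diagonal_mul_diagonal]; simp
  inv_val := by rw [Matrix.diagonal_mul_diagonal]; simp

omit [Fintype F] in
lemma pow_fin_add {z : Fˣ} (hz : z ^ 4 = 1) (a b : Fin 4) :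
    z ^ ((a + b : Fin 4) : ℕ) = z ^ (a : ℕ) * z ^ (b : ℕ) := by
  rw [← pow_add, Fin.val_add]
  exact (pow_mod_orderOf z _).symm.trans (by
    rw [Nat.mod_mod_of_dvd _ (orderOf_dvd_of_pow_eq_one hz), pow_mod_orderOf])

omit [Fintype F] in
lemma dg_mul_el {z : Fˣ} (hz : z ^ 4 = 1) (hz2 : (z : F) ^ 2 = -1) {e : Fin 4 → Fin 4} {k w m : Fin 4}
    (h : ∀ i, e (tr k i) = e i + w + (if bit m (tr k i) = 0 then 0 else 2)) (l : Fin 4) :
    (dg z e : Matrix (Fin 4) (Fin 4) F) * el F l k =
      (((z ^ (w : ℕ) : Fˣ) : F) • el F (tr m l) k) * (dg z e : Matrix (Fin 4) (Fin 4) F) := by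
  ext i j
  simp only [dg, Matrix.diagonal_mul, Matrix.mul_diagonal, Matrix.smul_apply, el_apply, smul_eq_mul]
  by_cases hij : i = tr k j
  · subst hij
    simp only [if_true]
    have hb : ∀ l m i : Fin 4, chi (tr m l) i = chi m i * chi l i := by decide
    rw [h j, pow_fin_add hz, pow_fin_add hz, hb, Int.cast_mul, chi_eq m]
    split <;> rename_i hb' <;> push_cast
    · simp; ring
    · simp only [show ((2 : Fin 4) : ℕ) = 2 from rfl, hz2]; ring
  · simp [hij]

/-- The Hadamard element. -/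
def hGL (h4 : (4 : F) ≠ 0) : GL (Fin 4) F where
  val := toF F hZ
  inv := (4 : F)⁻¹ • toF F hZ
  val_inv := by
    rw [mul_smul_comm, ← map_mul, hZ_sq, map_zsmul, map_one, ← Int.cast_smul_eq_zsmul F, smul_smul]
    simp [inv_mul_cancel₀ h4]
  inv_val := by
    rw [smul_mul_assoc, ← map_mul, hZ_sq, map_zsmul, map_one, ← Int.cast_smul_eq_zsmul F, smul_smul]
    simp [inv_mul_cancel₀ h4]

omit [Fintype F] in
lemma h_mul_el (l k : Fin 4) : toF F hZ * el F l k = ((chi k l : F) • el F k l) * toF F hZ := by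
  have h : hZ * (dZ l * tZ k) = (chi k l • (dZ k * tZ l)) * hZ := by
    rw [← mul_assoc, hZ_dZ, mul_assoc, hZ_tZ, ← mul_assoc, tZ_dZ]
  rw [el, el, ← map_mul, h, map_mul, map_zsmul, Int.cast_smul_eq_zsmul]

lemma normalizer_of_forall {g : GL (Fin 4) F}
    (h : ∀ l k, ∃ (u : Fˣ) (m j : Fin 4), (g : Matrix (Fin 4) (Fin 4) F) * el F l k =
      ((u : F) • el F m j) * (g : Matrix (Fin 4) (Fin 4) F)) :
    (R₀ F).map (MulAut.conj g).toMonoidHom = R₀ F := by
  classical
  refine Subgroup.eq_of_le_of_card_ge ?_ (le_of_eq (Subgroup.card_map_of_injective (MulAut.conj g).injective).symm)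
  rintro _ ⟨x, ⟨v, l, k, hx⟩, rfl⟩
  obtain ⟨u, m, j, hu⟩ := h l k
  refine ⟨v * u, m, j, ?_⟩
  simp only [MulEquiv.coe_toMonoidHom, MulAut.conj_apply, Units.val_mul, hx, mul_smul_comm, smul_mul_assoc]
  rw [hu, mul_assoc, Units.mul_inv, mul_one, smul_smul]

/-- An automorphism of a subgroup from a normalising element. -/
noncomputable def autOf {G : Type*} [Group G] {R : Subgroup G} {g : G}
    (h : R.map (MulAut.conj g).toMonoidHom = R) : R ≃* R :=
  (R.equivMapOfInjective _ (MulAut.conj g).injective).trans (MulEquiv.subgroupCongr h)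

lemma autOf_apply {G : Type*} [Group G] {R : Subgroup G} {g : G}
    (h : R.map (MulAut.conj g).toMonoidHom = R) (x : R) : (autOf h x : G) = g * x * g⁻¹ := rfl

variable (hF : Fintype.card F = 5)

include hF in
lemma charFive : CharP F 5 := by
  obtain ⟨n, hp, hn⟩ := FiniteField.card F (ringChar F)
  rw [hF] at hn
  have : ringChar F = 5 :=
    (Nat.prime_dvd_prime_iff_eq hp Nat.prime_five).mp (hn ▸ dvd_pow_self _ n.ne_zero)
  exact this ▸ ringChar.charP F

include hF in
lemma exists_generator : ∃ z : Fˣ, z ^ 4 = 1 ∧ (z : F) ^ 2 = -1 ∧ orderOf z = 4 ∧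
    ∀ x : F, x ≠ 0 → ∃ e : Fin 4, x = ((z ^ (e : ℕ) : Fˣ) : F) := by
  classical
  haveI := charFive hF
  obtain ⟨z, hz⟩ := IsCyclic.exists_ofOrder_eq_natCard (α := Fˣ)
  rw [Nat.card_eq_fintype_card, Fintype.card_units, hF] at hz
  norm_num at hz
  refine ⟨z, hz ▸ pow_orderOf_eq_one z, ?_, hz, fun x hx => ?_⟩
  · have h1 : ((z : F) ^ 2) * ((z : F) ^ 2) = 1 := by
      rw [← pow_add, ← Units.val_pow_eq_pow_val]
      norm_num
      have h4' : z ^ 4 = 1 := by rw [← hz]; exact pow_orderOf_eq_one z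
      rw [← Units.val_pow_eq_pow_val, h4', Units.val_one]
    rcases mul_self_eq_one_iff.mp h1 with h | h
    · exfalso
      have : z ^ 2 = 1 := Units.ext (by rw [Units.val_pow_eq_pow_val, h, Units.val_one])
      have := orderOf_dvd_of_pow_eq_one this
      rw [hz] at this
      norm_num at this
    · exact h
  · have hmem : Units.mk0 x hx ∈ Subgroup.zpowers z := by
      have : Subgroup.zpowers z = ⊤ := by
        rw [← Subgroup.card_eq_iff_eq_top, Nat.card_zpowers, hz, Nat.card_eq_fintype_card, Fintype.card_units, hF]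
      rw [this]; trivial
    obtain ⟨a, ha⟩ := (mem_powers_iff_mem_zpowers.mpr hmem : Units.mk0 x hx ∈ Submonoid.powers z)
    refine ⟨⟨a % 4, Nat.mod_lt _ (by norm_num)⟩, ?_⟩
    have h2 : z ^ (a % 4) = Units.mk0 x hx :=
      (by rw [← hz]; exact (pow_mod_orderOf z a).trans ha)
    simp [h2]

include hF in
lemma isLinearSymplecticTypeData : IsLinearSymplecticTypeData 2 (R₀ F) := by
  classical
  haveI := charFive hF
  haveI : NeZero (2 : F) := ⟨fun h => by
    have := (CharP.cast_eq_zero_iff F 5 2).mp h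
    norm_num at this⟩
  have h4 : (4 : F) ≠ 0 := fun h => by
    have := (CharP.cast_eq_zero_iff F 5 4).mp h
    norm_num at this
  obtain ⟨z, hz, hz2, hzo, -⟩ := exists_generator hF
  have hcard : Nat.card (R₀ F) = 64 := by rw [card_R₀, hF]
  have hcenter : ∀ x : R₀ F, x ∈ Subgroup.center (R₀ F) ↔ ∃ u : Fˣ, x = ⟨mkEl u 0 0, mkEl_mem _ _ _⟩ := by
    intro x
    obtain ⟨u, l, k, hx⟩ := x.2
    constructor
    · intro h
      have hcomm : ∀ m j, el F l k * el F m j = el F m j * el F l k := by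
        intro m j
        have h' := congrArg (fun y : R₀ F => ((y : GL (Fin 4) F) : Matrix (Fin 4) (Fin 4) F))
          (Subgroup.mem_center_iff.mp h ⟨mkEl 1 m j, mkEl_mem _ _ _⟩)
        simp only [Subgroup.coe_mul, Units.val_mul, hx, mkEl, Units.val_one, one_smul, mul_smul_comm,
          smul_mul_assoc] at h'
        exact (smul_right_injective _ u.ne_zero h').symm
      obtain ⟨rfl, rfl⟩ := eq_zero_of_commute (u := u) hcomm rfl
      exact ⟨u, Subtype.ext (Units.ext hx)⟩
    · rintro ⟨v, rfl⟩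
      rw [Subgroup.mem_center_iff]
      intro y
      refine Subtype.ext (Units.ext ?_)
      simp [mkEl, el_zero]
  have hcard_center : Nat.card (Subgroup.center (R₀ F)) = 4 := by
    let φ : Fˣ → Subgroup.center (R₀ F) := fun u => ⟨⟨mkEl u 0 0, mkEl_mem _ _ _⟩, (hcenter _).mpr ⟨u, rfl⟩⟩
    have hφ : Function.Bijective φ := by
      refine ⟨fun a b h => ?_, fun x => ?_⟩
      · exact (param_inj (congrArg (fun y : Subgroup.center (R₀ F) => (((y : R₀ F) : GL (Fin 4) F) : Matrix (Fin 4) (Fin 4) F)) h)).1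
      · obtain ⟨u, hu⟩ := (hcenter _).mp x.2
        exact ⟨u, Subtype.ext hu.symm⟩
    rw [← Nat.card_congr (Equiv.ofBijective φ hφ), Nat.card_units, Nat.card_eq_fintype_card, hF]
  refine ⟨⟨Nat.prime_two, IsPGroup.of_card (n := 6) (by rw [hcard]; norm_num), ?_, ?_⟩, ⟨?_, ?_⟩,
    ⟨5, 1, by norm_num, ⟨Nat.prime_five, charFive hF, by rw [hF, pow_one], by rw [hcard_center]; norm_num,
      fun d hd hd1 => by omega⟩, Or.inr (Or.inl ⟨rfl, rfl, hcard_center, by simp, 2, by rw [hcard]; norm_num⟩)⟩⟩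
  · intro A hA hAc
    haveI := hAc
    suffices hle : A ≤ Subgroup.center (R₀ F) by
      let ψ : Fˣ →* R₀ F :=
        { toFun := fun u => ⟨mkEl u 0 0, mkEl_mem _ _ _⟩
          map_one' := Subtype.ext (Units.ext (by simp [mkEl, el_zero]))
          map_mul' := fun a b => Subtype.ext (Units.ext (by simp [mkEl, el_zero, smul_smul, mul_comm])) }
      haveI : IsCyclic (Subgroup.center (R₀ F)) :=
        isCyclic_of_surjective (ψ.codRestrict _ fun u => (hcenter _).mpr ⟨u, rfl⟩) fun x => by
          obtain ⟨u, hu⟩ := (hcenter _).mp x.2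
          exact ⟨u, Subtype.ext hu.symm⟩
      exact Subgroup.isCyclic_of_le hle
    intro x hxA
    obtain ⟨u, l, k, hx⟩ := x.2
    by_contra hnc
    -- an element of A moving the frame
    obtain ⟨y, hyA, v, m, j, hy, hj⟩ : ∃ y ∈ A, ∃ (v : Fˣ) (m j : Fin 4),
        ((y : GL (Fin 4) F) : Matrix (Fin 4) (Fin 4) F) = (v : F) • el F m j ∧ j ≠ 0 := by
      by_cases hk : k = 0
      · subst hk
        have hl : l ≠ 0 := by
          rintro rfl
          exact hnc ((hcenter x).mpr ⟨u, Subtype.ext (Units.ext hx)⟩)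
        have hn : (R₀ F).map (MulAut.conj (hGL h4)).toMonoidHom = R₀ F := normalizer_of_forall fun a b =>
          ⟨Units.mk0 (chi b a : F) (fun h0 => by simpa [h0] using chi_sq (F := F) b a), b, a, h_mul_el a b⟩
        refine ⟨autOf hn x, ?_, u * Units.mk0 (chi 0 l : F) (fun h0 => by simpa [h0] using chi_sq (F := F) 0 l), 0, l, ?_, hl⟩
        · exact (SetLike.ext_iff.mp (hA.fixed (autOf hn)) x).mpr hxA
        · rw [autOf_apply, Units.val_mul, Units.val_mul, hx, mul_smul_comm]
          change ((u : F) • (toF F hZ * el F l 0)) * _ = _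
          rw [h_mul_el, smul_mul_assoc, mul_assoc]
          change (u : F) • (((chi 0 l : F) • el F 0 l) * ((hGL h4 : Matrix (Fin 4) (Fin 4) F) * ((hGL h4)⁻¹ : GL (Fin 4) F))) = _
          rw [Units.mul_inv, mul_one, smul_smul]
          rfl
      · exact ⟨x, hxA, u, l, k, hx, hk⟩
    obtain ⟨e, he, hbad⟩ := diag_exponent_exists j hj
    have hn : (R₀ F).map (MulAut.conj (dg z e)).toMonoidHom = R₀ F := normalizer_of_forall fun a b => by
      obtain ⟨w, c, hc⟩ := diag_exponent e he b
      exact ⟨z ^ (w : ℕ), tr c a, b, dg_mul_el hz hz2 hc a⟩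
    obtain ⟨w, c, hc⟩ := diag_exponent e he j
    have hc1 := hbad w c hc
    have hy' : autOf hn y ∈ A := by
      exact (SetLike.ext_iff.mp (hA.fixed (autOf hn)) y).mpr hyA
    have hval : ((autOf hn y : GL (Fin 4) F) : Matrix (Fin 4) (Fin 4) F) =
        ((v : F) * ((z ^ (w : ℕ) : Fˣ) : F)) • el F (tr c m) j := by
      rw [autOf_apply, Units.val_mul, Units.val_mul, hy, mul_smul_comm, dg_mul_el hz hz2 hc,
        smul_mul_assoc, mul_assoc, Units.mul_inv, mul_one, smul_smul]
    have hcomm := congrArg (fun g : A => (((g : R₀ F) : GL (Fin 4) F) : Matrix (Fin 4) (Fin 4) F))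
      (mul_comm' (⟨y, hyA⟩ : A) ⟨autOf hn y, hy'⟩)
    simp only [Subgroup.coe_mul, Units.val_mul, hy, hval, smul_mul_smul_comm, el_mul, tr_self, smul_smul] at hcomm
    have hc2 : ∀ a b : Fin 4, tr a b = tr b a := by decide
    have hc3 : ∀ a b i : Fin 4, chi (tr a b) i = chi a i * chi b i := by decide
    rw [hc2 m (tr c m), hc3 c m j, Int.cast_mul] at hcomm
    have h0 := congrFun (congrFun hcomm 0) 0
    rw [Matrix.smul_apply, Matrix.smul_apply, el_apply, tr_zero_right, if_pos rfl, chi_eq (tr (tr c m) m), bit_zero_right,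
      if_pos rfl, smul_eq_mul, smul_eq_mul, mul_one, mul_one] at h0
    have hcj : (chi c j : F) = -1 := by rw [chi_eq, hc1]; simp
    rw [hcj] at h0
    have hne : (v : F) * (v : F) * ((z ^ (w : ℕ) : Fˣ) : F) * (chi m j : F) * 2 = 0 := by linear_combination -h0
    have : (chi m j : F) ≠ 0 := fun h0 => by simpa [h0] using chi_sq (F := F) m j
    simp [NeZero.ne (2 : F), this] at hne
  · refine Nat.dvd_antisymm ?_ ?_
    · show _ ∣ 4
      rw [Monoid.exponent_dvd_iff_forall_pow_eq_one]
      rintro ⟨x, u, l, k, hx⟩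
      refine Subtype.ext (Units.ext ?_)
      simp only [SubmonoidClass.coe_pow, Units.val_pow_eq_pow_val, hx, smul_pow, OneMemClass.coe_one, Units.val_one]
      rw [show el F l k ^ 4 = (el F l k * el F l k) * (el F l k * el F l k) by simp [pow_succ, mul_assoc],
        el_mul, tr_self, tr_self, el_zero, smul_mul_smul_comm, chi_sq, one_mul, one_smul]
      have : (u : F) ^ 4 = 1 := by simpa [hF] using FiniteField.pow_card_sub_one_eq_one (u : F) u.ne_zero
      simp [this]
    · let ψ : Fˣ →* R₀ F :=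
        { toFun := fun u => ⟨mkEl u 0 0, mkEl_mem _ _ _⟩
          map_one' := Subtype.ext (Units.ext (by simp [mkEl, el_zero]))
          map_mul' := fun a b => Subtype.ext (Units.ext (by simp [mkEl, el_zero, smul_smul, mul_comm])) }
      have hinj : Function.Injective ψ := fun a b h =>
        (param_inj (congrArg (fun y : R₀ F => ((y : GL (Fin 4) F) : Matrix (Fin 4) (Fin 4) F)) h)).1
      have h := Monoid.order_dvd_exponent (ψ z)
      rwa [orderOf_injective ψ hinj, hzo] at h
  · -- irreducible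
    intro W hW
    have hel : ∀ l k, ∀ v ∈ W, el F l k *ᵥ v ∈ W := by
      intro l k v hv
      refine hW (el F l k) ⟨mkEl 1 l k, mkEl_mem _ _ _, ?_⟩ ⟨v, hv, Matrix.toLin'_apply _ _⟩
      simp [mkEl]
    have hproj : ∀ v ∈ W, ∀ i, Pi.single i ((4 : F) * v i) ∈ W := by
      intro v hv i
      have hmem : ∑ l, (chi l i : F) • (el F l 0 *ᵥ v) ∈ W :=
        Submodule.sum_mem _ fun l _ => W.smul_mem _ (hel l 0 v hv)
      convert hmem using 1
      funext j
      have htr : ∀ a : Fin 4, tr 0 a = a := by decide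
      simp only [Finset.sum_apply, Pi.smul_apply, smul_eq_mul, Matrix.mulVec, dotProduct, el_apply, htr,
        ite_mul, zero_mul, Finset.sum_ite_eq, Finset.mem_univ, if_true, ← mul_assoc, ← Finset.sum_mul]
      have h := congrArg (fun t : ℤ => (t : F)) (chi_sum i j)
      push_cast at h
      rw [h]
      rcases eq_or_ne i j with rfl | hne
      · simp
      · simp [hne, hne.symm]
    by_cases hbot : W = ⊥
    · exact Or.inl hbot
    obtain ⟨v, hv, hv0⟩ := Submodule.exists_mem_ne_zero_of_ne_bot hbot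
    obtain ⟨i, hi⟩ := Function.ne_iff.mp hv0
    have hei : Pi.single i (1 : F) ∈ W := by
      have := W.smul_mem ((4 : F) * v i)⁻¹ (hproj v hv i)
      rwa [← Pi.single_smul', smul_eq_mul, inv_mul_cancel₀ (mul_ne_zero h4 hi)] at this
    refine Or.inr (eq_top_iff.mpr ?_)
    rw [← (Pi.basisFun F (Fin 4)).span_eq, Submodule.span_le]
    rintro _ ⟨j, rfl⟩
    have htr : ∀ i j : Fin 4, ∃ k, tr k i = j := by decide
    obtain ⟨k, hk⟩ := htr i j
    have := hel 0 k _ hei
    show (Pi.basisFun F (Fin 4)) j ∈ W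
    suffices heq : (Pi.basisFun F (Fin 4)) j = el F 0 k *ᵥ Pi.single i 1 by rw [heq]; exact this
    funext a
    rw [Pi.basisFun_apply, Matrix.mulVec_single_one, Matrix.col_apply, el_apply, hk, chi_eq]
    have hb : ∀ a, bit 0 a = 0 := by decide
    simp [Pi.single_apply, hb]
  · -- commutant
    intro M hM
    have hcomm : ∀ l k, M * el F l k = el F l k * M := fun l k => by
      simpa [mkEl] using hM _ ⟨mkEl 1 l k, mkEl_mem _ _ _, rfl⟩
    have hoff : ∀ i j, i ≠ j → M i j = 0 := by
      intro i j hij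
      obtain ⟨l, hl⟩ : ∃ l, bit l i ≠ bit l j := by
        revert i j; decide
      have h := congrFun (congrFun (hcomm l 0) i) j
      have htr : ∀ a : Fin 4, tr 0 a = a := by decide
      simp only [Matrix.mul_apply, el_apply, htr, mul_ite, ite_mul, mul_zero, zero_mul, Finset.sum_ite_eq',
        Finset.sum_ite_eq, Finset.mem_univ, if_true] at h
      rw [chi_eq, chi_eq] at h
      have h11 : (1 : F) ≠ -1 := fun h => NeZero.ne (2 : F) (by linear_combination h)
      have h2 : (2 : F) ≠ 0 := NeZero.ne _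
      rcases Fin.exists_fin_two.mp ⟨bit l i, rfl⟩ with a | a <;>
        rcases Fin.exists_fin_two.mp ⟨bit l j, rfl⟩ with c | c <;> simp [a, c] at h hl ⊢
      · exact ((mul_eq_zero.mp (by linear_combination -h : (2 : F) * M i j = 0)).resolve_left h2)
      · exact ((mul_eq_zero.mp (by linear_combination h : (2 : F) * M i j = 0)).resolve_left h2)
    refine ⟨M 0 0, ?_⟩
    ext i j
    by_cases hij : i = j
    · subst hij
      have h := congrFun (congrFun (hcomm 0 i) i) 0
      have hb : ∀ a, bit 0 a = 0 := by decide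
      simp only [Matrix.mul_apply, el_apply, tr_zero_right, chi_eq, hb, if_true, mul_ite, ite_mul, mul_zero,
        zero_mul, mul_one, one_mul] at h
      rw [Finset.sum_ite_eq' Finset.univ i, if_pos (Finset.mem_univ _)] at h
      rw [Finset.sum_eq_single (0 : Fin 4) (fun a _ ha => by
        rw [if_neg]
        intro h'
        exact ha ((congrArg (tr i) h').symm.trans (tr_self i) |> (tr_self_apply i a ▸ ·))) (by simp)] at h
      rw [if_pos (tr_zero_right i).symm] at h
      simp [h]
    · simp [hij, hoff i j hij]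

end MonomialFive

end Cfsg.Agent.ClassicalMax
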