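import Mathlib
import Cfsg.Prelude.Def_GeometricClasses

/-!
The data of a class 6 group is invariant under conjugation.
-/

set_option autoImplicit false
set_option linter.style.haveILetI false

namespace Cfsg.Agent.ClassicalMax

open Matrix Cfsg.Geo
open scoped MatrixGroups Matrix

variable {ι : Type} [Fintype ι] [DecidableEq ι] {F : Type*} [Field F]

lemma isSymplecticTypeGroup_congr {κ : Type} [Fintype κ] [DecidableEq κ] {r : ℕ}
    {R : Subgroup (GL ι F)} {R' : Subgroup (GL κ F)} (e : R ≃* R')
    (h : IsSymplecticTypeGroup r R) : IsSymplecticTypeGroup r R' where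
  prime := h.prime
  pGroup := h.pGroup.of_equiv e
  exponent_eq := by rw [← Monoid.exponent_eq_of_mulEquiv e]; exact h.exponent_eq
  cyclic_of_characteristic := by
    intro A hA hAc
    haveI := hA
    haveI := hAc
    let A' : Subgroup R := A.map e.symm.toMonoidHom
    haveI hA' : A'.Characteristic := by
      refine ⟨fun φ => ?_⟩
      ext x
      have h1 : ∀ y, y ∈ A' ↔ e y ∈ A := fun y => by
        constructor
        · rintro ⟨z, hz, rfl⟩
          simpa using hz
        · intro hy
          exact ⟨e y, hy, e.symm_apply_apply y⟩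
      rw [Subgroup.mem_comap, h1, h1]
      have h2 := SetLike.ext_iff.mp (hA.fixed ((e.symm.trans φ).trans e)) (e x)
      simpa using h2
    haveI : IsMulCommutative A' := by
      refine ⟨⟨fun a b => ?_⟩⟩
      obtain ⟨_, x, hx, rfl⟩ := a
      obtain ⟨_, y, hy, rfl⟩ := b
      have := congrArg Subtype.val (mul_comm' (⟨x, hx⟩ : A) ⟨y, hy⟩)
      exact Subtype.ext (by simpa [← map_mul] using congrArg e.symm this)
    haveI := h.cyclic_of_characteristic A' hA' inferInstance
    exact isCyclic_of_surjective _ (A.equivMapOfInjective e.symm.toMonoidHom e.symm.injective).symm.surjective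

lemma actsAbsolutelyIrreducibly_conj {R : Subgroup (GL ι F)} (P : GL ι F)
    (h : ActsAbsolutelyIrreducibly (matrixSet R)) :
    ActsAbsolutelyIrreducibly (matrixSet (R.map (MulAut.conj P).toMonoidHom)) := by
  constructor
  · intro W hW
    let W' := W.comap (Matrix.toLin' (P : Matrix ι ι F))
    have hW' : W' = ⊥ ∨ W' = ⊤ := h.1 W' (by
      rintro _ ⟨g, hg, rfl⟩ _ ⟨v, hv, rfl⟩
      simp only [W', Submodule.mem_comap, Matrix.toLin'_apply] at hv ⊢
      simpa [Matrix.mulVec_mulVec, mul_assoc] using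
        hW _ ⟨_, ⟨g, hg, rfl⟩, rfl⟩ ⟨_, hv, Matrix.toLin'_apply _ _⟩)
    have hsurj : ∀ w, ∃ v, (P : Matrix ι ι F) *ᵥ v = w := fun w =>
      ⟨((P⁻¹ : GL ι F) : Matrix ι ι F) *ᵥ w, by simp [Matrix.mulVec_mulVec]⟩
    rcases hW' with h0 | h0
    · refine Or.inl (eq_bot_iff.mpr fun w hw => ?_)
      obtain ⟨v, rfl⟩ := hsurj w
      have : v ∈ W' := by simpa [W'] using hw
      rw [h0, Submodule.mem_bot] at this
      simp [this]
    · refine Or.inr (eq_top_iff.mpr fun w _ => ?_)
      obtain ⟨v, rfl⟩ := hsurj w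
      have : v ∈ W' := h0 ▸ Submodule.mem_top
      simpa [W'] using this
  · intro M hM
    obtain ⟨c, hc⟩ := h.2 (((P⁻¹ : GL ι F) : Matrix ι ι F) * M * (P : Matrix ι ι F)) (by
      rintro _ ⟨g, hg, rfl⟩
      have := hM _ ⟨_, ⟨g, hg, rfl⟩, rfl⟩
      simp only [MulEquiv.coe_toMonoidHom, MulAut.conj_apply, Units.val_mul] at this
      have h2 := congrArg (fun Z => ((P⁻¹ : GL ι F) : Matrix ι ι F) * Z * (P : Matrix ι ι F)) this
      simpa [mul_assoc] using h2)
    refine ⟨c, ?_⟩
    have := congrArg (fun Z => (P : Matrix ι ι F) * Z * ((P⁻¹ : GL ι F) : Matrix ι ι F)) hc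
    simpa [mul_assoc] using this

/-- Conjugation invariance of the class 6 data. -/
theorem isLinearSymplecticTypeData_conj [Fintype F] {r : ℕ} {R : Subgroup (GL ι F)} (P : GL ι F)
    (h : IsLinearSymplecticTypeData r R) :
    IsLinearSymplecticTypeData r (R.map (MulAut.conj P).toMonoidHom) := by
  let e : R ≃* (R.map (MulAut.conj P).toMonoidHom : Subgroup (GL ι F)) :=
    R.equivMapOfInjective _ (MulAut.conj P).injective
  have hZ : Nat.card (Subgroup.center (R.map (MulAut.conj P).toMonoidHom : Subgroup (GL ι F))) =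
      Nat.card (Subgroup.center R) := (Nat.card_congr (Subgroup.centerCongr e).toEquiv).symm
  have hR : Nat.card (R.map (MulAut.conj P).toMonoidHom : Subgroup (GL ι F)) = Nat.card R :=
    (Nat.card_congr e.toEquiv).symm
  obtain ⟨p, q, h1, h2, h3⟩ := h.field
  refine ⟨isSymplecticTypeGroup_congr e h.symplecticType, actsAbsolutelyIrreducibly_conj P h.absIrred,
    p, q, h1, by rwa [hZ], ?_⟩
  rw [hZ, hR]
  rcases h3 with h3 | h3 | ⟨a, b, c, d, d', x, hx, hux⟩
  · exact Or.inl h3
  · exact Or.inr (Or.inl h3)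
  · refine Or.inr (Or.inr ⟨a, b, c, d, d', e x, ?_, fun y hy => ?_⟩)
    · show orderOf (e x) = 2
      rw [MulEquiv.orderOf_eq]
      exact hx
    · have : e.symm y = x := hux _ (by
        show orderOf (e.symm y) = 2
        rw [MulEquiv.orderOf_eq]
        exact hy)
      rw [← this, MulEquiv.apply_symm_apply]

end Cfsg.Agent.ClassicalMax
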