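import Mathlib
import Cfsg.Agent.ClassicalMax.MonomialFive
import Cfsg.Agent.ClassicalMax.SymplecticTypeConj

/-!
`SL_4(5)`: the stabiliser of four lines lies in a member of class 6.
-/

set_option autoImplicit false
set_option linter.style.haveILetI false

namespace Cfsg.Agent.ClassicalMax

open Matrix Cfsg.Geo Module MonomialFive
open scoped MatrixGroups Matrix

variable {F : Type*} [Field F] [Fintype F]

/-- The exception `q = 5` for the frame stabilisers of `SL_4(q)`. -/
theorem decomposition_le_symplecticTypeNormalizer_of_five (hF : Fintype.card F = 5)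
    {D : Fin 4 → Submodule F (Fin 4 → F)} (hD : IsMDecomposition 1 D) :
    ∃ R : Subgroup (GL (Fin 4) F), IsLinearSymplecticTypeData 2 R ∧
      decompositionStabilizer D ⊓ specialLinear (Fin 4) F ≤ subgroupNormalizer R := by
  classical
  haveI := charFive hF
  obtain ⟨b, hb⟩ := exists_adapted_basis hD
  let b4 : Basis (Fin 4) F (Fin 4 → F) := b.reindex (Equiv.uniqueProd (Fin 4) (Fin 1))
  let P : GL (Fin 4) F := GeoClasses.glOfEquiv b4.equivFun.symm
  obtain ⟨z, hz, hz2, hzo, hlog⟩ := exists_generator hF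
  refine ⟨(R₀ F).map (MulAut.conj P).toMonoidHom,
    isLinearSymplecticTypeData_conj P (isLinearSymplecticTypeData hF), ?_⟩
  rintro g ⟨hg, hdet⟩
  obtain ⟨B⟩ := exists_blockData hb hg
  have hbne : ∀ i, B.blk i 0 0 ≠ 0 := by
    intro i
    simpa [Matrix.det_fin_one] using B.det_blk_ne_zero i
  choose e he using fun i => hlog _ (hbne i)
  let f : Fin 4 → Fin 4 := B.perm
  -- the condition on exponents
  have hd : (e 0 + e 1 + e 2 + e 3) + (e 0 + e 1 + e 2 + e 3) = 0 := by
    have hdet' := B.det_eq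
    rw [GeoClasses.mem_specialLinear_iff.mp hdet, pow_one, Fin.prod_univ_four] at hdet'
    simp only [Matrix.det_fin_one, he] at hdet'
    have hsq : (z ^ ((e 0 + e 1 + e 2 + e 3 + (e 0 + e 1 + e 2 + e 3) : Fin 4) : ℕ) : Fˣ) = 1 := by
      refine Units.ext ?_
      simp only [pow_fin_add hz, Units.val_mul, Units.val_one]
      set A := ((z ^ (e 0 : ℕ) : Fˣ) : F) * ((z ^ (e 1 : ℕ) : Fˣ) : F) * ((z ^ (e 2 : ℕ) : Fˣ) : F) * ((z ^ (e 3 : ℕ) : Fˣ) : F)
      rcases Int.units_eq_one_or (Equiv.Perm.sign B.perm) with h | h <;> rw [h] at hdet' <;> push_cast at hdet'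
      · rw [one_mul] at hdet'
        rw [← hdet', one_mul]
      · rw [neg_one_mul] at hdet'
        rw [show A * A = (-A) * (-A) by ring, ← hdet', one_mul]
    have h2 := orderOf_dvd_of_pow_eq_one hsq
    rw [hzo] at h2
    apply Fin.ext
    have h3 : ((e 0 + e 1 + e 2 + e 3 + (e 0 + e 1 + e 2 + e 3) : Fin 4) : ℕ) < 4 := Fin.isLt _
    obtain ⟨q, hq⟩ := h2
    simp only [Fin.val_zero]
    omega
  -- g in the standard coordinates
  let M : Matrix (Fin 4) (Fin 4) F := Matrix.of fun i j => if i = f j then ((z ^ (e j : ℕ) : Fˣ) : F) else 0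
  have hgP : (g : Matrix (Fin 4) (Fin 4) F) * (P : Matrix (Fin 4) (Fin 4) F) = (P : Matrix (Fin 4) (Fin 4) F) * M := by
    refine Matrix.toLin'.injective ((Pi.basisFun F (Fin 4)).ext fun j => ?_)
    simp only [Pi.basisFun_apply, Matrix.toLin'_apply, ← Matrix.mulVec_mulVec, P, GeoClasses.glOfEquiv_mulVec]
    have hMj : M *ᵥ Pi.single j 1 = ((z ^ (e j : ℕ) : Fˣ) : F) • Pi.single (f j) 1 := by
      funext i
      simp [M, Matrix.mulVec_single_one, Pi.single_apply]
    rw [hMj, map_smul, Basis.equivFun_symm_apply, Basis.equivFun_symm_apply]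
    have hb4 : ∀ i, b4 i = b (0, i) := fun i => by simp [b4]
    simp [Pi.single_apply, hb4, B.apply, he, f]
  set m : GL (Fin 4) F := P⁻¹ * g * P with hm
  have hmM : (m : Matrix (Fin 4) (Fin 4) F) = M := by
    simp only [hm, Units.val_mul, mul_assoc, hgP, Units.inv_mul_cancel_left]
  have hnorm : (R₀ F).map (MulAut.conj m).toMonoidHom = R₀ F := by
    refine normalizer_of_forall fun l k => ?_
    rw [hmM]
    obtain ⟨w, c, hc⟩ := diag_exponent e hd k
    obtain ⟨l', s, hl⟩ := perm_bit f B.perm.injective (tr c l)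
    obtain ⟨k', hk⟩ := perm_tr f B.perm.injective k
    refine ⟨z ^ (w : ℕ) * (if s = 0 then 1 else -1), l', k', ?_⟩
    ext i j
    have hperm : ∀ a, f a = tr k' (f j) ↔ a = tr k j := fun a => by
      rw [← hk j]; exact B.perm.injective.eq_iff
    rw [Matrix.smul_mul, Matrix.smul_apply, smul_eq_mul]
    simp only [Matrix.mul_apply, M, Matrix.of_apply, el_apply, mul_ite, mul_zero, ite_mul, zero_mul,
      Finset.sum_ite_eq', Finset.sum_ite_eq, Finset.mem_univ, if_true]
    rw [← hk j]
    by_cases hi : i = f (tr k j)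
    · subst hi
      simp only [if_true]
      rw [hc j, pow_fin_add hz, pow_fin_add hz, chi_eq, chi_eq]
      have hl' : bit (tr c l) (tr k j) = s + bit l' (f (tr k j)) := hl _
      have hbit : ∀ c l i : Fin 4, bit (tr c l) i = bit c i + bit l i := by decide
      rw [hbit] at hl'
      have h2 : z ^ (((2 : Fin 4)) : ℕ) = -1 := Units.ext (by simpa using hz2)
      rcases Fin.exists_fin_two.mp ⟨bit c (tr k j), rfl⟩ with a | a <;>
        rcases Fin.exists_fin_two.mp ⟨bit l (tr k j), rfl⟩ with a' | a' <;>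
        rcases Fin.exists_fin_two.mp ⟨bit l' (f (tr k j)), rfl⟩ with a'' | a'' <;>
        rcases Fin.exists_fin_two.mp ⟨s, rfl⟩ with a''' | a''' <;>
        simp [a, a', a'', a''', hz2, h2, Units.val_mul] at hl' ⊢ <;> ring
    · simp [hi]
  rw [subgroupNormalizer, Subgroup.mem_normalizer_iff_map_conj_eq, Subgroup.map_map]
  have hcomp : ((MulAut.conj g : MulAut (GL (Fin 4) F)) : GL (Fin 4) F →* GL (Fin 4) F).comp (MulAut.conj P).toMonoidHom
      = (MulAut.conj P).toMonoidHom.comp (MulAut.conj m).toMonoidHom := by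
    ext x : 1
    simp [hm, mul_assoc]
  rw [hcomp, ← Subgroup.map_map, hnorm]

end Cfsg.Agent.ClassicalMax
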