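import Cfsg.Agent.ClassicalMax.FieldExceptionSix
import Cfsg.Agent.ClassicalMax.FieldFiveData
import Cfsg.Agent.MaxSub.Proper

/-!
In `SU_5(2)` the normaliser of an adjoint-closed field of degree five is not maximal: it lies in a subgroup
isomorphic to `L_2(11)`.
-/

set_option autoImplicit false
set_option linter.style.haveILetI false

namespace Cfsg.Agent.ClassicalMax

open Matrix Cfsg.Geo Module
open Cfsg.Agent.Classical.U (SqField sqField_of_fintype)
open scoped MatrixGroups Matrix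

variable {F : Type*} [Field F]

/-- In a field of degree five over four elements, closed under adjoints, the adjoint is `x ↦ x ^ 32`. -/
theorem adjoint_eq_pow_five (hF : SqField F 2) {K : Subalgebra F (Matrix (Fin 5) (Fin 5) F)}
    (hK : IsFieldSubalgebra 5 K) (hac : IsAdjointClosedFor (Cfsg.hermForm 5 F 2) K) :
    ∀ k ∈ K, ∀ u v : Fin 5 → F, Cfsg.hermForm 5 F 2 (k *ᵥ u) v = Cfsg.hermForm 5 F 2 u ((k ^ 32) *ᵥ v) := by
  classical
  obtain ⟨hfin, hcardF⟩ := id hF
  letI : Fintype F := Fintype.ofFinite F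
  rw [Nat.card_eq_fintype_card] at hcardF
  have hf := hermForm_isUnitaryFormPow (n := 5) hF
  have h2 := two_eq_zero_of_sqField hF
  letI : Field K := (MaxSub.isField_of_isFieldSubalgebra hK).toField
  haveI : Finite K := Finite.of_injective (fun x : K => (x : Matrix (Fin 5) (Fin 5) F)) Subtype.val_injective
  haveI : Fintype K := Fintype.ofFinite K
  haveI : CharP F 2 := (CharP.charP_iff_prime_eq_zero Nat.prime_two).2 (by exact_mod_cast h2)
  haveI : CharP K 2 := charP_of_injective_algebraMap (algebraMap F K).injective 2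
  have hcardK : Fintype.card K = 1024 := by
    have := Module.natCard_eq_pow_finrank (K := F) (V := K)
    rw [hK.finrank_eq, Nat.card_eq_fintype_card, Nat.card_eq_fintype_card, hcardF] at this
    rw [this]; norm_num
  have h1024 : ∀ x : K, x ^ 1024 = x := fun x => hcardK ▸ FiniteField.pow_card x
  have h2K : (2 : K) = 0 := by exact_mod_cast CharP.cast_eq_zero K 2
  choose ad hadK had using hac
  let φ : K → K := fun k => ⟨ad k k.2, hadK k k.2⟩
  have hφ : ∀ (k : K) u v, Cfsg.hermForm 5 F 2 ((k : Matrix (Fin 5) (Fin 5) F) *ᵥ u) v =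
      Cfsg.hermForm 5 F 2 u ((φ k : Matrix (Fin 5) (Fin 5) F) *ᵥ v) := fun k => had k k.2
  have huniq : ∀ (k m : K), (∀ u v, Cfsg.hermForm 5 F 2 ((k : Matrix (Fin 5) (Fin 5) F) *ᵥ u) v =
      Cfsg.hermForm 5 F 2 u ((m : Matrix (Fin 5) (Fin 5) F) *ᵥ v)) → φ k = m := by
    intro k m h
    apply Subtype.ext
    apply Matrix.toLin'.injective
    refine LinearMap.ext fun v => ?_
    rw [Matrix.toLin'_apply, Matrix.toLin'_apply]
    by_contra hne
    obtain ⟨⟨x, hx⟩, -⟩ := hf.nondegenerate _ (sub_ne_zero.mpr hne)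
    apply hx
    rw [sub_eq_add_neg, hf.add_right' hF, ← neg_one_smul F, hf.smul_right', ← hφ, ← h]
    linear_combination (Cfsg.hermForm 5 F 2 ((k : Matrix (Fin 5) (Fin 5) F) *ᵥ x) v) * h2
  have hsymm : ∀ k : K, φ (φ k) = k := fun k => huniq _ _ fun u v => by
    rw [hf.herm, ← hφ, ← hf.herm]
  have hadd : ∀ x y : K, φ (x + y) = φ x + φ y := fun x y => huniq _ _ fun u v => by
    push_cast
    rw [Matrix.add_mulVec, Matrix.add_mulVec, hf.add_left, hf.add_right' hF, hφ, hφ]
  have hmul : ∀ x y : K, φ (x * y) = φ x * φ y := fun x y => huniq _ _ fun u v => by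
    rw [mul_comm (φ x)]
    push_cast
    rw [← Matrix.mulVec_mulVec, ← Matrix.mulVec_mulVec, hφ, hφ]
  have hscal : ∀ a : F, φ (algebraMap F K a) = algebraMap F K (a ^ 2) := fun a => huniq _ _ fun u v => by
    rw [show ((algebraMap F K a : K) : Matrix (Fin 5) (Fin 5) F) = a • 1 from Algebra.algebraMap_eq_smul_one a,
      show ((algebraMap F K (a ^ 2) : K) : Matrix (Fin 5) (Fin 5) F) = (a ^ 2) • 1 from Algebra.algebraMap_eq_smul_one _,
      Matrix.smul_mulVec, Matrix.smul_mulVec, Matrix.one_mulVec, Matrix.one_mulVec, hf.smul_left, hf.smul_right',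
      ← _root_.pow_mul]
    congr 1
    have := FiniteField.pow_card a
    rw [hcardF] at this
    exact this.symm
  let ψ : K →ₐ[F] K :=
    { toFun := fun k => φ k ^ 2
      map_one' := by
        have := hscal 1
        rw [map_one, one_pow, map_one] at this
        rw [this, one_pow]
      map_mul' := fun x y => by rw [hmul, mul_pow]
      map_zero' := by
        have := hscal 0
        rw [map_zero, zero_pow two_ne_zero, map_zero] at this
        rw [this, zero_pow two_ne_zero]
      map_add' := fun x y => by rw [hadd]; linear_combination (φ x * φ y) * h2K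
      commutes' := fun a => by
        rw [hscal, ← map_pow, ← _root_.pow_mul]
        congr 1
        have := FiniteField.pow_card a
        rw [hcardF] at this
        exact this }
  haveI : FiniteDimensional F K := Module.Finite.of_finite
  obtain ⟨⟨i, hi⟩, hψ⟩ := (FiniteField.bijective_frobeniusAlgHom_pow F K).2 ψ
  have hfrob : ∀ (j : ℕ) (x : K), (FiniteField.frobeniusAlgHom F K ^ j) x = x ^ (4 ^ j) := by
    intro j
    induction j with
    | zero => simp
    | succ j ih =>
      intro x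
      rw [pow_succ', AlgHom.mul_apply, ih, FiniteField.coe_frobeniusAlgHom]
      show (x ^ 4 ^ j) ^ Fintype.card F = _
      rw [hcardF, ← _root_.pow_mul, pow_succ]
      norm_num [pow_succ]
  have hψx : ∀ x : K, φ x = x ^ (512 * 4 ^ i) := fun x => by
    have : ψ x = x ^ (4 ^ i) := by rw [← hψ]; exact hfrob i x
    calc φ x = (φ x) ^ 1024 := (h1024 _).symm
      _ = (ψ x) ^ 512 := by show _ = (φ x ^ 2) ^ 512; rw [← _root_.pow_mul]
      _ = x ^ (512 * 4 ^ i) := by rw [this, ← _root_.pow_mul, mul_comm]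
  obtain ⟨z, hz⟩ := IsCyclic.exists_ofOrder_eq_natCard (α := Kˣ)
  rw [Nat.card_eq_fintype_card, Fintype.card_units, hcardK] at hz
  have hz' := hsymm (z : K)
  rw [hψx, hψx, ← _root_.pow_mul] at hz'
  have hz'' : z ^ (512 * 4 ^ i * (512 * 4 ^ i)) = z ^ 1 := Units.ext (by simpa using hz')
  rw [pow_eq_pow_iff_modEq, hz] at hz''
  rw [hK.finrank_eq] at hi
  intro k hk u v
  rw [show k = ((⟨k, hk⟩ : K) : Matrix (Fin 5) (Fin 5) F) from rfl, hφ, ← SubmonoidClass.coe_pow]
  congr 3
  rw [hψx]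
  interval_cases i
  any_goals (first | (exfalso; revert hz''; decide +kernel) | skip)
  show (⟨k, hk⟩ : K) ^ 32768 = _
  rw [show 32768 = 1024 * 32 by norm_num, _root_.pow_mul, h1024]

set_option maxHeartbeats 1000000 in
/-- The exception `q = 2` for the field normalisers of `SU_5(q)`. -/
theorem fieldNormalizer_not_maximal_five (hF : SqField F 2)
    {K : Subalgebra F (Matrix (Fin 5) (Fin 5) F)} (hK : IsFieldSubalgebra 5 K)
    (hac : IsAdjointClosedFor (Cfsg.hermForm 5 F 2) K) {H : Subgroup (GL (Fin 5) F)}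
    (hH : IsMaximalIn (suGL 5 F 2) H) : H ≠ subalgebraNormalizer K ⊓ suGL 5 F 2 := by
  classical
  intro he
  obtain ⟨hfin, hcardF⟩ := id hF
  letI : Fintype F := Fintype.ofFinite F
  rw [Nat.card_eq_fintype_card] at hcardF
  have h2 := two_eq_zero_of_sqField hF
  have hadj := adjoint_eq_pow_five hF hK hac
  have hf := hermForm_isUnitaryFormPow (n := 5) hF
  obtain ⟨ω, hω, hω0, hω1⟩ := exists_omega hF
  haveI : CharP F 2 := (CharP.charP_iff_prime_eq_zero Nat.prime_two).2 (by exact_mod_cast h2)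
  letI := ZMod.algebra F 2
  have hω2 : ω * ω = 1 + ω := by linear_combination hω - (1 + ω) * h2
  let π : SUFive.E →ₐ[ZMod 2] F := QuadraticAlgebra.lift ⟨ω, by simp [hω2]⟩
  have hπinj : Function.Injective π := by
    rw [injective_iff_map_eq_zero]
    intro z hz
    by_contra hz0
    have hinv : ∀ a b : ZMod 2, (⟨a, b⟩ : SUFive.E) ≠ 0 → ∃ a' b', (⟨a, b⟩ : SUFive.E) * ⟨a', b'⟩ = 1 := by
      decide +kernel
    obtain ⟨a', b', hy⟩ := hinv z.re z.im hz0
    have := congrArg π hy
    rw [map_mul, map_one] at this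
    rw [show π (⟨z.re, z.im⟩ : SUFive.E) = π z from rfl, hz, zero_mul] at this
    exact zero_ne_one this
  have hπc : ∀ z : SUFive.E, π (SUFive.cj z) = π z ^ 2 := by
    intro z
    have h2a : ∀ a : ZMod 2, (algebraMap (ZMod 2) F a) ^ 2 = algebraMap (ZMod 2) F a := fun a => by
      rw [← map_pow, ZMod.pow_card]
    show ((z.re + z.im) • 1 + z.im • ω : F) = (z.re • 1 + z.im • ω) ^ 2
    rw [add_pow_char, Algebra.smul_def, Algebra.smul_def, Algebra.smul_def, mul_pow, mul_pow, h2a, h2a, one_pow,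
      map_add, pow_two ω, hω2]
    ring
  let M : Matrix (Fin 5) (Fin 5) SUFive.E →+* Matrix (Fin 5) (Fin 5) F := π.toRingHom.mapMatrix
  have hMinj : Function.Injective M := Matrix.map_injective hπinj
  have hlift : ∀ (B : Matrix (Fin 5) (Fin 5) SUFive.E), B.det = 1 → Bᵀ * B.map SUFive.cj = 1 →
      ∃ g ∈ suGL 5 F 2, (g : Matrix (Fin 5) (Fin 5) F) = M B := by
    intro B hd hu
    have hd' : (M B).det = 1 := by
      rw [show (M B).det = π B.det from (RingHom.map_det π.toRingHom B).symm, hd, map_one]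
    refine ⟨Matrix.GeneralLinearGroup.mkOfDetNeZero (M B) (by rw [hd']; exact one_ne_zero), ⟨fun u v => ?_, ?_⟩, rfl⟩
    · show Cfsg.hermForm 5 F 2 (M B *ᵥ u) (M B *ᵥ v) = Cfsg.hermForm 5 F 2 u v
      have hu' : ∀ j l, ∑ i, M B i j * (M B i l) ^ 2 = if j = l then 1 else 0 := fun j l => by
        have := congrArg π (congrFun (congrFun hu j) l)
        simp only [Matrix.mul_apply, Matrix.transpose_apply, Matrix.map_apply, map_sum, map_mul, hπc,
          Matrix.one_apply, apply_ite π, map_one, map_zero] at this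
        exact this
      calc Cfsg.hermForm 5 F 2 (M B *ᵥ u) (M B *ᵥ v)
          = ∑ i, ∑ j, ∑ l, (u j * v l ^ 2) * (M B i j * (M B i l) ^ 2) := by
            simp only [Cfsg.hermForm, Matrix.mulVec, dotProduct, sum_pow_char, Finset.sum_mul_sum]
            exact Finset.sum_congr rfl fun i _ => Finset.sum_congr rfl fun j _ =>
              Finset.sum_congr rfl fun l _ => by ring
        _ = ∑ j, ∑ l, (u j * v l ^ 2) * (if j = l then 1 else 0) := by
            rw [Finset.sum_comm]
            refine Finset.sum_congr rfl fun j _ => ?_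
            rw [Finset.sum_comm]
            exact Finset.sum_congr rfl fun l _ => by rw [← Finset.mul_sum, hu']
        _ = Cfsg.hermForm 5 F 2 u v := by simp [Cfsg.hermForm]
    · show _ ∈ specialLinear (Fin 5) F
      rw [GeoClasses.mem_specialLinear_iff]
      exact hd'
  obtain ⟨⟨uG, uH, uX, uT⟩, ⟨dG, dH, dX, dT⟩⟩ := (⟨SUFive.unitary, SUFive.det_one⟩ : _ ∧ _)
  obtain ⟨G, hG, hGv⟩ := hlift _ dG uG
  obtain ⟨Hh, hHh, hHv⟩ := hlift _ dH uH
  obtain ⟨X, hX, hXv⟩ := hlift _ dX uX
  obtain ⟨T, hT, hTv⟩ := hlift _ dT uT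
  have hGp : ∀ i : Fin 11, ((G ^ (i : ℕ) : GL (Fin 5) F) : Matrix (Fin 5) (Fin 5) F) = M (SUFive.gp i) := by
    intro i
    induction i using Fin.induction with
    | zero => simp [SUFive.gp_zero]
    | succ i ih =>
      rw [Fin.val_succ, pow_succ', Units.val_mul, show (i : ℕ) = ((i.castSucc : Fin 11) : ℕ) from rfl, ih, hGv, ← map_mul,
        SUFive.gp_succ, Fin.coeSucc_eq_succ]
  have hHp : ∀ i : Fin 5, ((Hh ^ (i : ℕ) : GL (Fin 5) F) : Matrix (Fin 5) (Fin 5) F) = M (SUFive.hp i) := by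
    intro i
    induction i using Fin.induction with
    | zero => simp [SUFive.hp_zero]
    | succ i ih =>
      rw [Fin.val_succ, pow_succ', Units.val_mul, show (i : ℕ) = ((i.castSucc : Fin 5) : ℕ) from rfl, ih, hHv, ← map_mul,
        SUFive.hp_succ, Fin.coeSucc_eq_succ]
  have hG11 : G ^ 11 = 1 := by
    refine Units.ext ?_
    rw [pow_succ', Units.val_mul, show 10 = ((Fin.last 10 : Fin 11) : ℕ) from rfl, hGp, hGv, ← map_mul,
      SUFive.gp_succ, Units.val_one]
    exact (congrArg M SUFive.gp_zero).trans (map_one M)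
  haveI : Fact (Nat.Prime 11) := ⟨by norm_num⟩
  have hG1 : G ≠ 1 := fun h => SUFive.gp_one_ne (hMinj (by rw [map_one, ← hGv, h, Units.val_one]))
  have hGord : orderOf G = 11 := orderOf_eq_prime hG11 hG1
  -- a generator of order eleven of the field
  letI : Field K := (MaxSub.isField_of_isFieldSubalgebra hK).toField
  haveI : Finite K := Finite.of_injective (fun x : K => (x : Matrix (Fin 5) (Fin 5) F)) Subtype.val_injective
  haveI : Fintype K := Fintype.ofFinite K
  have hcardK : Fintype.card K = 1024 := by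
    have := Module.natCard_eq_pow_finrank (K := F) (V := K)
    rw [hK.finrank_eq, Nat.card_eq_fintype_card, Nat.card_eq_fintype_card, hcardF] at this
    rw [this]; norm_num
  obtain ⟨k0, hk0⟩ := exists_prime_orderOf_dvd_card (G := Kˣ) 11
    (by rw [Fintype.card_units, hcardK]; norm_num)
  have hk11 : (k0 : K) ^ 11 = 1 := by
    rw [← Units.val_pow_eq_pow_val, ← hk0, pow_orderOf_eq_one, Units.val_one]
  have hprim : IsPrimitiveRoot (k0 : K) 11 := by
    have := IsPrimitiveRoot.orderOf k0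
    rw [hk0] at this
    exact this.map_of_injective (f := Units.coeHom K) Units.val_injective
  -- unitary elements of the field
  have hnorm : ∀ c : K, (∀ u v, Cfsg.hermForm 5 F 2 ((c : Matrix (Fin 5) (Fin 5) F) *ᵥ u)
      ((c : Matrix (Fin 5) (Fin 5) F) *ᵥ v) = Cfsg.hermForm 5 F 2 u v) → c ^ 33 = 1 := by
    intro c hc
    apply Subtype.ext
    apply Matrix.toLin'.injective
    refine LinearMap.ext fun v => ?_
    rw [Matrix.toLin'_apply, Matrix.toLin'_apply]
    by_contra hne
    obtain ⟨⟨x, hx⟩, -⟩ := hf.nondegenerate _ (sub_ne_zero.mpr hne)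
    apply hx
    have e : Cfsg.hermForm 5 F 2 x (((c ^ 33 : K) : Matrix (Fin 5) (Fin 5) F) *ᵥ v) = Cfsg.hermForm 5 F 2 x v := by
      rw [SubmonoidClass.coe_pow, pow_succ, ← Matrix.mulVec_mulVec, ← hadj _ c.2]
      exact hc x v
    rw [sub_eq_add_neg, hf.add_right' hF, ← neg_one_smul F, hf.smul_right', e, OneMemClass.coe_one, Matrix.one_mulVec]
    linear_combination (Cfsg.hermForm 5 F 2 x v) * h2
  let km : Matrix (Fin 5) (Fin 5) F := ((k0 : K) : Matrix (Fin 5) (Fin 5) F)
  have hkm11 : km ^ 11 = 1 := by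
    rw [← SubmonoidClass.coe_pow, hk11, OneMemClass.coe_one]
  let g : GL (Fin 5) F := ⟨km, km ^ 10, by rw [← pow_succ']; exact hkm11, by rw [← pow_succ]; exact hkm11⟩
  have hgsu : g ∈ suGL 5 F 2 := by
    refine ⟨fun u v => ?_, ?_⟩
    · show Cfsg.hermForm 5 F 2 (km *ᵥ u) (km *ᵥ v) = Cfsg.hermForm 5 F 2 u v
      rw [hadj km (k0 : K).2, Matrix.mulVec_mulVec, ← pow_succ,
        show km ^ (32 + 1) = (km ^ 11) ^ 3 from (pow_mul km 11 3), hkm11, one_pow, Matrix.one_mulVec]
    · show g ∈ specialLinear (Fin 5) F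
      rw [GeoClasses.mem_specialLinear_iff]
      show km.det = 1
      have h1 : km.det ^ 11 = 1 := by rw [← Matrix.det_pow, hkm11, Matrix.det_one]
      have h3 : km.det ^ 3 = 1 := pow_three_of_ne_zero hF (fun h => by simp [h] at h1)
      calc km.det = km.det * ((km.det ^ 3) ^ 4 * 1) / 1 := by rw [h3]; ring
        _ = (km.det ^ 11) * (km.det ^ 1) * km.det := by ring
        _ = km.det ^ 2 := by rw [h1]; ring
        _ = 1 := by
          have h12 : km.det ^ 12 = km.det := by rw [pow_succ, h1, one_mul]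
          rw [show (12 : ℕ) = 3 * 4 from rfl, pow_mul, h3, one_pow] at h12
          rw [← h12, one_pow]
  -- Sylow
  set S := suGL 5 F 2
  have hGL : ¬ 11 ^ 2 ∣ Nat.card (GL (Fin 5) F) := by
    rw [Matrix.card_GL_field, Fin.prod_univ_five, hcardF]
    norm_num
  have hfac : (Nat.card S).factorization 11 = 1 := by
    have hdvd : 11 ∣ Nat.card S := by
      have := Subgroup.orderOf_dvd_natCard (s := S) hG
      rwa [hGord] at this
    have h0 : Nat.card S ≠ 0 := Nat.card_pos.ne'
    refine le_antisymm ?_ ((Nat.Prime.dvd_iff_one_le_factorization (by norm_num) h0).mp hdvd)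
    by_contra hc
    push Not at hc
    exact hGL (((Nat.Prime.pow_dvd_iff_le_factorization (by norm_num) h0).mpr hc).trans (Subgroup.card_subgroup_dvd_card S))
  have hsyl : ∀ (a : GL (Fin 5) F) (ha : a ∈ S), orderOf a = 11 →
      Nat.card (Subgroup.zpowers (⟨a, ha⟩ : S)) = 11 ^ (Nat.card S).factorization 11 := by
    intro a ha hord
    rw [hfac, pow_one, Nat.card_zpowers, Subgroup.orderOf_mk, hord]
  have hgord : orderOf g = 11 := by
    refine orderOf_eq_prime (Units.ext ?_) fun h => ?_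
    · rw [Units.val_pow_eq_pow_val]; exact hkm11
    · have h1 : (k0 : K) = 1 := Subtype.ext (congrArg Units.val h)
      exact hprim.ne_one (by norm_num) h1
  obtain ⟨x, hx⟩ := MulAction.exists_smul_eq S (Sylow.ofCard _ (hsyl G hG hGord)) (Sylow.ofCard _ (hsyl g hgsu hgord))
  have hGg : MulAut.conj x (⟨G, hG⟩ : S) ∈ Subgroup.zpowers (⟨g, hgsu⟩ : S) := by
    have := congrArg (fun P : Sylow 11 S => (P : Subgroup S)) hx
    simp only [Sylow.coe_subgroup_smul, Sylow.coe_ofCard] at this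
    rw [← this]
    exact Subgroup.smul_mem_pointwise_smul _ _ _ (Subgroup.mem_zpowers _)
  obtain ⟨r, hr⟩ := (isOfFinOrder_of_finite _).mem_powers_iff_mem_zpowers.mpr hGg
  have hxG : (x : GL (Fin 5) F) * G * (x : GL (Fin 5) F)⁻¹ = g ^ r := by
    have := congrArg Subtype.val hr
    simpa using this.symm
  -- powers of `g` lie in the field
  have hgK : ∀ n : ℕ, ((g ^ n : GL (Fin 5) F) : Matrix (Fin 5) (Fin 5) F) = ((k0 : K) ^ n : K) := fun n => by
    rw [Units.val_pow_eq_pow_val, SubmonoidClass.coe_pow]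
  -- conjugates of `G` by elements of `H` are powers of `G`
  have hconj : ∀ m ∈ H, ∃ i : Fin 11, ((x : GL (Fin 5) F)⁻¹ * m * x) * G = G ^ (i : ℕ) * ((x : GL (Fin 5) F)⁻¹ * m * x) := by
    intro m hm
    rw [he] at hm
    have hmem := (hm.1 (((g ^ r : GL (Fin 5) F)) : Matrix (Fin 5) (Fin 5) F)).mp (by rw [hgK]; exact ((k0 : K) ^ r).2)
    rw [← Units.val_mul, ← Units.val_mul] at hmem
    have h11 : (⟨_, hmem⟩ : K) ^ 11 = 1 := by
      apply Subtype.ext
      rw [SubmonoidClass.coe_pow, OneMemClass.coe_one]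
      show ((m * g ^ r * m⁻¹ : GL (Fin 5) F) : Matrix (Fin 5) (Fin 5) F) ^ 11 = 1
      rw [← Units.val_pow_eq_pow_val, conj_pow, ← pow_mul, mul_comm r, pow_mul, ← hgord, pow_orderOf_eq_one, one_pow,
        mul_one, mul_inv_cancel, Units.val_one]
    obtain ⟨s, hs, hseq⟩ := hprim.eq_pow_of_pow_eq_one h11
    have hms : m * g ^ r * m⁻¹ = g ^ s := Units.ext (by rw [hgK, hseq])
    obtain ⟨s', hs'⟩ : ∃ s' : ℕ, g ^ s = (g ^ r) ^ s' := by
      have hr0 : orderOf (g ^ r) = 11 := by
        rw [← hxG]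
        exact (MulEquiv.orderOf_eq (MulAut.conj (x : GL (Fin 5) F)) G).trans hGord
      have hz : Subgroup.zpowers (g ^ r) = Subgroup.zpowers g :=
        Subgroup.eq_of_le_of_card_ge (Subgroup.zpowers_le.mpr (Subgroup.pow_mem _ (Subgroup.mem_zpowers g) r))
          (by rw [Nat.card_zpowers, Nat.card_zpowers, hr0, hgord])
      obtain ⟨s', hs'⟩ := (isOfFinOrder_of_finite _).mem_powers_iff_mem_zpowers.mpr
        (hz ▸ Subgroup.pow_mem _ (Subgroup.mem_zpowers g) s : g ^ s ∈ Subgroup.zpowers (g ^ r))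
      exact ⟨s', hs'.symm⟩
    refine ⟨⟨s' % 11, Nat.mod_lt _ (by norm_num)⟩, ?_⟩
    show _ = G ^ (s' % 11) * _
    rw [← hGord, pow_mod_orderOf]
    have hG' : G = (x : GL (Fin 5) F)⁻¹ * g ^ r * x := by rw [← hxG]; group
    have hGs : G ^ s' = (x : GL (Fin 5) F)⁻¹ * g ^ s * x := by
      rw [hs', hG']
      have := map_pow (MulAut.conj (x : GL (Fin 5) F)⁻¹) (g ^ r) s'
      simp only [MulAut.conj_apply, inv_inv] at this
      exact this.symm
    rw [hGs, hG', ← hms]
    group
  -- the overgroup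
  let L : Subgroup (GL (Fin 5) F) :=
    { carrier := {a | ∀ k, ∃ l, (a : Matrix (Fin 5) (Fin 5) F) *ᵥ (π ∘ SUFive.vv (SUFive.orb k)) = π ∘ SUFive.vv (SUFive.orb l)}
      one_mem' := fun k => ⟨k, by simp⟩
      mul_mem' := fun {a b} ha hb k => by
        obtain ⟨l, hl⟩ := hb k
        obtain ⟨l', hl'⟩ := ha l
        exact ⟨l', by rw [Units.val_mul, ← Matrix.mulVec_mulVec, hl, hl']⟩
      inv_mem' := fun {a} ha => by
        have hpow : ∀ n, ∀ k, ∃ l, ((a ^ n : GL (Fin 5) F) : Matrix (Fin 5) (Fin 5) F) *ᵥ (π ∘ SUFive.vv (SUFive.orb k)) =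
            π ∘ SUFive.vv (SUFive.orb l) := by
          intro n
          induction n with
          | zero => exact fun k => ⟨k, by simp⟩
          | succ n ih =>
            intro k
            obtain ⟨l, hl⟩ := ih k
            obtain ⟨l', hl'⟩ := ha l
            exact ⟨l', by rw [pow_succ', Units.val_mul, ← Matrix.mulVec_mulVec, hl, hl']⟩
        show ∀ k, ∃ l, ((a⁻¹ : GL (Fin 5) F) : Matrix (Fin 5) (Fin 5) F) *ᵥ _ = _
        have hinv : a⁻¹ = a ^ (orderOf a - 1) := inv_eq_of_mul_eq_one_right (by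
          rw [← pow_succ', Nat.sub_add_cancel (orderOf_pos a), pow_orderOf_eq_one])
        rw [hinv]
        exact hpow _ }
  have hgen : ∀ (a : GL (Fin 5) F) (B : Matrix (Fin 5) (Fin 5) SUFive.E) (σ : Fin 55 → Fin 55),
      (a : Matrix (Fin 5) (Fin 5) F) = M B →
      (∀ k i, (B *ᵥ SUFive.vv (SUFive.orb k)) i = SUFive.vv (SUFive.orb (σ k)) i) → a ∈ L := by
    intro a B σ ha hB k
    refine ⟨σ k, funext fun i => ?_⟩
    rw [ha, Function.comp_apply, ← hB k i]
    exact (RingHom.map_mulVec π.toRingHom B (SUFive.vv (SUFive.orb k)) i).symm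
  have hGL' := hgen G _ _ hGv SUFive.gp_orb
  have hHL' := hgen Hh _ _ hHv SUFive.hp_orb
  have hXL' := hgen X _ _ hXv SUFive.xm_orb
  have hTL : T ∉ L := by
    intro hT'
    obtain ⟨k, hk⟩ := SUFive.swap_orb
    obtain ⟨l, hl⟩ := hT' k
    obtain ⟨i, hi⟩ := hk l
    apply hi
    apply hπinj
    have := congrFun hl i
    rw [hTv, Function.comp_apply] at this
    rw [← this]
    simp [M, Matrix.mulVec, dotProduct, Matrix.one_apply, apply_ite π]
  -- centraliser of `G`
  have hcent : ∀ c : GL (Fin 5) F, c * G = G * c → ∃ a : Fin 5 → F,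
      (c : Matrix (Fin 5) (Fin 5) F) = ∑ j : Fin 5, a j • ((G ^ (j : ℕ) : GL (Fin 5) F) : Matrix (Fin 5) (Fin 5) F) := by
    intro c hc
    let Kr : Matrix (Fin 5) (Fin 5) F := Matrix.of fun i j => ((G ^ (j : ℕ) : GL (Fin 5) F) : Matrix (Fin 5) (Fin 5) F) i 0
    have hKr : Kr * M SUFive.kinv = 1 := by
      rw [← map_one M, ← SUFive.krylov, map_mul]
      congr 1
      ext i j
      show ((G ^ (j : ℕ) : GL (Fin 5) F) : Matrix (Fin 5) (Fin 5) F) i 0 = _
      rw [show (j : ℕ) = ((Fin.castLE (by norm_num : 5 ≤ 11) j : Fin 11) : ℕ) from rfl, hGp]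
      rfl
    set a := M SUFive.kinv *ᵥ fun i => (c : Matrix (Fin 5) (Fin 5) F) i 0
    refine ⟨a, ?_⟩
    set p := ∑ j : Fin 5, a j • ((G ^ (j : ℕ) : GL (Fin 5) F) : Matrix (Fin 5) (Fin 5) F)
    have hcol : ∀ i, p i 0 = (c : Matrix (Fin 5) (Fin 5) F) i 0 := fun i => by
      have h := congrFun (show Kr *ᵥ a = fun i => (c : Matrix (Fin 5) (Fin 5) F) i 0 by
        simp [a, Matrix.mulVec_mulVec, hKr]) i
      rw [← h]
      simp [p, Kr, Matrix.sum_apply, Matrix.mulVec, dotProduct, mul_comm]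
    have hcm : ∀ n : ℕ, ((c : Matrix (Fin 5) (Fin 5) F) - p) * ((G ^ n : GL (Fin 5) F) : Matrix (Fin 5) (Fin 5) F) =
        ((G ^ n : GL (Fin 5) F) : Matrix (Fin 5) (Fin 5) F) * ((c : Matrix (Fin 5) (Fin 5) F) - p) := by
      intro n
      rw [sub_mul, mul_sub]
      congr 1
      · rw [← Units.val_mul, ← Units.val_mul, (Commute.pow_right hc n).eq]
      · simp only [p, Finset.sum_mul, Finset.mul_sum, smul_mul_assoc, mul_smul_comm, ← Units.val_mul, ← pow_add,
          add_comm n]
    have hz : ((c : Matrix (Fin 5) (Fin 5) F) - p) * Kr = 0 := by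
      ext i j
      have h := congrFun (congrFun (hcm j) i) 0
      simp only [Matrix.mul_apply, Matrix.sub_apply, hcol, sub_self, mul_zero, Finset.sum_const_zero] at h
      simpa [Matrix.mul_apply, Kr] using h
    have := congrArg (· * M SUFive.kinv) hz
    simp only [mul_assoc, hKr, mul_one, zero_mul] at this
    exact sub_eq_zero.mp this
  -- every element of `H` is conjugate into `L`
  have hHL : H ≤ S ⊓ L.map (MulAut.conj (x : GL (Fin 5) F)).toMonoidHom := by
    intro m hm
    refine ⟨hH.1.le hm, (x : GL (Fin 5) F)⁻¹ * m * x, ?_, by simp [mul_assoc]⟩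
    obtain ⟨i, hi⟩ := hconj m hm
    set m' := (x : GL (Fin 5) F)⁻¹ * m * x
    have hm'S : m' ∈ S := Subgroup.mul_mem _ (Subgroup.mul_mem _ (Subgroup.inv_mem _ x.2) (hH.1.le hm)) x.2
    have htr : (SUFive.gp i).trace = (SUFive.gp 1).trace := by
      apply hπinj
      have h1 : (M (SUFive.gp i)).trace = (M (SUFive.gp 1)).trace := by
        rw [← hGp, ← hGv, show G ^ (i : ℕ) = m' * G * m'⁻¹ by rw [hi]; group, Units.val_mul, Units.val_mul,
          Matrix.trace_units_conj]
      simpa [Matrix.trace, M] using h1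
    obtain ⟨j, hj⟩ := SUFive.trace_cases i htr
    have hjG : Hh ^ (j : ℕ) * G = G ^ (i : ℕ) * Hh ^ (j : ℕ) := Units.ext (by
      rw [Units.val_mul, Units.val_mul, hGp, hHp, hGv, ← map_mul, ← map_mul, hj])
    set c := (Hh ^ (j : ℕ))⁻¹ * m' with hcdef
    have hcc : c * G = G * c := by
      calc c * G = (Hh ^ (j : ℕ))⁻¹ * (m' * G) := mul_assoc _ _ _
        _ = (Hh ^ (j : ℕ))⁻¹ * (G ^ (i : ℕ) * Hh ^ (j : ℕ)) * c := by rw [hi, hcdef]; group
        _ = G * c := by rw [← hjG]; group
    obtain ⟨a, ha⟩ := hcent c hcc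
    have hc'K : ((x : GL (Fin 5) F) : Matrix (Fin 5) (Fin 5) F) * (c : Matrix (Fin 5) (Fin 5) F) *
        (((x : GL (Fin 5) F)⁻¹ : GL (Fin 5) F) : Matrix (Fin 5) (Fin 5) F) ∈ K := by
      rw [ha, Finset.mul_sum, Finset.sum_mul]
      refine Subalgebra.sum_mem _ fun l _ => ?_
      rw [mul_smul_comm, smul_mul_assoc, ← Units.val_mul, ← Units.val_mul]
      refine Subalgebra.smul_mem _ ?_ _
      rw [show (x : GL (Fin 5) F) * G ^ (l : ℕ) * (x : GL (Fin 5) F)⁻¹ = (g ^ r) ^ (l : ℕ) by rw [← hxG, conj_pow],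
        ← pow_mul, hgK]
      exact ((k0 : K) ^ _).2
    rw [← Units.val_mul, ← Units.val_mul] at hc'K
    set c' := (x : GL (Fin 5) F) * c * (x : GL (Fin 5) F)⁻¹ with hc'def
    have hcS : c ∈ S := Subgroup.mul_mem _ (Subgroup.inv_mem _ (Subgroup.pow_mem _ hHh _)) hm'S
    have hc'S : c' ∈ S := Subgroup.mul_mem _ (Subgroup.mul_mem _ x.2 hcS) (Subgroup.inv_mem _ x.2)
    have h33 := hnorm ⟨_, hc'K⟩ fun u v => hc'S.1 u v
    have hc11 : (⟨_, hc'K⟩ : K) ^ 11 = 1 := by
      set y := (⟨_, hc'K⟩ : K) ^ 11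
      have hy3 : y ^ 3 = 1 := by rw [← pow_mul]; exact h33
      have hsp : (y - 1) * ((y - algebraMap F K ω) * (y - algebraMap F K (ω ^ 2))) = 0 := by
        have e1 : algebraMap F K ω + algebraMap F K (ω ^ 2) = -1 := by
          rw [← map_add, show ω + ω ^ 2 = -1 by linear_combination hω, map_neg, map_one]
        have e2 : algebraMap F K ω * algebraMap F K (ω ^ 2) = 1 := by
          rw [← map_mul, ← pow_succ', pow_three_of_ne_zero hF hω0, map_one]
        linear_combination hy3 + (-y ^ 2 + y) * e1 + (y - 1) * e2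
      have hdet : ∀ b : F, y = algebraMap F K b → b ^ 5 = 1 := fun b hb => by
        have h := congrArg (fun z : K => (z : Matrix (Fin 5) (Fin 5) F).det) hb
        simp only [y, SubmonoidClass.coe_pow, Matrix.det_pow] at h
        rw [GeoClasses.mem_specialLinear_iff.mp hc'S.2, one_pow] at h
        change 1 = (algebraMap F (Matrix (Fin 5) (Fin 5) F) b).det at h
        rw [Algebra.algebraMap_eq_smul_one, Matrix.det_smul, Matrix.det_one, mul_one, Fintype.card_fin] at h
        exact h.symm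
      have hω3 := pow_three_of_ne_zero hF hω0
      rcases mul_eq_zero.mp hsp with h | h
      · exact sub_eq_zero.mp h
      rcases mul_eq_zero.mp h with h | h
      · have := hdet ω (sub_eq_zero.mp h)
        exact absurd (show ω = 1 by linear_combination (-ω) * this + (ω ^ 3 + 1) * hω3) hω1
      · have := hdet (ω ^ 2) (sub_eq_zero.mp h)
        rw [← pow_mul, show 2 * 5 = 3 * 3 + 1 from rfl, pow_succ, pow_mul, hω3, one_pow, one_mul] at this
        exact absurd this hω1
    obtain ⟨s, -, hs⟩ := hprim.eq_pow_of_pow_eq_one hc11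
    have hc's : c' = g ^ s := Units.ext (by rw [hgK, hs])
    have hcG : c ∈ Subgroup.zpowers G := by
      have hr0 : Subgroup.zpowers (g ^ r) = Subgroup.zpowers g := by
        refine Subgroup.eq_of_le_of_card_ge (Subgroup.zpowers_le.mpr (Subgroup.pow_mem _ (Subgroup.mem_zpowers g) r)) ?_
        rw [Nat.card_zpowers, Nat.card_zpowers, hgord, ← hxG]
        exact le_of_eq ((MulEquiv.orderOf_eq (MulAut.conj (x : GL (Fin 5) F)) G).trans hGord).symm
      obtain ⟨z, hz⟩ : g ^ s ∈ Subgroup.zpowers (g ^ r) := hr0 ▸ Subgroup.pow_mem _ (Subgroup.mem_zpowers g) s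
      refine ⟨z, ?_⟩
      change (g ^ r) ^ z = g ^ s at hz
      show G ^ z = c
      have : (x : GL (Fin 5) F) * G ^ z * (x : GL (Fin 5) F)⁻¹ = (x : GL (Fin 5) F) * c * (x : GL (Fin 5) F)⁻¹ := by
        rw [← conj_zpow, hxG, hz, ← hc's]
      exact mul_left_cancel (mul_right_cancel this)
    show m' ∈ L
    rw [show m' = Hh ^ (j : ℕ) * c by rw [hcdef]; group]
    exact Subgroup.mul_mem _ (Subgroup.pow_mem _ hHL' _) ((Subgroup.zpowers_le.mpr hGL') hcG)
  rcases hH.2 _ hHL inf_le_left with h | h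
  · have hX' : (x : GL (Fin 5) F) * X * (x : GL (Fin 5) F)⁻¹ ∈ H := by
      rw [← h]
      exact ⟨Subgroup.mul_mem _ (Subgroup.mul_mem _ x.2 hX) (Subgroup.inv_mem _ x.2), X, hXL', rfl⟩
    obtain ⟨i, hi⟩ := hconj _ hX'
    rw [show (x : GL (Fin 5) F)⁻¹ * ((x : GL (Fin 5) F) * X * (x : GL (Fin 5) F)⁻¹) * x = X by group] at hi
    apply SUFive.xm_not i
    apply hMinj
    rw [map_mul, map_mul, ← hXv, ← hGv, ← hGp]
    exact congrArg Units.val hi
  · apply hTL
    have hT' : (x : GL (Fin 5) F) * T * (x : GL (Fin 5) F)⁻¹ ∈ S ⊓ L.map (MulAut.conj (x : GL (Fin 5) F)).toMonoidHom := by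
      rw [h]
      exact Subgroup.mul_mem _ (Subgroup.mul_mem _ x.2 hT) (Subgroup.inv_mem _ x.2)
    obtain ⟨y, hy, hye⟩ := hT'.2
    rwa [(MulAut.conj (x : GL (Fin 5) F)).injective (show MulAut.conj (x : GL (Fin 5) F) y = MulAut.conj (x : GL (Fin 5) F) T from hye)] at hy

end Cfsg.Agent.ClassicalMax
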