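import Cfsg.Agent.ClassicalMax.SympCases
import Cfsg.Agent.ClassicalMax.SymplecticTypeConj
import Cfsg.Agent.GeoClasses.MatrixUnits

/-!
In `Sp_4(3)` the normaliser of a quadratic field closed under adjoints without being self-adjoint lies
in the normaliser of an extraspecial group of order 32 of minus type.
-/

set_option autoImplicit false
set_option linter.style.haveILetI false
set_option linter.unusedSectionVars false
set_option linter.unusedSimpArgs false

namespace Cfsg.Agent.ClassicalMax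

open Matrix Cfsg.Geo Module Cfsg.Agent.Forms
open scoped MatrixGroups Matrix

namespace MinusFour

/-- Entries from a code in base three. -/
def ent (c : ℕ) (i j : Fin 4) : ℕ := c / 3 ^ (4 * (i : ℕ) + (j : ℕ)) % 3

/-- Product of coded matrices. -/
def mulN (A B : Fin 4 → Fin 4 → ℕ) (i j : Fin 4) : ℕ :=
  (A i 0 * B 0 j + A i 1 * B 1 j + A i 2 * B 2 j + A i 3 * B 3 j) % 3

/-- The code of a matrix. -/
def enc (A : Fin 4 → Fin 4 → ℕ) : ℕ :=
  A 0 0 + A 0 1 * 3 + A 0 2 * 9 + A 0 3 * 27 + (A 1 0 + A 1 1 * 3 + A 1 2 * 9 + A 1 3 * 27) * 81 +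
    (A 2 0 + A 2 1 * 3 + A 2 2 * 9 + A 2 3 * 27) * 6561 + (A 3 0 + A 3 1 * 3 + A 3 2 * 9 + A 3 3 * 27) * 531441

/-- Transpose. -/
def trN (A : Fin 4 → Fin 4 → ℕ) (i j : Fin 4) : ℕ := A j i

/-- The elements of the group of order 32. -/
def tbl : Fin 32 → ℕ := ![14408200, 10314762, 9743250, 30419236, 3197412, 11024076, 552636, 31956698, 1605276,
  5709018, 1083348, 16011524, 14467250, 10472196, 9920400, 30366758, 28816400, 6221478, 5137350, 17614604,
  1611828, 5512164, 1103004, 16077142, 3203964, 10827222, 572292, 32022316, 28757350, 6064044, 4960200, 17667082]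

/-- The list of codes. -/
def codes : List ℕ := List.ofFn tbl

/-- Generators. -/
def gen : Fin 4 → Fin 32 := ![8, 4, 2, 1]

/-- Outer normalising elements. -/
def out : Fin 2 → ℕ := ![20973760, 14360105]

/-- Their inverses. -/
def outInv : Fin 2 → ℕ := ![27532480, 14482566]

/-- The code of the standard form. -/
def codeJ : ℕ := 1605276

/-- The identity code. -/
def code1 : ℕ := 14408200

lemma ent_lt (c : ℕ) (i j : Fin 4) : ent c i j < 3 := Nat.mod_lt _ (by norm_num)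

lemma mulN_lt (A B : Fin 4 → Fin 4 → ℕ) (i j : Fin 4) : mulN A B i j < 3 := Nat.mod_lt _ (by norm_num)

lemma ent_enc {A : Fin 4 → Fin 4 → ℕ} (hA : ∀ i j, A i j < 3) (i j : Fin 4) : ent (enc A) i j = A i j := by
  have := hA 0 0; have := hA 0 1; have := hA 0 2; have := hA 0 3
  have := hA 1 0; have := hA 1 1; have := hA 1 2; have := hA 1 3
  have := hA 2 0; have := hA 2 1; have := hA 2 2; have := hA 2 3
  have := hA 3 0; have := hA 3 1; have := hA 3 2; have := hA 3 3
  fin_cases i <;> fin_cases j <;> simp [ent, enc] <;> omega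

lemma tbl_injective : Function.Injective tbl := by
  have : ∀ a b, tbl a = tbl b → a = b := by decide +kernel
  exact fun a b h => this a b h

lemma tbl_mul : ∀ a b, enc (mulN (ent (tbl a)) (ent (tbl b))) ∈ codes := by decide +kernel

lemma tbl_four : ∀ a, enc (mulN (mulN (ent (tbl a)) (ent (tbl a))) (mulN (ent (tbl a)) (ent (tbl a)))) = code1 := by
  decide +kernel

lemma tbl_form : ∀ a, enc (mulN (mulN (trN (ent (tbl a))) (ent codeJ)) (ent (tbl a))) = codeJ := by decide +kernel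

lemma tbl_center : ∀ a, (∀ b, enc (mulN (ent (tbl a)) (ent (tbl b))) = enc (mulN (ent (tbl b)) (ent (tbl a)))) ↔
    a = 0 ∨ a = 16 := by decide +kernel

lemma tbl_minus : ∀ a, enc (mulN (ent (tbl a)) (ent (tbl a))) = code1 → a ≠ 0 → a ≠ 16 →
    ∀ b, enc (mulN (ent (tbl b)) (ent (tbl b))) = code1 → b ≠ 0 → b ≠ 16 →
    enc (mulN (ent (tbl a)) (ent (tbl b))) = enc (mulN (ent (tbl b)) (ent (tbl a))) →
    b = a ∨ tbl b = enc (mulN (ent (tbl 16)) (ent (tbl a))) := by decide +kernel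

lemma tbl_exp : ∃ a, enc (mulN (ent (tbl a)) (ent (tbl a))) ≠ code1 := by decide +kernel

lemma tbl_words : ∀ a, ∃ (p : Fin 4) (q r s : Fin 2), tbl a = enc (mulN (mulN (mulN
    (ent (![code1, tbl 8, enc (mulN (ent (tbl 8)) (ent (tbl 8))),
      enc (mulN (mulN (ent (tbl 8)) (ent (tbl 8))) (ent (tbl 8)))] p))
    (ent (![code1, tbl 4] q))) (ent (![code1, tbl 2] r))) (ent (![code1, tbl 1] s))) := by decide +kernel

lemma tbl_span : ∀ a b i j : Fin 4, (List.ofFn fun x : Fin 32 =>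
    enc (mulN (mulN (ent (tbl x)) (ent (tbl x))) (ent (tbl x))) / 3 ^ (4 * (b : ℕ) + (a : ℕ)) % 3 *
      ent (tbl x) i j).sum % 3 = if a = i ∧ b = j then 2 else 0 := by decide +kernel

lemma out_inv : ∀ k, enc (mulN (ent (out k)) (ent (outInv k))) = code1 := by decide +kernel

lemma out_normal : ∀ k (g : Fin 4), enc (mulN (mulN (ent (out k)) (ent (tbl (gen g)))) (ent (outInv k))) ∈ codes := by
  decide +kernel

lemma out_moves : ∀ a, a = 0 ∨ a = 16 ∨ ∃ k,
    enc (mulN (mulN (mulN (ent (out k)) (ent (tbl a))) (ent (outInv k))) (ent (tbl a))) ≠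
      enc (mulN (ent (tbl a)) (mulN (mulN (ent (out k)) (ent (tbl a))) (ent (outInv k)))) := by decide +kernel

/-- Vectors by code. -/
def vec (u : Fin 81) (i : Fin 4) : ℕ := (u : ℕ) / 3 ^ (i : ℕ) % 3

/-- The standard form on vectors of numbers. -/
def omN (u v : Fin 4 → ℕ) : ℕ := (2 * u 0 * v 2 + 2 * u 1 * v 3 + u 2 * v 0 + u 3 * v 1) % 3

/-- A signed multiple of the image of a vector under the standard complex structure. -/
def sI (s : Fin 2) (u : Fin 4 → ℕ) : Fin 4 → ℕ :=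
  if s = 0 then ![(2 * u 2) % 3, (2 * u 3) % 3, u 0, u 1] else ![u 2, u 3, (2 * u 0) % 3, (2 * u 1) % 3]

/-- The matrix with the given first two columns commuting or anticommuting with the complex structure. -/
def mkN (s : Fin 2) (u v : Fin 4 → ℕ) : Fin 4 → Fin 4 → ℕ := fun i j => ![u i, v i, sI s u i, sI s v i] j

/-- The symplectic inverse. -/
def invN (A : Fin 4 → Fin 4 → ℕ) : Fin 4 → Fin 4 → ℕ :=
  mulN (mulN (ent codeJ) (trN A)) (fun i j => (2 * ent codeJ i j) % 3)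

lemma normal : ∀ (s : Fin 2) (u : Fin 81), omN (vec u) (sI s (vec u)) = 2 →
    ∀ v : Fin 81, omN (vec v) (sI s (vec v)) = 2 → omN (vec u) (vec v) = 0 → omN (vec u) (sI s (vec v)) = 0 →
    ∀ g : Fin 4, enc (mulN (mulN (mkN s (vec u) (vec v)) (ent (tbl (gen g)))) (invN (mkN s (vec u) (vec v)))) ∈ codes ∧
      enc (mulN (mkN s (vec u) (vec v)) (invN (mkN s (vec u) (vec v)))) = code1 := by decide +kernel

variable {F : Type*} [Field F]

/-- The index set of the standard symplectic space. -/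
def idx : Fin 2 ⊕ Fin 2 ≃ Fin 4 := finSumFinEquiv

variable (F) in
/-- A coded matrix over the field. -/
def toM (A : Fin 4 → Fin 4 → ℕ) : Matrix (Fin 2 ⊕ Fin 2) (Fin 2 ⊕ Fin 2) F :=
  Matrix.of fun i j => (A (idx i) (idx j) : F)

variable [CharP F 3]

lemma cast_mod (a : ℕ) : ((a % 3 : ℕ) : F) = (a : F) := by
  rw [← CharP.cast_eq_mod]

lemma toM_mulN (A B : Fin 4 → Fin 4 → ℕ) : toM F (mulN A B) = toM F A * toM F B := by
  ext i j
  rw [Matrix.mul_apply, ← Equiv.sum_comp idx.symm, Fin.sum_univ_four]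
  simp [toM, mulN, cast_mod]

lemma toM_enc {A : Fin 4 → Fin 4 → ℕ} (hA : ∀ i j, A i j < 3) : toM F (ent (enc A)) = toM F A := by
  ext i j
  simp [toM, ent_enc hA]

lemma toM_eq_of_enc {A B : Fin 4 → Fin 4 → ℕ} {c : ℕ} (h : enc (mulN A B) = c) : toM F A * toM F B = toM F (ent c) := by
  rw [← toM_mulN, ← h, toM_enc (mulN_lt A B)]

lemma toM_one : toM F (ent code1) = 1 := by
  have h : ∀ i j : Fin 4, ent code1 i j = if i = j then 1 else 0 := by decide +kernel
  ext i j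
  simp only [toM, Matrix.of_apply, h, idx.injective.eq_iff, Matrix.one_apply]
  split <;> simp

lemma toM_J : toM F (ent codeJ) = Matrix.J (Fin 2) F := by
  have h : ∀ i j : Fin 4, ent codeJ i j = if (i : ℕ) + 2 = j then 2 else if (j : ℕ) + 2 = i then 1 else 0 := by
    decide +kernel
  have h3 : (3 : F) = 0 := by exact_mod_cast CharP.cast_eq_zero F 3
  have hidx : ∀ x, (idx x : ℕ) = Sum.elim (fun i : Fin 2 => (i : ℕ)) (fun i : Fin 2 => (i : ℕ) + 2) x := by decide
  ext i j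
  simp only [toM, Matrix.of_apply, h, Matrix.J, hidx]
  rcases i with i | i <;> rcases j with j | j <;> fin_cases i <;> fin_cases j <;>
    simp [Matrix.fromBlocks] <;> linear_combination h3

lemma cast_inj {a b : ℕ} (ha : a < 3) (hb : b < 3) (h : (a : F) = (b : F)) : a = b := by
  have := (CharP.natCast_eq_natCast F 3).mp h
  rwa [Nat.ModEq, Nat.mod_eq_of_lt ha, Nat.mod_eq_of_lt hb] at this

lemma enc_inj_of_toM {A B : Fin 4 → Fin 4 → ℕ} (hA : ∀ i j, A i j < 3) (hB : ∀ i j, B i j < 3)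
    (h : toM F A = toM F B) : A = B := by
  funext i j
  have := congrFun (congrFun h (idx.symm i)) (idx.symm j)
  simp only [toM, Matrix.of_apply, Equiv.apply_symm_apply] at this
  exact cast_inj (hA i j) (hB i j) this

variable (F) in
/-- The matrix of an element. -/
def mat (a : Fin 32) : Matrix (Fin 2 ⊕ Fin 2) (Fin 2 ⊕ Fin 2) F := toM F (ent (tbl a))

lemma mat_injective : Function.Injective (mat F) := fun a b h => tbl_injective (by
  have h' := enc_inj_of_toM (ent_lt _) (ent_lt _) h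
  have henc : ∀ c : Fin 32, enc (ent (tbl c)) = tbl c := by decide +kernel
  rw [← henc a, ← henc b, h'])

lemma exists_mat {c : ℕ} (hc : c ∈ codes) : ∃ a, toM F (ent c) = mat F a := by
  rw [codes, List.mem_ofFn] at hc
  obtain ⟨a, rfl⟩ := hc
  exact ⟨a, rfl⟩

lemma mat_mul (a b : Fin 32) : ∃ c, mat F a * mat F b = mat F c := by
  obtain ⟨c, hc⟩ := exists_mat (F := F) (tbl_mul a b)
  exact ⟨c, by rw [mat, mat, toM_eq_of_enc rfl, hc]⟩

lemma mat_zero : mat F 0 = 1 := toM_one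

lemma mat_pow_four (a : Fin 32) : mat F a ^ 4 = 1 := by
  have h := congrArg (fun c => toM F (ent c)) (tbl_four a)
  rw [toM_enc (mulN_lt _ _), toM_mulN, toM_mulN, toM_one] at h
  rw [show 4 = 2 + 2 from rfl, pow_add, pow_two]
  exact h

/-- An element as a unit. -/
def el (a : Fin 32) : GL (Fin 2 ⊕ Fin 2) F where
  val := mat F a
  inv := mat F a ^ 3
  val_inv := by rw [← pow_succ']; exact mat_pow_four a
  inv_val := by rw [← pow_succ]; exact mat_pow_four a

variable (F) in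
/-- The group of order 32. -/
def R₀ : Subgroup (GL (Fin 2 ⊕ Fin 2) F) where
  carrier := {g | ∃ a, (g : Matrix (Fin 2 ⊕ Fin 2) (Fin 2 ⊕ Fin 2) F) = mat F a}
  one_mem' := ⟨0, by rw [mat_zero, Units.val_one]⟩
  mul_mem' := by
    rintro g h ⟨a, ha⟩ ⟨b, hb⟩
    obtain ⟨c, hc⟩ := mat_mul (F := F) a b
    exact ⟨c, by rw [Units.val_mul, ha, hb, hc]⟩
  inv_mem' := by
    rintro g ⟨a, ha⟩
    obtain ⟨c, hc⟩ := mat_mul (F := F) a a
    obtain ⟨d, hd⟩ := mat_mul (F := F) a c
    refine ⟨d, ?_⟩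
    rw [show g = el a from Units.ext ha]
    show mat F a ^ 3 = _
    rw [← hd, ← hc, pow_succ', pow_two]

lemma el_mem (a : Fin 32) : el a ∈ R₀ F := ⟨a, rfl⟩

lemma exists_el {g : GL (Fin 2 ⊕ Fin 2) F} (h : g ∈ R₀ F) : ∃ a, g = el a := by
  obtain ⟨a, ha⟩ := h
  exact ⟨a, Units.ext ha⟩

lemma el_bijective : Function.Bijective fun a : Fin 32 => (⟨el a, el_mem a⟩ : R₀ F) := by
  refine ⟨fun a b h => mat_injective (congrArg (fun x : R₀ F => ((x : GL (Fin 2 ⊕ Fin 2) F) :
    Matrix (Fin 2 ⊕ Fin 2) (Fin 2 ⊕ Fin 2) F)) h), fun x => ?_⟩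
  obtain ⟨a, ha⟩ := exists_el x.2
  exact ⟨a, Subtype.ext ha.symm⟩

lemma card_R₀ : Nat.card (R₀ F) = 32 := by
  rw [← Nat.card_congr (Equiv.ofBijective _ (el_bijective (F := F))), Nat.card_fin]

lemma mem_center_iff (a : Fin 32) :
    (⟨el a, el_mem a⟩ : R₀ F) ∈ Subgroup.center (R₀ F) ↔ a = 0 ∨ a = 16 := by
  rw [← tbl_center, Subgroup.mem_center_iff]
  constructor
  · intro h b
    have h' := congrArg (fun x : R₀ F => ((x : GL (Fin 2 ⊕ Fin 2) F) : Matrix (Fin 2 ⊕ Fin 2) (Fin 2 ⊕ Fin 2) F))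
      (h ⟨el b, el_mem b⟩)
    simp only [Subgroup.coe_mul, Units.val_mul] at h'
    change mat F b * mat F a = mat F a * mat F b at h'
    rw [mat, mat, ← toM_mulN, ← toM_mulN] at h'
    rw [enc_inj_of_toM (mulN_lt _ _) (mulN_lt _ _) h']
  · intro h y
    obtain ⟨b, hb⟩ := exists_el y.2
    refine Subtype.ext (Units.ext ?_)
    simp only [Subgroup.coe_mul, Units.val_mul, hb]
    show mat F b * mat F a = mat F a * mat F b
    rw [mat, mat, toM_eq_of_enc rfl, toM_eq_of_enc (h b)]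

/-- A conjugation keeping the generators inside keeps the group. -/
lemma map_eq [Finite F] {g : GL (Fin 2 ⊕ Fin 2) F} (h : ∀ k, g * el (gen k) * g⁻¹ ∈ R₀ F) :
    (R₀ F).map (MulAut.conj g).toMonoidHom = R₀ F := by
  refine Subgroup.eq_of_le_of_card_ge ?_ (le_of_eq (Subgroup.card_map_of_injective (MulAut.conj g).injective).symm)
  set S := (R₀ F).comap (MulAut.conj g).toMonoidHom
  have hg : ∀ k, el (gen k) ∈ S := h
  have h1 : (1 : GL (Fin 2 ⊕ Fin 2) F) ∈ S := S.one_mem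
  rintro _ ⟨x, hx, rfl⟩
  obtain ⟨a, rfl⟩ := exists_el hx
  show el a ∈ S
  obtain ⟨p, q, r, s, hw⟩ := tbl_words a
  have hval : ∀ (c : ℕ), (∃ y ∈ S, (y : Matrix (Fin 2 ⊕ Fin 2) (Fin 2 ⊕ Fin 2) F) = toM F (ent c)) →
      ∀ (d : ℕ), (∃ y ∈ S, (y : Matrix (Fin 2 ⊕ Fin 2) (Fin 2 ⊕ Fin 2) F) = toM F (ent d)) →
      ∃ y ∈ S, (y : Matrix (Fin 2 ⊕ Fin 2) (Fin 2 ⊕ Fin 2) F) = toM F (mulN (ent c) (ent d)) := by
    rintro c ⟨y, hy, hyc⟩ d ⟨z, hz, hzd⟩
    exact ⟨y * z, S.mul_mem hy hz, by rw [Units.val_mul, hyc, hzd, toM_mulN]⟩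
  have g0 : ∃ y ∈ S, (y : Matrix (Fin 2 ⊕ Fin 2) (Fin 2 ⊕ Fin 2) F) = toM F (ent code1) :=
    ⟨1, h1, by rw [Units.val_one, toM_one]⟩
  have gk : ∀ k, ∃ y ∈ S, (y : Matrix (Fin 2 ⊕ Fin 2) (Fin 2 ⊕ Fin 2) F) = toM F (ent (tbl (gen k))) :=
    fun k => ⟨_, hg k, rfl⟩
  have g8 := gk 0
  have hp : ∃ y ∈ S, (y : Matrix (Fin 2 ⊕ Fin 2) (Fin 2 ⊕ Fin 2) F) = toM F (ent (![code1, tbl 8,
      enc (mulN (ent (tbl 8)) (ent (tbl 8))),
      enc (mulN (mulN (ent (tbl 8)) (ent (tbl 8))) (ent (tbl 8)))] p)) := by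
    fin_cases p
    · exact g0
    · exact g8
    · obtain ⟨y, hy, hy'⟩ := g8
      exact ⟨y * y, S.mul_mem hy hy, by
        rw [Units.val_mul, hy', ← toM_mulN]; exact (toM_enc (mulN_lt _ _)).symm⟩
    · obtain ⟨y, hy, hy'⟩ := g8
      exact ⟨y * y * y, S.mul_mem (S.mul_mem hy hy) hy, by
        rw [Units.val_mul, Units.val_mul, hy', ← toM_mulN, ← toM_mulN]; exact (toM_enc (mulN_lt _ _)).symm⟩
  have hbit : ∀ k (q : Fin 2), ∃ y ∈ S, (y : Matrix (Fin 2 ⊕ Fin 2) (Fin 2 ⊕ Fin 2) F) =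
      toM F (ent (![code1, tbl (gen k)] q)) := fun k q => by fin_cases q; exacts [g0, gk k]
  obtain ⟨y₁, hy₁, e₁⟩ := hp
  obtain ⟨y₂, hy₂, e₂⟩ := hbit 1 q
  obtain ⟨y₃, hy₃, e₃⟩ := hbit 2 r
  obtain ⟨y₄, hy₄, e₄⟩ := hbit 3 s
  have : el a = y₁ * y₂ * y₃ * y₄ := by
    refine Units.ext ?_
    rw [Units.val_mul, Units.val_mul, Units.val_mul, e₁, e₂, e₃, e₄]
    show toM F (ent (tbl a)) = _
    rw [hw, toM_enc (mulN_lt _ _), toM_mulN, toM_mulN, toM_mulN]
    rfl
  rw [this]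
  exact S.mul_mem (S.mul_mem (S.mul_mem hy₁ hy₂) hy₃) hy₄

/-- An automorphism from a normalising element. -/
noncomputable def autOf {G : Type*} [Group G] {R : Subgroup G} {g : G}
    (h : R.map (MulAut.conj g).toMonoidHom = R) : R ≃* R :=
  (R.equivMapOfInjective _ (MulAut.conj g).injective).trans (MulEquiv.subgroupCongr h)

lemma irreducible : ActsAbsolutelyIrreducibly (matrixSet (R₀ F)) := by
  classical
  have h3 : (3 : F) = 0 := by exact_mod_cast CharP.cast_eq_zero F 3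
  have h2 : (2 : F) ≠ 0 := fun h => one_ne_zero (α := F) (by linear_combination h3 - h)
  have hspan : ∀ a b : Fin 2 ⊕ Fin 2, ∃ c : Fin 32 → F, (Matrix.single a b 1 : Matrix _ _ F) = ∑ x, c x • mat F x := by
    intro a b
    refine ⟨fun x => 2 * (enc (mulN (mulN (ent (tbl x)) (ent (tbl x))) (ent (tbl x))) /
      3 ^ (4 * (idx b : ℕ) + (idx a : ℕ)) % 3 : ℕ), ?_⟩
    ext i j
    have h := congrArg (fun t : ℕ => (t : F)) (tbl_span (idx a) (idx b) (idx i) (idx j))
    simp only [cast_mod, List.sum_ofFn, Nat.cast_sum, Nat.cast_mul] at h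
    simp only [Matrix.sum_apply, Matrix.smul_apply, smul_eq_mul, mul_assoc, ← Finset.mul_sum]
    rw [show (fun x => _) = fun x => ((enc (mulN (mulN (ent (tbl x)) (ent (tbl x))) (ent (tbl x))) /
      3 ^ (4 * (idx b : ℕ) + (idx a : ℕ)) % 3 : ℕ) : F) * mat F x i j from rfl]
    simp only [mat, toM, Matrix.of_apply, cast_mod]
    rw [h, Matrix.single_apply]
    simp only [idx.injective.eq_iff]
    split
    · push_cast; linear_combination -h3
    · simp
  have hmem : ∀ x : Fin 32, mat F x ∈ matrixSet (R₀ F) := fun x => ⟨el x, el_mem x, rfl⟩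
  constructor
  · intro W hW
    by_cases hb : W = ⊥
    · exact Or.inl hb
    obtain ⟨w, hw, hw0⟩ := Submodule.exists_mem_ne_zero_of_ne_bot hb
    obtain ⟨k, hk⟩ := Function.ne_iff.mp hw0
    refine Or.inr (eq_top_iff.mpr ?_)
    rw [← (Pi.basisFun F (Fin 2 ⊕ Fin 2)).span_eq, Submodule.span_le]
    rintro _ ⟨l, rfl⟩
    obtain ⟨c, hc⟩ := hspan l k
    have : (Matrix.single l k 1 : Matrix _ _ F) *ᵥ w ∈ W := by
      rw [hc, Matrix.sum_mulVec]
      refine W.sum_mem fun x _ => ?_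
      rw [Matrix.smul_mulVec]
      exact W.smul_mem _ (hW _ (hmem x) ⟨w, hw, Matrix.toLin'_apply _ _⟩)
    have h' := W.smul_mem (w k)⁻¹ this
    have e : (w k)⁻¹ • ((Matrix.single l k 1 : Matrix _ _ F) *ᵥ w) = Pi.basisFun F (Fin 2 ⊕ Fin 2) l := by
      funext i
      have hk' : w k ≠ 0 := hk
      by_cases hil : i = l
      · subst hil
        simp [Pi.basisFun_apply, Matrix.mulVec, dotProduct, Matrix.single_apply, hk']
      · simp [Pi.basisFun_apply, Matrix.mulVec, dotProduct, Matrix.single_apply, hil, Ne.symm hil]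
    rw [e] at h'
    exact h'
  · intro M hM
    have hc : ∀ a b, M * (Matrix.single a b 1 : Matrix _ _ F) = Matrix.single a b 1 * M := fun a b => by
      obtain ⟨c, hc⟩ := hspan a b
      rw [hc, Finset.mul_sum, Finset.sum_mul]
      refine Finset.sum_congr rfl fun x _ => ?_
      rw [mul_smul_comm, smul_mul_assoc, hM _ (hmem x)]
    refine ⟨M (Sum.inl 0) (Sum.inl 0), ?_⟩
    ext i j
    have h1 := congrFun (congrFun (hc j (Sum.inl 0)) i) (Sum.inl 0)
    simp [Matrix.mul_apply, Matrix.single_apply, Matrix.one_apply, eq_comm] at h1 ⊢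
    rw [h1]

lemma symplecticType [Finite F] : IsSymplecticTypeGroup 2 (R₀ F) where
  prime := Nat.prime_two
  pGroup := IsPGroup.of_card (n := 5) (by rw [card_R₀]; norm_num)
  exponent_eq := by
    have h4 : Monoid.exponent (R₀ F) ∣ 4 := Monoid.exponent_dvd_iff_forall_pow_eq_one.mpr fun x => by
      obtain ⟨a, ha⟩ := exists_el x.2
      refine Subtype.ext (Units.ext ?_)
      simp only [SubmonoidClass.coe_pow, Units.val_pow_eq_pow_val, ha, OneMemClass.coe_one, Units.val_one]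
      exact mat_pow_four a
    show _ = 4
    obtain ⟨k, hk, he⟩ := (Nat.dvd_prime_pow Nat.prime_two (m := 2)).mp h4
    rcases Nat.lt_or_ge k 2 with hk2 | hk2
    · exfalso
      obtain ⟨a, ha⟩ := tbl_exp
      have hsq := Monoid.pow_exponent_eq_one (⟨el a, el_mem a⟩ : R₀ F)
      have h2 : (⟨el a, el_mem a⟩ : R₀ F) ^ 2 = 1 := by
        interval_cases k <;> simp [he] at hsq ⊢ <;> simp [hsq]
      have h3 := congrArg (fun x : R₀ F => ((x : GL (Fin 2 ⊕ Fin 2) F) : Matrix (Fin 2 ⊕ Fin 2) (Fin 2 ⊕ Fin 2) F)) h2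
      simp only [SubmonoidClass.coe_pow, Units.val_pow_eq_pow_val, OneMemClass.coe_one, Units.val_one, pow_two] at h3
      change mat F a * mat F a = 1 at h3
      rw [mat, ← toM_mulN, ← toM_one] at h3
      have hh := enc_inj_of_toM (mulN_lt _ _) (ent_lt _) h3
      exact ha (by rw [hh]; decide +kernel)
    · rw [he]; interval_cases k; rfl
  cyclic_of_characteristic := by
    intro A hA hAc
    haveI := hAc
    haveI : IsCyclic (Subgroup.center (R₀ F)) := by
      haveI : Fact (Nat.Prime 2) := ⟨Nat.prime_two⟩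
      refine isCyclic_of_prime_card (p := 2) ?_
      let φ : Fin 2 → Subgroup.center (R₀ F) := fun i =>
        ⟨⟨el (![0, 16] i), el_mem _⟩, (mem_center_iff _).mpr (by fin_cases i <;> simp)⟩
      have hφ : Function.Bijective φ := by
        refine ⟨fun i j h => ?_, fun x => ?_⟩
        · have := (el_bijective (F := F)).1 (congrArg Subtype.val h)
          revert this
          fin_cases i <;> fin_cases j <;> simp
        · obtain ⟨a, ha⟩ := exists_el (x : R₀ F).2
          have hx := x.2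
          rw [show (x : R₀ F) = ⟨el a, el_mem a⟩ from Subtype.ext ha, mem_center_iff] at hx
          rcases hx with rfl | rfl
          · exact ⟨0, Subtype.ext (Subtype.ext ha.symm)⟩
          · exact ⟨1, Subtype.ext (Subtype.ext ha.symm)⟩
      rw [← Nat.card_congr (Equiv.ofBijective φ hφ), Nat.card_fin]
    suffices hle : A ≤ Subgroup.center (R₀ F) by exact Subgroup.isCyclic_of_le hle
    intro x hxA
    obtain ⟨a, ha⟩ := exists_el x.2
    obtain rfl : x = ⟨el a, el_mem a⟩ := Subtype.ext ha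
    rw [mem_center_iff]
    rcases out_moves a with h | h | ⟨k, hk⟩
    · exact Or.inl h
    · exact Or.inr h
    exfalso
    have hinv : toM F (ent (out k)) * toM F (ent (outInv k)) = 1 := by rw [toM_eq_of_enc (out_inv k), toM_one]
    let g : GL (Fin 2 ⊕ Fin 2) F := ⟨_, _, hinv, mul_eq_one_comm.mp hinv⟩
    have hn : (R₀ F).map (MulAut.conj g).toMonoidHom = R₀ F := map_eq fun m => by
      obtain ⟨c, hc⟩ := exists_mat (F := F) (out_normal k m)
      refine ⟨c, ?_⟩
      rw [← hc, toM_enc (mulN_lt _ _), toM_mulN, toM_mulN]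
      rfl
    have hy : autOf hn ⟨el a, el_mem a⟩ ∈ A := (SetLike.ext_iff.mp (hA.fixed (autOf hn)) _).mpr hxA
    have hcomm := congrArg (fun t : A => (((t : R₀ F) : GL (Fin 2 ⊕ Fin 2) F) : Matrix (Fin 2 ⊕ Fin 2) (Fin 2 ⊕ Fin 2) F))
      (mul_comm' (⟨_, hy⟩ : A) ⟨_, hxA⟩)
    simp only [Subgroup.coe_mul, Units.val_mul] at hcomm
    change toM F (ent (out k)) * mat F a * toM F (ent (outInv k)) * mat F a =
      mat F a * (toM F (ent (out k)) * mat F a * toM F (ent (outInv k))) at hcomm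
    rw [mat, ← toM_mulN, ← toM_mulN, ← toM_mulN, ← toM_mulN] at hcomm
    exact hk (by rw [enc_inj_of_toM (mulN_lt _ _) (mulN_lt _ _) hcomm])

lemma card_center : Nat.card (Subgroup.center (R₀ F)) = 2 := by
  let φ : Fin 2 → Subgroup.center (R₀ F) := fun i =>
    ⟨⟨el (![0, 16] i), el_mem _⟩, (mem_center_iff _).mpr (by fin_cases i <;> simp)⟩
  have hφ : Function.Bijective φ := by
    refine ⟨fun i j h => ?_, fun x => ?_⟩
    · have := (el_bijective (F := F)).1 (congrArg Subtype.val h)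
      revert this
      fin_cases i <;> fin_cases j <;> simp
    · obtain ⟨a, ha⟩ := exists_el (x : R₀ F).2
      have hx := x.2
      rw [show (x : R₀ F) = ⟨el a, el_mem a⟩ from Subtype.ext ha, mem_center_iff] at hx
      rcases hx with rfl | rfl
      · exact ⟨0, Subtype.ext (Subtype.ext ha.symm)⟩
      · exact ⟨1, Subtype.ext (Subtype.ext ha.symm)⟩
  rw [← Nat.card_congr (Equiv.ofBijective φ hφ), Nat.card_fin]

lemma minusType : IsOfMinusType 2 (R₀ F) := by
  classical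
  intro A hA hsq
  haveI := hA
  have hmem : ∀ x ∈ A, ∃ a, x = (⟨el a, el_mem a⟩ : R₀ F) ∧ enc (mulN (ent (tbl a)) (ent (tbl a))) = code1 := by
    intro x hx
    obtain ⟨a, ha⟩ := exists_el x.2
    obtain rfl : x = ⟨el a, el_mem a⟩ := Subtype.ext ha
    refine ⟨a, rfl, ?_⟩
    have h := congrArg (fun t : R₀ F => ((t : GL (Fin 2 ⊕ Fin 2) F) : Matrix (Fin 2 ⊕ Fin 2) (Fin 2 ⊕ Fin 2) F)) (hsq _ hx)
    simp only [Subgroup.coe_mul, Units.val_mul, OneMemClass.coe_one, Units.val_one] at h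
    change mat F a * mat F a = 1 at h
    rw [mat, ← toM_mulN, ← toM_one] at h
    rw [enc_inj_of_toM (mulN_lt _ _) (ent_lt _) h]
    decide +kernel
  choose f hf hfsq using hmem
  by_cases hall : ∀ x, ∀ hx : x ∈ A, f x hx = 0 ∨ f x hx = 16
  · have : Nat.card A ≤ Nat.card (Fin 2) := Nat.card_le_card_of_injective
      (fun x : A => if f x x.2 = 0 then (0 : Fin 2) else 1) fun x y h => by
      apply Subtype.ext
      rw [hf x x.2, hf y y.2]
      dsimp only at h
      rcases hall x x.2 with e | e <;> rcases hall y y.2 with e' | e' <;> simp [e, e'] at h ⊢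
    rw [Nat.card_fin] at this
    norm_num
    omega
  · push Not at hall
    obtain ⟨x, hx, hx0, hx16⟩ := hall
    obtain ⟨c, hc⟩ := mat_mul (F := F) 16 (f x hx)
    have hcode : ∀ y, ∀ hy : y ∈ A, f y hy = 0 ∨ f y hy = 16 ∨ f y hy = f x hx ∨ f y hy = c := by
      intro y hy
      by_cases h0 : f y hy = 0
      · exact Or.inl h0
      by_cases h16 : f y hy = 16
      · exact Or.inr (Or.inl h16)
      have hcomm := congrArg (fun t : A => (((t : R₀ F) : GL (Fin 2 ⊕ Fin 2) F) : Matrix (Fin 2 ⊕ Fin 2) (Fin 2 ⊕ Fin 2) F))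
        (mul_comm' (⟨x, hx⟩ : A) ⟨y, hy⟩)
      simp only [Subgroup.coe_mul, Units.val_mul] at hcomm
      rw [hf x hx, hf y hy] at hcomm
      change mat F (f x hx) * mat F (f y hy) = mat F (f y hy) * mat F (f x hx) at hcomm
      rw [mat, mat, ← toM_mulN, ← toM_mulN] at hcomm
      rcases tbl_minus _ (hfsq x hx) hx0 hx16 _ (hfsq y hy) h0 h16
        (by rw [enc_inj_of_toM (mulN_lt _ _) (mulN_lt _ _) hcomm]) with h | h
      · exact Or.inr (Or.inr (Or.inl h))
      · refine Or.inr (Or.inr (Or.inr (mat_injective (F := F) ?_)))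
        rw [← hc, mat, h, toM_enc (mulN_lt _ _), toM_mulN]
        rfl
    have : Nat.card A ≤ Nat.card ({0, 16, f x hx, c} : Finset (Fin 32)) := Nat.card_le_card_of_injective
      (fun y : A => ⟨f y y.2, by simp only [Finset.mem_insert, Finset.mem_singleton]; exact hcode y y.2⟩) fun y z h => by
      apply Subtype.ext
      have h' := congrArg Subtype.val h
      dsimp only at h'
      rw [hf y y.2, hf z z.2]
      simp [h']
    rw [Nat.card_eq_finsetCard] at this
    have h4 := Finset.card_le_four (a := (0 : Fin 32)) (b := 16) (c := f x hx) (d := c)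
    norm_num
    omega

lemma le_similarity : R₀ F ≤ similarityGroup (Cfsg.sympForm 2 F) := by
  rintro g hg
  obtain ⟨a, rfl⟩ := exists_el hg
  refine ⟨1, fun u v => ?_⟩
  have htr : ∀ A, toM F (trN A) = (toM F A)ᵀ := fun A => rfl
  have h := congrArg (fun c => toM F (ent c)) (tbl_form a)
  rw [toM_enc (mulN_lt _ _), toM_mulN, toM_mulN, htr, toM_J] at h
  rw [Units.val_one, one_mul]
  show Cfsg.sympForm 2 F (mat F a *ᵥ u) (mat F a *ᵥ v) = _
  rw [Cfsg.sympForm, Cfsg.sympForm, Matrix.dotProduct_mulVec, Matrix.dotProduct_mulVec, Matrix.vecMul_mulVec,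
    Matrix.dotProduct_mulVec]
  rw [Matrix.vecMul_vecMul]
  exact congrArg (fun M => u ᵥ* M ⬝ᵥ v) h

end MinusFour

open MinusFour

set_option maxHeartbeats 1000000 in
/-- The exception `q = 3` for quadratic fields closed under adjoints in `Sp_4(q)`. -/
theorem fieldNormalizer_le_symplecticType_three {F : Type*} [Field F] [Fintype F] (hF : Fintype.card F = 3)
    {K : Subalgebra F (Matrix (Fin 2 ⊕ Fin 2) (Fin 2 ⊕ Fin 2) F)} (hK : IsFieldSubalgebra 2 K)
    (hac : IsAdjointClosedFor (Cfsg.sympForm 2 F) K) (hns : ¬ IsSelfAdjointFor (Cfsg.sympForm 2 F) K) :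
    ∃ R : Subgroup (GL (Fin 2 ⊕ Fin 2) F), IsSymplecticTypeGroup 2 R ∧ ActsAbsolutelyIrreducibly (matrixSet R) ∧
      R ≤ similarityGroup (Cfsg.sympForm 2 F) ∧ Nat.card R = 32 ∧ Nat.card (Subgroup.center R) = 2 ∧
      IsOfMinusType 2 R ∧ subalgebraNormalizer K ⊓ Cfsg.spGL 2 F ≤ subgroupNormalizer R := by
  classical
  haveI : CharP F 3 := by
    obtain ⟨n, hp, hn⟩ := FiniteField.card F (ringChar F)
    rw [hF] at hn
    have : ringChar F = 3 :=
      (Nat.prime_dvd_prime_iff_eq hp Nat.prime_three).mp (hn ▸ dvd_pow_self _ n.ne_zero)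
    exact this ▸ ringChar.charP F
  have h3 : (3 : F) = 0 := by exact_mod_cast CharP.cast_eq_zero F 3
  have h2 : (2 : F) ≠ 0 := fun h => one_ne_zero (α := F) (by linear_combination h3 - h)
  have hsurj : ∀ x : F, ∃ a : ℕ, a < 3 ∧ (a : F) = x := by
    intro x
    have hb : Function.Bijective fun a : Fin 3 => ((a : ℕ) : F) := by
      rw [Fintype.bijective_iff_injective_and_card, hF, Fintype.card_fin]
      exact ⟨fun a b h => Fin.ext (cast_inj a.isLt b.isLt h), rfl⟩
    obtain ⟨a, ha⟩ := hb.2 x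
    exact ⟨a, a.isLt, ha⟩
  let ω := Cfsg.sympForm 2 F
  let B := sympBil 2 F
  have hB : ∀ u v, B u v = Cfsg.sympForm 2 F u v := fun u v => sympBil_apply u v
  -- a square root of minus one in K
  letI : Field K := (MaxSub.isField_of_isFieldSubalgebra hK).toField
  haveI : Finite K := Finite.of_injective (fun x : K => (x : Matrix (Fin 2 ⊕ Fin 2) (Fin 2 ⊕ Fin 2) F)) Subtype.val_injective
  haveI : Fintype K := Fintype.ofFinite K
  have hcardK : Fintype.card K = 9 := by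
    have := Module.natCard_eq_pow_finrank (K := F) (V := K)
    rw [hK.finrank_eq, Nat.card_eq_fintype_card, Nat.card_eq_fintype_card, hF] at this
    rw [this]; norm_num
  obtain ⟨ι, hι⟩ : ∃ ι : K, ι ^ 2 = -1 := by
    obtain ⟨g, hg⟩ := IsCyclic.exists_ofOrder_eq_natCard (α := Kˣ)
    rw [Nat.card_eq_fintype_card, Fintype.card_units, hcardK] at hg
    refine ⟨((g ^ 2 : Kˣ) : K), ?_⟩
    have h1 : (((g ^ 2 : Kˣ) : K) ^ 2) * (((g ^ 2 : Kˣ) : K) ^ 2) = 1 := by
      rw [← pow_add, ← Units.val_pow_eq_pow_val, ← pow_mul, ← Units.val_one]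
      congr 1
      rw [show 2 * (2 + 2) = 8 from rfl, ← (show orderOf g = 8 from hg)]
      exact pow_orderOf_eq_one g
    rcases mul_self_eq_one_iff.mp h1 with h | h
    · exfalso
      have : g ^ 4 = 1 := Units.ext (by
        rw [show 4 = 2 * 2 from rfl, pow_mul, Units.val_pow_eq_pow_val, h, Units.val_one])
      have := orderOf_dvd_of_pow_eq_one this
      rw [hg] at this
      norm_num at this
    · exact h
  set Mi : Matrix (Fin 2 ⊕ Fin 2) (Fin 2 ⊕ Fin 2) F := (ι : Matrix (Fin 2 ⊕ Fin 2) (Fin 2 ⊕ Fin 2) F) with hMi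
  have hMi2 : Mi * Mi = -1 := by
    have h := congrArg (fun x : K => (x : Matrix (Fin 2 ⊕ Fin 2) (Fin 2 ⊕ Fin 2) F)) hι
    simpa [pow_two] using h
  have hroot : ∀ x : K, x ^ 2 = -1 → x = ι ∨ x = -ι := fun x hx =>
    sq_eq_sq_iff_eq_or_eq_neg.mp (hx.trans hι.symm)
  have hspanK : ∀ k : K, ∃ a b : F, k = a • (1 : K) + b • ι := by
    haveI : Nontrivial K := inferInstance
    have hli : LinearIndependent F ![(1 : K), ι] := by
      rw [LinearIndependent.pair_iff' one_ne_zero]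
      intro a ha
      have h1 : (algebraMap F K) (a ^ 2) = algebraMap F K (-1) := by
        rw [map_pow, Algebra.algebraMap_eq_smul_one, ha, hι, map_neg, map_one]
      have h2' := (algebraMap F K).injective h1
      obtain ⟨n, hn, rfl⟩ := hsurj a
      have : ((n ^ 2 + 1 : ℕ) : F) = ((0 : ℕ) : F) := by push_cast; linear_combination h2'
      rw [CharP.natCast_eq_natCast F 3, Nat.modEq_zero_iff_dvd] at this
      interval_cases n <;> norm_num at this
    let bK := basisOfLinearIndependentOfCardEqFinrank hli (by rw [hK.finrank_eq]; simp)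
    intro k
    refine ⟨bK.equivFun k 0, bK.equivFun k 1, ?_⟩
    conv_lhs => rw [← bK.sum_equivFun k]
    simp [Fin.sum_univ_two, bK]
  -- the adjoint of ι is -ι
  have hadj : ∀ u v, Cfsg.sympForm 2 F (Mi *ᵥ u) v = -Cfsg.sympForm 2 F u (Mi *ᵥ v) := by
    obtain ⟨k', hk', hk⟩ := hac Mi ι.2
    have hsq : k' * k' = -1 := by
      apply Matrix.toLin'.injective
      refine LinearMap.ext fun v => ?_
      rw [Matrix.toLin'_apply, Matrix.toLin'_apply]
      by_contra hne
      obtain ⟨x, hx⟩ := exists_sympForm_ne_zero (sub_ne_zero.mpr hne)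
      apply hx
      rw [← hB, map_sub, hB, hB, ← Matrix.mulVec_mulVec, ← hk, ← hk, Matrix.mulVec_mulVec, hMi2, Matrix.neg_mulVec,
        Matrix.one_mulVec, Matrix.neg_mulVec, Matrix.one_mulVec, ← hB, ← hB, map_neg, map_neg, LinearMap.neg_apply,
        sub_self]
    rcases hroot ⟨k', hk'⟩ (Subtype.ext (by simpa [pow_two] using hsq)) with h | h
    · exfalso
      have hk'' : k' = Mi := congrArg Subtype.val h
      refine hns fun k hkK u v => ?_
      obtain ⟨a, b, hab⟩ := hspanK ⟨k, hkK⟩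
      have hab' : k = a • (1 : Matrix _ _ F) + b • Mi := by simpa [hMi] using congrArg Subtype.val hab
      subst hab'
      simp only [Matrix.add_mulVec, Matrix.smul_mulVec, Matrix.one_mulVec, ← hB, map_add, map_smul,
        LinearMap.add_apply, LinearMap.smul_apply]
      rw [hB, hB, hB, hk u v, hk'']
    · intro u v
      rw [hk u v, show k' = -Mi from congrArg Subtype.val h, Matrix.neg_mulVec, ← hB, ← hB, map_neg]
  have hiso : ∀ u v, Cfsg.sympForm 2 F (Mi *ᵥ u) (Mi *ᵥ v) = Cfsg.sympForm 2 F u v := fun u v => by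
    rw [hadj, Matrix.mulVec_mulVec, hMi2, Matrix.neg_mulVec, Matrix.one_mulVec, ← hB, ← hB, map_neg, neg_neg]
  -- normalised vectors
  have hb : ∀ u, Cfsg.sympForm 2 F u (Mi *ᵥ u) ≠ 0 →
      ∃ a b : F, Cfsg.sympForm 2 F (a • u + b • (Mi *ᵥ u)) (Mi *ᵥ (a • u + b • (Mi *ᵥ u))) = -1 := by
    intro u hu
    have hval : ∀ a b : F, Cfsg.sympForm 2 F (a • u + b • (Mi *ᵥ u)) (Mi *ᵥ (a • u + b • (Mi *ᵥ u))) =
        (a ^ 2 + b ^ 2) * Cfsg.sympForm 2 F u (Mi *ᵥ u) := by
      intro a b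
      simp only [Matrix.mulVec_add, Matrix.mulVec_smul, Matrix.mulVec_mulVec, hMi2, Matrix.neg_mulVec,
        Matrix.one_mulVec, ← hB, map_add, map_smul, map_neg, LinearMap.add_apply, LinearMap.smul_apply, smul_eq_mul]
      rw [hB, hB, hB, hB, sympForm_self, sympForm_self, sympForm_swap (Mi *ᵥ u) u]
      ring
    obtain ⟨n, hn, hnu⟩ := hsurj (Cfsg.sympForm 2 F u (Mi *ᵥ u))
    interval_cases n
    · exact absurd (by rw [← hnu, Nat.cast_zero]) hu
    · exact ⟨1, 1, by rw [hval, ← hnu]; push_cast; linear_combination h3⟩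
    · exact ⟨1, 0, by rw [hval, ← hnu]; push_cast; linear_combination h3⟩
  obtain ⟨u₀, hu₀⟩ : ∃ u, Cfsg.sympForm 2 F u (Mi *ᵥ u) ≠ 0 := by
    by_contra hc
    push Not at hc
    obtain ⟨x, hx⟩ := exists_sympForm_ne_zero (F := F) (m := 2) (v := Pi.single (Sum.inl 0) 1) (by simp)
    apply hx
    have key : ∀ u v, Cfsg.sympForm 2 F u (Mi *ᵥ v) = 0 := fun u v => by
      have h := hc (u + v)
      have e : Cfsg.sympForm 2 F v (Mi *ᵥ u) = Cfsg.sympForm 2 F u (Mi *ᵥ v) := by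
        rw [sympForm_swap u (Mi *ᵥ v), hadj]; simp
      simp only [Matrix.mulVec_add, ← hB, map_add, LinearMap.add_apply] at h
      rw [hB, hB, hB, hB, hc, hc, e] at h
      exact (mul_eq_zero.mp (show (2 : F) * _ = 0 by linear_combination h)).resolve_left h2
    have := key x (Mi *ᵥ Pi.single (Sum.inl 0) 1)
    rwa [Matrix.mulVec_mulVec, hMi2, Matrix.neg_mulVec, Matrix.one_mulVec, ← hB, map_neg, neg_eq_zero, hB] at this
  obtain ⟨α₁, β₁, he₁⟩ := hb u₀ hu₀
  obtain ⟨e₁, he₁⟩ : ∃ e₁, Cfsg.sympForm 2 F e₁ (Mi *ᵥ e₁) = -1 := ⟨_, he₁⟩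
  -- the projection to the orthogonal complement
  let p : (Fin 2 ⊕ Fin 2 → F) → (Fin 2 ⊕ Fin 2 → F) := fun w =>
    w + Cfsg.sympForm 2 F w (Mi *ᵥ e₁) • e₁ + (-Cfsg.sympForm 2 F w e₁) • (Mi *ᵥ e₁)
  have he₁' : Cfsg.sympForm 2 F (Mi *ᵥ e₁) e₁ = 1 := by rw [sympForm_swap, he₁, neg_neg]
  have hp1 : ∀ w, Cfsg.sympForm 2 F (p w) e₁ = 0 := fun w => by
    simp only [p, ← hB, map_add, map_smul, LinearMap.add_apply, LinearMap.smul_apply, smul_eq_mul]
    simp only [hB, sympForm_self, he₁']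
    ring
  have hp2 : ∀ w, Cfsg.sympForm 2 F (p w) (Mi *ᵥ e₁) = 0 := fun w => by
    simp only [p, ← hB, map_add, map_smul, LinearMap.add_apply, LinearMap.smul_apply, smul_eq_mul]
    simp only [hB, sympForm_self, he₁]
    ring
  obtain ⟨u₁, hu₁, hu₁a, hu₁b⟩ : ∃ u, Cfsg.sympForm 2 F u (Mi *ᵥ u) ≠ 0 ∧ Cfsg.sympForm 2 F u e₁ = 0 ∧
      Cfsg.sympForm 2 F u (Mi *ᵥ e₁) = 0 := by
    by_contra hc
    push Not at hc
    have h0 : ∀ w, Cfsg.sympForm 2 F (p w) (Mi *ᵥ p w) = 0 := fun w => by_contra fun h => hc (p w) h (hp1 w) (hp2 w)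
    have hsum : ∀ a b, p (a + b) = p a + p b := fun a b => by
      simp only [p, ← hB, map_add, LinearMap.add_apply, add_smul, neg_add]
      abel
    have key : ∀ a b, Cfsg.sympForm 2 F (p a) (Mi *ᵥ p b) = 0 := fun a b => by
      have h := h0 (a + b)
      have e : Cfsg.sympForm 2 F (p b) (Mi *ᵥ p a) = Cfsg.sympForm 2 F (p a) (Mi *ᵥ p b) := by
        rw [sympForm_swap (p a) (Mi *ᵥ p b), hadj]; simp
      simp only [hsum, Matrix.mulVec_add, ← hB, map_add, LinearMap.add_apply] at h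
      rw [hB, hB, hB, hB, h0, h0, e] at h
      exact (mul_eq_zero.mp (show (2 : F) * _ = 0 by linear_combination h)).resolve_left h2
    have hzero : ∀ a, p a = 0 := by
      intro a
      by_contra hne
      obtain ⟨y, hy⟩ := exists_sympForm_ne_zero hne
      apply hy
      rw [sympForm_swap, neg_eq_zero]
      have hkey2 : ∀ q z, Cfsg.sympForm 2 F q e₁ = 0 → Cfsg.sympForm 2 F q (Mi *ᵥ e₁) = 0 →
          Cfsg.sympForm 2 F q (Mi *ᵥ p z) = Cfsg.sympForm 2 F q (Mi *ᵥ z) := fun q z hq1 hq2 => by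
        simp only [p, Matrix.mulVec_add, Matrix.mulVec_smul, Matrix.mulVec_mulVec, hMi2, Matrix.neg_mulVec,
          Matrix.one_mulVec, ← hB, map_add, map_smul, map_neg, smul_eq_mul]
        simp only [hB, hq1, hq2]
        ring
      have h := key a (-(Mi *ᵥ y))
      rw [hkey2 _ _ (hp1 a) (hp2 a), Matrix.mulVec_neg, Matrix.mulVec_mulVec, hMi2, Matrix.neg_mulVec,
        Matrix.one_mulVec, neg_neg] at h
      exact h
    have htop : ∀ w, w ∈ Submodule.span F (Set.range ![e₁, Mi *ᵥ e₁]) := fun w => by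
      have h := hzero w
      have : w = (-Cfsg.sympForm 2 F w (Mi *ᵥ e₁)) • e₁ + Cfsg.sympForm 2 F w e₁ • (Mi *ᵥ e₁) := by
        rw [← sub_eq_zero]
        refine Eq.trans ?_ h
        simp only [p]
        module
      rw [this]
      exact add_mem (Submodule.smul_mem _ _ (Submodule.subset_span ⟨0, rfl⟩))
        (Submodule.smul_mem _ _ (Submodule.subset_span ⟨1, rfl⟩))
    have h := finrank_range_le_card (R := F) ![e₁, Mi *ᵥ e₁]
    rw [Set.finrank, show Submodule.span F (Set.range ![e₁, Mi *ᵥ e₁]) = ⊤ from eq_top_iff.mpr fun w _ => htop w,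
      finrank_top, Module.finrank_fintype_fun_eq_card] at h
    simp at h
  obtain ⟨α₂, β₂, he₂⟩ := hb u₁ hu₁
  obtain ⟨e₂, he₂, he₂a, he₂b⟩ : ∃ e₂, Cfsg.sympForm 2 F e₂ (Mi *ᵥ e₂) = -1 ∧ Cfsg.sympForm 2 F e₂ e₁ = 0 ∧
      Cfsg.sympForm 2 F e₂ (Mi *ᵥ e₁) = 0 := by
    refine ⟨_, he₂, ?_, ?_⟩
    · simp only [← hB, map_add, map_smul, LinearMap.add_apply, LinearMap.smul_apply, smul_eq_mul]
      rw [hB, hB, hu₁a, hadj, hu₁b]; ring
    · simp only [← hB, map_add, map_smul, LinearMap.add_apply, LinearMap.smul_apply, smul_eq_mul]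
      rw [hB, hB, hu₁b, hiso, hu₁a]; ring
  -- the change of basis
  let col : Fin 2 ⊕ Fin 2 → (Fin 2 ⊕ Fin 2 → F) := Sum.elim ![e₁, e₂] ![Mi *ᵥ e₁, Mi *ᵥ e₂]
  let Pm : Matrix (Fin 2 ⊕ Fin 2) (Fin 2 ⊕ Fin 2) F := Matrix.of fun i j => col j i
  have hPcol : ∀ j, Pm *ᵥ Pi.single j 1 = col j := fun j => by
    funext i; simp [Pm, Matrix.mulVec_single_one]
  have hgram : ∀ i j, Cfsg.sympForm 2 F (col i) (col j) = Matrix.J (Fin 2) F i j := by
    have e12a : Cfsg.sympForm 2 F e₁ e₂ = 0 := by rw [sympForm_swap, he₂a, neg_zero]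
    have e12b : Cfsg.sympForm 2 F (Mi *ᵥ e₁) e₂ = 0 := by rw [sympForm_swap, he₂b, neg_zero]
    have e12c : Cfsg.sympForm 2 F e₁ (Mi *ᵥ e₂) = 0 := by
      have := hadj e₁ e₂
      rw [e12b] at this
      exact neg_eq_zero.mp this.symm
    have e21c : Cfsg.sympForm 2 F (Mi *ᵥ e₂) e₁ = 0 := by rw [sympForm_swap, e12c, neg_zero]
    have e11 : Cfsg.sympForm 2 F (Mi *ᵥ e₁) e₁ = 1 := he₁'
    have e22 : Cfsg.sympForm 2 F (Mi *ᵥ e₂) e₂ = 1 := by rw [sympForm_swap, he₂, neg_neg]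
    intro i j
    rcases i with i | i <;> rcases j with j | j <;> fin_cases i <;> fin_cases j <;>
      simp [col, Matrix.J, Matrix.fromBlocks, sympForm_self, hiso, he₁, he₂, he₂a, he₂b, e12a, e12b, e12c, e21c, e11, e22]
  have hPJ : Pmᵀ * Matrix.J (Fin 2) F * Pm = Matrix.J (Fin 2) F := by
    ext i j
    rw [← hgram i j, Cfsg.sympForm]
    simp only [Matrix.mul_apply, Matrix.transpose_apply, Pm, Matrix.of_apply, dotProduct, Matrix.mulVec,
      Finset.sum_mul, Finset.mul_sum]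
    rw [Finset.sum_comm]
    exact Finset.sum_congr rfl fun a _ => Finset.sum_congr rfl fun b _ => by ring
  have hJdet : (Matrix.J (Fin 2) F).det ≠ 0 := (Matrix.isUnit_det_J (Fin 2) F).ne_zero
  have hPdet : Pm.det ≠ 0 := fun h => hJdet (by rw [← hPJ, Matrix.det_mul, Matrix.det_mul, Matrix.det_transpose, h]; ring)
  let P : GL (Fin 2 ⊕ Fin 2) F := Matrix.GeneralLinearGroup.mkOfDetNeZero Pm hPdet
  have hP : P ∈ Cfsg.spGL 2 F := fun u v => by
    show Cfsg.sympForm 2 F (Pm *ᵥ u) (Pm *ᵥ v) = _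
    rw [Cfsg.sympForm, Cfsg.sympForm, Matrix.dotProduct_mulVec, Matrix.dotProduct_mulVec, Matrix.vecMul_mulVec,
      Matrix.dotProduct_mulVec, Matrix.vecMul_vecMul, hPJ]
  have hPI : Mi * Pm = Pm * Matrix.J (Fin 2) F := by
    refine Matrix.toLin'.injective ((Pi.basisFun F (Fin 2 ⊕ Fin 2)).ext fun j => ?_)
    simp only [Pi.basisFun_apply, Matrix.toLin'_apply, ← Matrix.mulVec_mulVec, hPcol]
    have hJj : Matrix.J (Fin 2) F *ᵥ Pi.single j 1 = Sum.elim (fun i => Pi.single (Sum.inr i) 1)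
        (fun i => -Pi.single (Sum.inl i) 1) j := by
      funext i
      rcases i with i | i <;> rcases j with j | j <;> fin_cases i <;> fin_cases j <;>
        simp [Matrix.mulVec_single_one, Matrix.J, Matrix.fromBlocks]
    rw [hJj]
    rcases j with j | j <;> fin_cases j <;>
      simp [col, Matrix.mulVec_neg, hPcol, Matrix.mulVec_mulVec, hMi2, Matrix.neg_mulVec]
  -- the group
  let e : R₀ F ≃* ((R₀ F).map (MulAut.conj P).toMonoidHom : Subgroup (GL (Fin 2 ⊕ Fin 2) F)) :=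
    (R₀ F).equivMapOfInjective _ (MulAut.conj P).injective
  refine ⟨(R₀ F).map (MulAut.conj P).toMonoidHom, isSymplecticTypeGroup_congr e symplecticType,
    actsAbsolutelyIrreducibly_conj P irreducible, ?_, by rw [← Nat.card_congr e.toEquiv, card_R₀],
    by rw [← Nat.card_congr (Subgroup.centerCongr e).toEquiv, card_center], ?_, ?_⟩
  · have hPs : P ∈ similarityGroup (Cfsg.sympForm 2 F) := ⟨1, fun u v => by
      rw [Units.val_one, one_mul]; exact hP u v⟩
    rintro _ ⟨r, hr, rfl⟩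
    exact Subgroup.mul_mem _ (Subgroup.mul_mem _ hPs (le_similarity hr)) (Subgroup.inv_mem _ hPs)
  · intro A hA hsq
    haveI := hA
    let A' : Subgroup (R₀ F) := A.comap e.toMonoidHom
    have hA' : IsMulCommutative A' := ⟨⟨fun x y => Subtype.ext (e.injective (by
      rw [Subgroup.coe_mul, Subgroup.coe_mul, map_mul, map_mul]
      exact congrArg Subtype.val (mul_comm' (⟨e x, x.2⟩ : A) ⟨e y, y.2⟩)))⟩⟩
    have hlt := minusType (F := F) A' hA' fun x hx => e.injective (by rw [map_mul, map_one]; exact hsq _ hx)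
    have hcard : Nat.card A' = Nat.card A := Nat.card_congr
      { toFun := fun x => ⟨e x, x.2⟩
        invFun := fun y => ⟨e.symm y, by
          show e (e.symm y) ∈ A
          rw [MulEquiv.apply_symm_apply]; exact y.2⟩
        left_inv := fun x => Subtype.ext (e.symm_apply_apply _)
        right_inv := fun y => Subtype.ext (e.apply_symm_apply _) }
    rwa [hcard] at hlt
  rintro g ⟨hgK, hgS⟩
  -- the normalising element in standard coordinates
  set m : GL (Fin 2 ⊕ Fin 2) F := P⁻¹ * g * P with hm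
  have hmS : m ∈ Cfsg.spGL 2 F := Subgroup.mul_mem _ (Subgroup.mul_mem _ (Subgroup.inv_mem _ hP) hgS) hP
  obtain ⟨s, hs⟩ : ∃ s : Fin 2, (m : Matrix _ _ F) * Matrix.J (Fin 2) F =
      (if s = 0 then (1 : F) else -1) • (Matrix.J (Fin 2) F * (m : Matrix _ _ F)) := by
    have hx := (hgK Mi).mp ι.2
    have hx2 : (⟨_, hx⟩ : K) ^ 2 = -1 := Subtype.ext (by
      simp only [SubmonoidClass.coe_pow, pow_two, NegMemClass.coe_neg, OneMemClass.coe_one]
      calc (g : Matrix _ _ F) * Mi * ((g⁻¹ : GL _ F) : Matrix _ _ F) * ((g : Matrix _ _ F) * Mi * ((g⁻¹ : GL _ F) : Matrix _ _ F))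
          = (g : Matrix _ _ F) * (Mi * Mi) * ((g⁻¹ : GL _ F) : Matrix _ _ F) := by simp [mul_assoc]
        _ = -1 := by simp [hMi2])
    have hswap : ∀ c : F, (g : Matrix _ _ F) * Mi * ((g⁻¹ : GL _ F) : Matrix _ _ F) = c • Mi →
        (m : Matrix _ _ F) * Matrix.J (Fin 2) F = c • (Matrix.J (Fin 2) F * (m : Matrix _ _ F)) := by
      intro c hc
      have hg' : (g : Matrix _ _ F) * Mi = c • (Mi * (g : Matrix _ _ F)) := by
        rw [← smul_mul_assoc, ← hc, Units.inv_mul_cancel_right]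
      have hPv : (P : Matrix _ _ F) = Pm := rfl
      have hJ : Matrix.J (Fin 2) F = ((P⁻¹ : GL _ F) : Matrix _ _ F) * Mi * (P : Matrix _ _ F) := by
        rw [mul_assoc, hPv, hPI, ← hPv, Units.inv_mul_cancel_left]
      rw [hJ, hm, Units.val_mul, Units.val_mul]
      simp only [mul_assoc, Units.mul_inv_cancel_left]
      rw [← mul_assoc (g : Matrix _ _ F) Mi, hg']
      simp [mul_assoc]
    rcases hroot _ hx2 with h | h
    · exact ⟨0, hswap _ (by rw [show (g : Matrix _ _ F) * Mi * ((g⁻¹ : GL _ F) : Matrix _ _ F) = Mi from congrArg Subtype.val h]; simp)⟩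
    · exact ⟨1, hswap _ (by rw [show (g : Matrix _ _ F) * Mi * ((g⁻¹ : GL _ F) : Matrix _ _ F) = -Mi from congrArg Subtype.val h]; simp)⟩
  choose n hn hnc using fun i j => hsurj ((m : Matrix (Fin 2 ⊕ Fin 2) (Fin 2 ⊕ Fin 2) F) (idx.symm i) (idx.symm j))
  let u : Fin 81 := ⟨n 0 0 + n 1 0 * 3 + n 2 0 * 9 + n 3 0 * 27, by
    have := hn 0 0; have := hn 1 0; have := hn 2 0; have := hn 3 0; omega⟩
  let v : Fin 81 := ⟨n 0 1 + n 1 1 * 3 + n 2 1 * 9 + n 3 1 * 27, by
    have := hn 0 1; have := hn 1 1; have := hn 2 1; have := hn 3 1; omega⟩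
  have hu : ∀ i, vec u i = n i 0 := fun i => by
    have := hn 0 0; have := hn 1 0; have := hn 2 0; have := hn 3 0
    fin_cases i <;> simp [MinusFour.vec, u] <;> omega
  have hv : ∀ i, vec v i = n i 1 := fun i => by
    have := hn 0 1; have := hn 1 1; have := hn 2 1; have := hn 3 1
    fin_cases i <;> simp [MinusFour.vec, v] <;> omega
  have hfwd : idx (Sum.inl 0) = 0 ∧ idx (Sum.inl 1) = 1 ∧ idx (Sum.inr 0) = 2 ∧ idx (Sum.inr 1) = 3 := by decide
  have hsym : idx.symm 0 = Sum.inl 0 ∧ idx.symm 1 = Sum.inl 1 ∧ idx.symm 2 = Sum.inr 0 ∧ idx.symm 3 = Sum.inr 1 := by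
    decide
  have h2n : (2 : F) = -1 := by linear_combination h3
  have hJcol : ∀ (i : Fin 2 ⊕ Fin 2) (k : Fin 2), (m : Matrix (Fin 2 ⊕ Fin 2) (Fin 2 ⊕ Fin 2) F) i (Sum.inr k) =
      (if s = 0 then (1 : F) else -1) * Sum.elim
        (fun a => -(m : Matrix (Fin 2 ⊕ Fin 2) (Fin 2 ⊕ Fin 2) F) (Sum.inr a) (Sum.inl k))
        (fun a => (m : Matrix (Fin 2 ⊕ Fin 2) (Fin 2 ⊕ Fin 2) F) (Sum.inl a) (Sum.inl k)) i := by
    intro i k
    have h1 := congrFun (congrFun hs i) (Sum.inl k)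
    rcases i with i | i <;>
      simpa [Matrix.mul_apply, Matrix.J, Matrix.fromBlocks, Fintype.sum_sum_type, Matrix.one_apply,
        Matrix.smul_apply] using h1
  have hkey : ∀ i j : Fin 4, (mkN s (MinusFour.vec u) (MinusFour.vec v) i j : F) =
      (m : Matrix (Fin 2 ⊕ Fin 2) (Fin 2 ⊕ Fin 2) F) (idx.symm i) (idx.symm j) := by
    obtain ⟨i0, i1, i2, i3⟩ := hsym
    intro i j
    fin_cases j
    · simp [mkN, hu, hnc]
    · simp [mkN, hv, hnc]
    · fin_cases i <;> fin_cases s <;> simp [mkN, sI, hu, hnc, cast_mod, i0, i1, i2, i3, hJcol, h2n]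
    · fin_cases i <;> fin_cases s <;> simp [mkN, sI, hv, hnc, cast_mod, i0, i1, i2, i3, hJcol, h2n]
  have hmat : toM F (mkN s (MinusFour.vec u) (MinusFour.vec v)) = (m : Matrix (Fin 2 ⊕ Fin 2) (Fin 2 ⊕ Fin 2) F) := by
    ext i j
    simpa [toM] using hkey (idx i) (idx j)
  have hform : ∀ a b : Fin 4 → ℕ, (omN a b : F) =
      Cfsg.sympForm 2 F (fun i => (a (idx i) : F)) (fun i => (b (idx i) : F)) := by
    intro a b
    simp [omN, cast_mod, Cfsg.sympForm, dotProduct, Matrix.mulVec, Matrix.J, Matrix.fromBlocks,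
      Fintype.sum_sum_type, Fin.sum_univ_two, hfwd.1, hfwd.2.1, hfwd.2.2.1, hfwd.2.2.2]
    linear_combination ((a 0 : F) * (b 2 : F) + (a 1 : F) * (b 3 : F)) * h3
  have hcols : ∀ k : Fin 2 ⊕ Fin 2, (fun i => (m : Matrix (Fin 2 ⊕ Fin 2) (Fin 2 ⊕ Fin 2) F) i k) = (m : Matrix (Fin 2 ⊕ Fin 2) (Fin 2 ⊕ Fin 2) F) *ᵥ Pi.single k 1 :=
    fun k => by funext i; simp [Matrix.mulVec_single_one]
  have hmform : ∀ k l, Cfsg.sympForm 2 F (fun i => (m : Matrix (Fin 2 ⊕ Fin 2) (Fin 2 ⊕ Fin 2) F) i k) (fun i => (m : Matrix (Fin 2 ⊕ Fin 2) (Fin 2 ⊕ Fin 2) F) i l) =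
      Matrix.J (Fin 2) F k l := fun k l => by
    rw [hcols, hcols]
    refine (hmS _ _).trans ?_
    simp [Cfsg.sympForm, Matrix.mulVec_single_one, Matrix.J]
  have hcolv : ∀ (j : Fin 4), (fun i => (mkN s (vec u) (vec v) (idx i) j : F)) =
      fun i => (m : Matrix (Fin 2 ⊕ Fin 2) (Fin 2 ⊕ Fin 2) F) i (idx.symm j) := fun j => by
    funext i
    have := congrFun (congrFun hmat i) (idx.symm j)
    simpa [toM] using this
  have hlt2 : ∀ a b : Fin 4 → ℕ, omN a b < 3 := fun a b => Nat.mod_lt _ (by norm_num)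
  have c1 : omN (vec u) (sI s (vec u)) = 2 := cast_inj (hlt2 _ _) (by norm_num) (by
    rw [hform]
    refine (congrArg₂ _ (hcolv 0) (hcolv 2)).trans ((hmform _ _).trans ?_)
    simp [hsym.1, hsym.2.1, hsym.2.2.1, hsym.2.2.2, Matrix.J, Matrix.fromBlocks]
    linear_combination -h3)
  have c2 : omN (vec v) (sI s (vec v)) = 2 := cast_inj (hlt2 _ _) (by norm_num) (by
    rw [hform]
    refine (congrArg₂ _ (hcolv 1) (hcolv 3)).trans ((hmform _ _).trans ?_)
    simp [hsym.1, hsym.2.1, hsym.2.2.1, hsym.2.2.2, Matrix.J, Matrix.fromBlocks]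
    linear_combination -h3)
  have c3 : omN (vec u) (vec v) = 0 := cast_inj (hlt2 _ _) (by norm_num) (by
    rw [hform]
    refine (congrArg₂ _ (hcolv 0) (hcolv 1)).trans ((hmform _ _).trans ?_)
    simp [hsym.1, hsym.2.1, hsym.2.2.1, hsym.2.2.2, Matrix.J, Matrix.fromBlocks])
  have c4 : omN (vec u) (sI s (vec v)) = 0 := cast_inj (hlt2 _ _) (by norm_num) (by
    rw [hform]
    refine (congrArg₂ _ (hcolv 0) (hcolv 3)).trans ((hmform _ _).trans ?_)
    simp [hsym.1, hsym.2.1, hsym.2.2.1, hsym.2.2.2, Matrix.J, Matrix.fromBlocks])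
  have hN := normal s u c1 v c2 c3 c4
  have hinv : ((m⁻¹ : GL (Fin 2 ⊕ Fin 2) F) : Matrix _ _ F) = toM F (invN (mkN s (vec u) (vec v))) := by
    refine left_inv_eq_right_inv (Units.inv_mul m) ?_
    rw [← hmat, toM_eq_of_enc (hN 0).2, toM_one]
  have hnorm : (R₀ F).map (MulAut.conj m).toMonoidHom = R₀ F := map_eq fun k => by
    obtain ⟨c, hc⟩ := exists_mat (F := F) (hN k).1
    refine ⟨c, ?_⟩
    rw [← hc, toM_enc (mulN_lt _ _), toM_mulN, toM_mulN, Units.val_mul, Units.val_mul, hinv, hmat]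
    rfl
  rw [subgroupNormalizer, Subgroup.mem_normalizer_iff_map_conj_eq, Subgroup.map_map]
  have hcomp : ((MulAut.conj g : MulAut (GL (Fin 2 ⊕ Fin 2) F)) : GL (Fin 2 ⊕ Fin 2) F →* GL (Fin 2 ⊕ Fin 2) F).comp
      (MulAut.conj P).toMonoidHom = (MulAut.conj P).toMonoidHom.comp (MulAut.conj m).toMonoidHom := by
    ext x : 1
    simp [hm, mul_assoc]
  rw [hcomp, ← Subgroup.map_map, hnorm]

end Cfsg.Agent.ClassicalMax
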