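import Cfsg.Agent.ClassicalMax.OmegaProper
import Cfsg.Agent.MaxSub.LinearClasses

/-!
The maximal subgroups of `Ω_7(q)`, `q` odd, given the orthogonal dichotomy.
-/

set_option autoImplicit false
set_option linter.style.haveILetI false

namespace Cfsg.Agent.ClassicalMax

open Matrix Cfsg.Geo QuadraticMap Module
open scoped MatrixGroups Matrix commutatorElement

variable {F : Type*} [Field F] [Fintype F]

theorem card_I7 : Fintype.card I7 = 7 := rfl

/-- The orthogonal of a non-degenerate subspace. -/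
theorem exists_orthogonal_complement (h2 : (2 : F) ≠ 0) {W : Submodule F (I7 → F)}
    (hW : IsNondegenerateOn (polar (Q7 F)) W) :
    ∃ U : Submodule F (I7 → F), finrank F U + finrank F W = 7 ∧ IsNondegenerateOn (polar (Q7 F)) U ∧
      subspaceStabilizer W ⊓ Cfsg.isometryGroup F (Cfsg.quadFormOdd 3 F) ≤ subspaceStabilizer U := by
  let Λ : (I7 → F) →ₗ[F] Module.Dual F W :=
    { toFun := fun x => ((polarBilin (Q7 F)) x).comp W.subtype
      map_add' := fun x y => by rw [map_add, LinearMap.add_comp]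
      map_smul' := fun c x => by rw [RingHom.id_apply, map_smul, LinearMap.smul_comp] }
  have hΛ : ∀ x (w : W), Λ x w = polar (Q7 F) x w := fun x w => rfl
  have hinj : Function.Injective (Λ.comp W.subtype) := by
    rw [← LinearMap.ker_eq_bot, LinearMap.ker_eq_bot']
    intro w hw
    by_contra h0
    obtain ⟨-, x, hx, hne⟩ := hW w w.2 fun h => h0 (Subtype.ext h)
    exact hne (LinearMap.congr_fun hw ⟨x, hx⟩)
  have hsurj : Function.Surjective (Λ.comp W.subtype) :=
    (LinearMap.injective_iff_surjective_of_finrank_eq_finrank (Subspace.dual_finrank_eq).symm).mp hinj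
  have hsurj' : Function.Surjective Λ := fun l => by
    obtain ⟨w, hw⟩ := hsurj l
    exact ⟨w, hw⟩
  have hmem : ∀ x, x ∈ LinearMap.ker Λ ↔ ∀ w ∈ W, polar (Q7 F) x w = 0 := fun x =>
    ⟨fun h w hw => LinearMap.congr_fun (LinearMap.mem_ker.mp h) ⟨w, hw⟩,
      fun h => LinearMap.mem_ker.mpr (LinearMap.ext fun w => h w w.2)⟩
  refine ⟨LinearMap.ker Λ, ?_, fun x hx hx0 => ?_, ?_⟩
  · have h := LinearMap.finrank_range_add_finrank_ker Λ
    rw [LinearMap.range_eq_top.mpr hsurj', finrank_top, Subspace.dual_finrank_eq,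
      Module.finrank_fintype_fun_eq_card, card_I7] at h
    omega
  · obtain ⟨v, hv⟩ := exists_polar7_ne_zero h2 hx0
    obtain ⟨w, hw⟩ := hsurj (Λ v)
    have hu : v - (w : I7 → F) ∈ LinearMap.ker Λ := by
      rw [LinearMap.mem_ker, map_sub, ← hw]
      exact sub_self _
    have hne : polar (Q7 F) x (v - (w : I7 → F)) ≠ 0 := by
      rw [polar_sub_right, (hmem x).mp hx w w.2, sub_zero]
      exact hv
    exact ⟨⟨_, hu, by rw [polar_comm]; exact hne⟩, ⟨_, hu, hne⟩⟩
  · rintro g ⟨hgW, hg⟩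
    refine GeoClasses.mem_subspaceStabilizer_of_le fun x hx => ?_
    rw [hmem] at hx ⊢
    intro w hw
    have hw' : ((g⁻¹ : GL I7 F) : Matrix I7 I7 F) *ᵥ w ∈ W := by
      rw [GeoClasses.mem_subspaceStabilizer_iff.mp hgW, Matrix.mulVec_mulVec, ← Units.val_mul, mul_inv_cancel,
        Units.val_one, Matrix.one_mulVec]
      exact hw
    have h := isometry_polar hg x (((g⁻¹ : GL I7 F) : Matrix I7 I7 F) *ᵥ w)
    rw [Matrix.mulVec_mulVec, ← Units.val_mul, mul_inv_cancel, Units.val_one, Matrix.one_mulVec, hx _ hw'] at h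
    exact h

/-- Over three elements the stabiliser of a hyperbolic line fixes an anisotropic point. -/
theorem exists_point_of_plus_three (hF : Fintype.card F = 3) (h2 : (2 : F) ≠ 0) {W : Submodule F (I7 → F)}
    (hW : IsNondegenerateOn (polar (Q7 F)) W) (hd : finrank F W = 2)
    (hplus : IsPlusTypeOn (Cfsg.quadFormOdd 3 F) W) :
    ∃ a, Q7 F a ≠ 0 ∧ subspaceStabilizer W ⊓ Cfsg.isometryGroup F (Cfsg.quadFormOdd 3 F) ≤
      subspaceStabilizer (F ∙ a) := by
  obtain ⟨U, hUW, hUts, hUd⟩ := hplus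
  have hU1 : finrank F U = 1 := Nat.eq_of_mul_eq_mul_left two_pos (hUd.trans hd)
  obtain ⟨u, hu, hu0⟩ := Submodule.exists_mem_ne_zero_of_ne_bot (p := U) fun h => by
    rw [h, finrank_bot] at hU1; exact zero_ne_one hU1
  have hQu : Q7 F u = 0 := by rw [← hUts u hu, quadFormOdd_eq]
  obtain ⟨-, x, hx, hne⟩ := hW u (hUW hu) hu0
  have huu : polar (Q7 F) u u = 0 := by rw [Forms.polar_self_eq, hQu, mul_zero]
  set k := (polar (Q7 F) u x)⁻¹
  set v := k • x - (k ^ 2 * Q7 F x) • u with hv
  have hkp : k * polar (Q7 F) u x = 1 := inv_mul_cancel₀ hne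
  have huv : polar (Q7 F) u v = 1 := by
    rw [hv, polar_sub_right, polar_smul_right, polar_smul_right, huu, smul_zero, sub_zero, smul_eq_mul, hkp]
  have hQv : Q7 F v = 0 := by
    rw [hv, sub_eq_add_neg, ← neg_smul, QuadraticMap.map_add (Q7 F), QuadraticMap.map_smul,
      QuadraticMap.map_smul, hQu, polar_smul_left, polar_smul_right, polar_comm _ x u]
    simp only [smul_eq_mul]
    linear_combination (-(k ^ 2) * Q7 F x) * hkp
  have hvW : v ∈ W := W.sub_mem (W.smul_mem _ hx) (W.smul_mem _ (hUW hu))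
  -- `u, v` span `W`
  have hspan : ∀ w ∈ W, ∃ s t : F, w = s • u + t • v := by
    intro w hw
    have hli : LinearIndependent F ![(⟨u, hUW hu⟩ : W), ⟨v, hvW⟩] := by
      rw [LinearIndependent.pair_iff]
      intro s t hst
      have hst' : s • u + t • v = 0 := congrArg Subtype.val hst
      have h1 := congrArg (polar (Q7 F) u) hst'
      have h2' := congrArg (polar (Q7 F) v) hst'
      simp only [polar_add_right, polar_smul_right, huu, huv, polar_comm _ v u, smul_eq_mul,
        polar_zero_right, Forms.polar_self_eq, hQv, mul_zero, mul_one, zero_add, add_zero] at h1 h2'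
      exact ⟨h2', h1⟩
    have htop := hli.span_eq_top_of_card_eq_finrank (by rw [hd]; rfl)
    have : (⟨w, hw⟩ : W) ∈ Submodule.span F (Set.range ![(⟨u, hUW hu⟩ : W), ⟨v, hvW⟩]) := htop ▸ trivial
    rw [Submodule.mem_span_range_iff_exists_fun] at this
    obtain ⟨c, hc⟩ := this
    refine ⟨c 0, c 1, ?_⟩
    have := congrArg Subtype.val hc
    simpa [Fin.sum_univ_two] using this.symm
  refine ⟨u + v, ?_, ?_⟩
  · rw [QuadraticMap.map_add (Q7 F), hQu, hQv, huv]
    simp
  rintro g ⟨hgW, hg⟩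
  have hg' := GeoClasses.mem_subspaceStabilizer_iff.mp hgW
  obtain ⟨s₁, t₁, e1⟩ := hspan _ ((hg' u).mp (hUW hu))
  obtain ⟨s₂, t₂, e2⟩ := hspan _ ((hg' v).mp hvW)
  have q1 := isometry_apply hg u
  have q2 := isometry_apply hg v
  have p12 := isometry_polar hg u v
  rw [e1, QuadraticMap.map_add (Q7 F), QuadraticMap.map_smul, QuadraticMap.map_smul, hQu, hQv,
    polar_smul_left, polar_smul_right, huv] at q1
  rw [e2, QuadraticMap.map_add (Q7 F), QuadraticMap.map_smul, QuadraticMap.map_smul, hQu, hQv,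
    polar_smul_left, polar_smul_right, huv] at q2
  rw [e1, e2] at p12
  simp only [polar_add_left, polar_add_right, polar_smul_left, polar_smul_right, huu, huv, polar_comm _ v u,
    Forms.polar_self_eq, hQv, hQu, smul_eq_mul, mul_zero, mul_one, zero_add, add_zero] at p12 q1 q2
  have hsq : ∀ c : F, c ≠ 0 → c ^ 2 = 1 := fun c hc => by simpa [hF] using FiniteField.pow_card_sub_one_eq_one c hc
  obtain ⟨c, hc⟩ : ∃ c, (g : Matrix I7 I7 F) *ᵥ (u + v) = c • (u + v) := by
    rcases mul_eq_zero.mp q1 with h | h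
    · simp only [h, mul_zero, zero_mul, add_zero, zero_add] at p12
      rw [h] at e1
      have ht1 : t₁ ≠ 0 := fun h0 => by rw [h0] at p12; simp at p12
      have hs2 : s₂ ≠ 0 := fun h0 => by rw [h0] at p12; simp at p12
      have ht2 : t₂ = 0 := (mul_eq_zero.mp q2).resolve_left hs2
      have heq : s₂ = t₁ := mul_left_cancel₀ ht1 (by linear_combination p12 - hsq t₁ ht1)
      refine ⟨t₁, ?_⟩
      subst ht2; subst heq
      rw [Matrix.mulVec_add, e1, e2]; module
    · simp only [h, mul_zero, zero_mul, add_zero, zero_add] at p12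
      rw [h] at e1
      have hs1 : s₁ ≠ 0 := fun h0 => by rw [h0] at p12; simp at p12
      have ht2 : t₂ ≠ 0 := fun h0 => by rw [h0] at p12; simp at p12
      have hs2 : s₂ = 0 := (mul_eq_zero.mp q2).resolve_right ht2
      have heq : t₂ = s₁ := mul_left_cancel₀ hs1 (by linear_combination p12 - hsq s₁ hs1)
      refine ⟨s₁, ?_⟩
      subst hs2; subst heq
      rw [Matrix.mulVec_add, e1, e2]; module
  refine GeoClasses.mem_subspaceStabilizer_of_le fun z hz => ?_
  obtain ⟨r, rfl⟩ := Submodule.mem_span_singleton.mp hz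
  rw [Matrix.mulVec_smul, hc, smul_smul]
  exact Submodule.mem_span_singleton.mpr ⟨r * c, rfl⟩

/-- The orthogonal dichotomy in dimension seven. -/
def OrthogonalDichotomy7 (F : Type*) [Field F] [Fintype F] : Prop :=
  ∀ H : Subgroup (GL I7 F), H ≤ omega7 F → H ⊔ (scalars I7 F ⊓ omega7 F) ≠ omega7 F →
    (∃ M, InOrthogonalOddClass 3 F M ∧ H ≤ M) ∨ InOrthogonalResidualClass H

theorem omega7_cases (hodd : Odd (Fintype.card F)) (hdich : OrthogonalDichotomy7 F) {H : Subgroup (GL I7 F)}
    (hH : IsMaximalIn (omega7 F) H) :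
    (∃ W : Submodule F (I7 → F), W ≠ ⊥ ∧ IsTotallySingularQuad (Cfsg.quadFormOdd 3 F) W ∧
      H = subspaceStabilizer W ⊓ omega7 F) ∨
    (∃ W : Submodule F (I7 → F), W ≠ ⊥ ∧ Even (Module.finrank F W) ∧
      IsNondegenerateOn (QuadraticMap.polar (Cfsg.quadFormOdd 3 F)) W ∧
      ¬ (Fintype.card F = 3 ∧ Module.finrank F W = 2 ∧ IsPlusTypeOn (Cfsg.quadFormOdd 3 F) W) ∧
      H = subspaceStabilizer W ⊓ omega7 F) ∨
    ((Fintype.card F).Prime ∧ ∃ D : Fin 7 → Submodule F (I7 → F),
      IsOrthogonalMDecomposition (Cfsg.quadFormOdd 3 F) 1 D ∧ H = decompositionStabilizer D ⊓ omega7 F) ∨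
    (∃ (F₀ : Subfield F) (r : ℕ) (P : GL I7 F), r.Prime ∧ Fintype.card F = Nat.card F₀ ^ r ∧
      IsQuadFormRationalStructure (Cfsg.quadFormOdd 3 F) F₀ P ∧ H = subfieldSubgroup F₀ P ⊓ omega7 F) ∨
    InOrthogonalResidualClass H := by
  have h2 : (2 : F) ≠ 0 := Classical.two_ne_zero_of_odd (by rwa [Nat.card_eq_fintype_card])
  have hperf := omega7_commutator (F := F) h2
  have hQ := quadFormOdd_eq (F := F)
  -- a non-degenerate subspace gives the second type
  have hnondeg : ∀ W : Submodule F (I7 → F), W ≠ ⊥ → W ≠ ⊤ → IsNondegenerateOn (polar (Q7 F)) W →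
      H ≤ subspaceStabilizer W →
      ∃ W : Submodule F (I7 → F), W ≠ ⊥ ∧ Even (Module.finrank F W) ∧
        IsNondegenerateOn (polar (Q7 F)) W ∧
        ¬ (Fintype.card F = 3 ∧ Module.finrank F W = 2 ∧ IsPlusTypeOn (Cfsg.quadFormOdd 3 F) W) ∧
        H = subspaceStabilizer W ⊓ omega7 F := by
    intro W hb ht hW hle
    obtain ⟨E, hEb, hEt, hEeven, hE, hleE⟩ : ∃ E : Submodule F (I7 → F), E ≠ ⊥ ∧ E ≠ ⊤ ∧ Even (finrank F E) ∧
        IsNondegenerateOn (polar (Q7 F)) E ∧ H ≤ subspaceStabilizer E := by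
      rcases Nat.even_or_odd (finrank F W) with he | ho
      · exact ⟨W, hb, ht, he, hW, hle⟩
      · obtain ⟨U, hd, hU, hle'⟩ := exists_orthogonal_complement h2 hW
        have hlt : finrank F W < 7 := by
          have := Submodule.finrank_lt ht
          rwa [Module.finrank_fintype_fun_eq_card, card_I7] at this
        refine ⟨U, fun h => ?_, fun h => ?_, ?_, hU, (le_inf hle (hH.1.le.trans omega7_le_isometry)).trans hle'⟩
        · rw [h, finrank_bot] at hd; omega
        · rw [h, finrank_top, Module.finrank_fintype_fun_eq_card, card_I7] at hd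
          exact hb (Submodule.finrank_eq_zero.mp (by omega))
        · obtain ⟨j, hj⟩ := ho
          exact ⟨3 - j, by omega⟩
    by_cases hexc : Fintype.card F = 3 ∧ finrank F E = 2 ∧ IsPlusTypeOn (Cfsg.quadFormOdd 3 F) E
    · obtain ⟨a, ha, hlea⟩ := exists_point_of_plus_three hexc.1 h2 hE hexc.2.1 hexc.2.2
      have ha0 : a ≠ 0 := fun h => ha (by rw [h, QuadraticMap.map_zero])
      have hA : IsNondegenerateOn (polar (Q7 F)) (F ∙ a) := by
        intro x hx hx0
        obtain ⟨r, rfl⟩ := Submodule.mem_span_singleton.mp hx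
        have hr : r ≠ 0 := fun h => hx0 (by rw [h, zero_smul])
        have hne : polar (Q7 F) (r • a) a ≠ 0 := by
          rw [polar_smul_left, Forms.polar_self_eq, smul_eq_mul]
          exact mul_ne_zero hr (mul_ne_zero h2 ha)
        exact ⟨⟨a, Submodule.mem_span_singleton_self a, by rw [polar_comm]; exact hne⟩,
          ⟨a, Submodule.mem_span_singleton_self a, hne⟩⟩
      obtain ⟨U, hd, hU, hle'⟩ := exists_orthogonal_complement h2 hA
      rw [finrank_span_singleton ha0] at hd
      refine ⟨U, fun h => ?_, ⟨3, by omega⟩, hU, fun h => by omega, ?_⟩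
      · rw [h, finrank_bot] at hd; omega
      · have hHiso := hH.1.le.trans omega7_le_isometry
        refine eq_inf_max hH ((le_inf ((le_inf hleE hHiso).trans hlea) hHiso).trans hle') ?_
        refine omega7_not_le_stabilizer h2 (fun h => ?_) (fun h => ?_)
        · rw [h, finrank_bot] at hd; omega
        · rw [h, finrank_top, Module.finrank_fintype_fun_eq_card, card_I7] at hd; omega
    · exact ⟨E, hEb, hEeven, hE, hexc, eq_inf_max hH hleE (omega7_not_le_stabilizer h2 hEb hEt)⟩
  rcases hdich H hH.1.le (sup_scalars_ne_of_perfect hperf hH) with ⟨M, hM, hle⟩ | hres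
  swap
  · iterate 4 right
    exact hres
  have hcard : ∀ {α β : Type} [Fintype α] [Fintype β], (α ≃ β) → Fintype.card α = Fintype.card β :=
    fun e => Fintype.card_congr e
  rcases hM with ⟨W, hb, hts, rfl⟩ | ⟨W, hb, ht, hnd, rfl⟩ | ⟨t, k, D, hk, hD, rfl⟩ | ⟨t, D, hp, hD, rfl⟩ |
    ⟨r, K, hr, hr7, hK, -, rfl⟩ | ⟨n₁, n₂, e, P, f₁, f₂, h1, h12, -, -, -, rfl⟩ |
    ⟨F₀, r, P, hr, hc, hrat, rfl⟩ | ⟨k, t, e, P, f₁, hk, ht, -, -, -, rfl⟩
  · refine Or.inl ⟨W, hb, hts, eq_inf_max hH (hle.trans inf_le_left) (omega7_not_le_stabilizer h2 hb fun h => ?_)⟩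
    have := hts (Pi.single (.inl ()) 1) (h ▸ Submodule.mem_top)
    simp [Cfsg.quadFormOdd] at this
  · right; left
    rw [hQ] at hnd
    obtain ⟨E, h1, h2', h3, h4, h5⟩ := hnondeg W hb ht hnd (hle.trans inf_le_left)
    exact ⟨E, h1, h2', by rw [hQ]; exact h3, h4, h5⟩
  · exfalso
    have htk := MaxSub.mul_eq_card_of_isMDecomposition hD.decomp.decomp
    rw [card_I7] at htk
    have := hD.decomp.decomp.two_le
    have : t ≤ 3 := by nlinarith
    interval_cases t <;> omega
  · right; right; left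
    have ht : t = 7 := by
      have := MaxSub.mul_eq_card_of_isMDecomposition hD.decomp.decomp
      rwa [card_I7, mul_one] at this
    subst ht
    exact ⟨hp, D, hD, eq_inf_max hH (hle.trans inf_le_left)
      (omega7_not_le_decompositionStabilizer h2 (hQ ▸ hD.decomp))⟩
  · exfalso
    have := MaxSub.degree_dvd_card hK
    rw [card_I7] at this
    exact hr7 ((Nat.prime_dvd_prime_iff_eq hr (by norm_num)).mp this).symm
  · exfalso
    have := hcard e
    rw [card_I7, Fintype.card_prod, Fintype.card_fin, Fintype.card_fin] at this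
    nlinarith
  · iterate 3 right
    exact Or.inl ⟨F₀, r, P, hr, hc, hrat, eq_inf_max hH (hle.trans inf_le_left)
      (omega7_not_le_subfieldSubgroup h2 (MaxSub.subfield_ne_top hr hc) P)⟩
  · exfalso
    have := hcard e
    rw [card_I7, Fintype.card_fun, Fintype.card_fin, Fintype.card_fin] at this
    have : 3 ^ 2 ≤ k ^ t := (Nat.pow_le_pow_left hk 2).trans (Nat.pow_le_pow_right (by omega) ht)
    omega

end Cfsg.Agent.ClassicalMax
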