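import Cfsg.Agent.ClassicalMax.FormProper
import Cfsg.Agent.Classical.OrthFinal
import Cfsg.Agent.InvClasses25.Orth
import Cfsg.Agent.Forms.Quadratic

/-!
`Ω_7(q)`, `q` odd: perfectness, products of two reflections, and properness of the members.
-/

set_option autoImplicit false
set_option linter.style.haveILetI false

namespace Cfsg.Agent.ClassicalMax

open Matrix Cfsg.Geo QuadraticMap
open Cfsg.Agent.Classical (oddQF oddQF_apply OQ reflQ reflQ_apply isometryGroupEquiv isometryGroupEquiv_apply)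
open scoped MatrixGroups Matrix commutatorElement

variable {F : Type*} [Field F]

/-- The index type of dimension seven. -/
abbrev I7 : Type := Unit ⊕ (Fin 3 ⊕ Fin 3)

/-- The standard quadratic form in dimension seven. -/
noncomputable abbrev Q7 (F : Type*) [Field F] : QuadraticForm F (I7 → F) := oddQF 3 F

theorem quadFormOdd_eq : Cfsg.quadFormOdd 3 F = ⇑(Q7 F) := funext fun v => (oddQF_apply 3 v).symm

/-- The abbreviation for `Ω_7`. -/
abbrev omega7 (F : Type*) [Field F] : Subgroup (GL I7 F) := omegaGL (Cfsg.quadFormOdd 3 F)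

theorem omega7_commutator [Finite F] (h2 : (2 : F) ≠ 0) : ⁅omega7 F, omega7 F⁆ = omega7 F := by
  obtain ⟨h1, hp, hgen⟩ := (Classical.goodCore_sq h2).hypExt_data 0
  set Q2 := Classical.hypExt (0 + 2) (QuadraticMap.sq : QuadraticForm F F)
  have he : ∀ v, Classical.hypAdd Q2 (((Classical.oddEquiv (F := F) (0 + 3)).trans (Classical.hypSplit (0 + 2))) v) =
      Q7 F v := fun v => by
    rw [LinearEquiv.trans_apply, Classical.hypSplit_spec, Classical.oddEquiv_spec]
  let Φ := (isometryGroupEquiv (Cfsg.quadFormOdd 3 F) (Q7 F) (oddQF_apply 3)).trans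
    (Classical.OQCongr _ he)
  have hperf : ⁅commutator (OQ (Classical.hypAdd Q2)), commutator (OQ (Classical.hypAdd Q2))⁆ =
      commutator (OQ (Classical.hypAdd Q2)) := by
    rw [Classical.commutator_OQ_eq h1 hp hgen]
    exact (Classical.EQ_perfect h1.qNondeg hp).symm
  have hO : ⁅Cfsg.Omega F (Cfsg.quadFormOdd 3 F), Cfsg.Omega F (Cfsg.quadFormOdd 3 F)⁆ =
      Cfsg.Omega F (Cfsg.quadFormOdd 3 F) := by
    apply Subgroup.map_injective (f := Φ.toMonoidHom) Φ.injective
    rw [Subgroup.map_commutator, Classical.map_commutator_top_of_equiv Φ]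
    exact hperf
  show ⁅(Cfsg.Omega F _).map _, (Cfsg.Omega F _).map _⁆ = _
  rw [← Subgroup.map_commutator, hO]
  rfl

theorem omega7_le_isometry : omega7 F ≤ Cfsg.isometryGroup F (Cfsg.quadFormOdd 3 F) := by
  rintro _ ⟨g, -, rfl⟩
  exact g.2

theorem isometry_apply {g : GL I7 F} (hg : g ∈ Cfsg.isometryGroup F (Cfsg.quadFormOdd 3 F)) (v : I7 → F) :
    Q7 F ((g : Matrix I7 I7 F) *ᵥ v) = Q7 F v := by
  have h := hg v v
  simp only [Units.coeHom_apply] at h
  rw [← oddQF_apply, ← oddQF_apply] at h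
  exact h

theorem isometry_polar {g : GL I7 F} (hg : g ∈ Cfsg.isometryGroup F (Cfsg.quadFormOdd 3 F)) (u v : I7 → F) :
    polar (Q7 F) ((g : Matrix I7 I7 F) *ᵥ u) ((g : Matrix I7 I7 F) *ᵥ v) = polar (Q7 F) u v := by
  simp only [polar, ← Matrix.mulVec_add, isometry_apply hg]

/-- The reflection in a vector, as a function. -/
noncomputable def refl7 (a v : I7 → F) : I7 → F := v - ((Q7 F a)⁻¹ * polar (Q7 F) a v) • a

theorem refl7_fix {a v : I7 → F} (h : polar (Q7 F) a v = 0) : refl7 a v = v := by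
  simp [refl7, h]

/-- Products of two reflections of equal value lie in `Ω`. -/
theorem exists_omega7_reflPair (h2 : (2 : F) ≠ 0) {a b : I7 → F} (ha : Q7 F a ≠ 0) (hab : Q7 F a = Q7 F b) :
    ∃ g ∈ omega7 F, ∀ v, (g : Matrix I7 I7 F) *ᵥ v = refl7 a (refl7 b v) := by
  have hb : Q7 F b ≠ 0 := hab ▸ ha
  have hmem := InvClasses25.refl_mul_refl_mem_commutator (Q7 F) h2 ha hb hab
  let Φ := isometryGroupEquiv (Cfsg.quadFormOdd 3 F) (Q7 F) (oddQF_apply 3)
  rw [← Classical.map_commutator_top_of_equiv Φ] at hmem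
  obtain ⟨x, hx, hxe⟩ := hmem
  refine ⟨x.1, ⟨x, hx, rfl⟩, fun v => ?_⟩
  rw [← isometryGroupEquiv_apply (Cfsg.quadFormOdd 3 F) (Q7 F) (oddQF_apply 3) x v,
    show isometryGroupEquiv (Cfsg.quadFormOdd 3 F) (Q7 F) (oddQF_apply 3) x = _ from hxe,
    Subgroup.coe_mul, LinearEquiv.mul_apply, reflQ_apply, reflQ_apply]
  rfl

theorem polar_Q7 (u v : I7 → F) : polar (Q7 F) u v = 2 * (u (.inl ()) * v (.inl ())) +
    ∑ i : Fin 3, (u (.inr (.inl i)) * v (.inr (.inr i)) + u (.inr (.inr i)) * v (.inr (.inl i))) := by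
  simp only [polar, oddQF_apply, Cfsg.quadFormOdd, Pi.add_apply, Fin.sum_univ_three]
  ring

theorem nondegenerate_Q7 (h2 : (2 : F) ≠ 0) : (polarBilin (Q7 F)).Nondegenerate := by
  have key : ∀ u : I7 → F, (∀ v, polar (Q7 F) u v = 0) → u = 0 := by
    intro u hu
    funext k
    rcases k with ⟨⟩ | i | i
    · have := hu (Pi.single (.inl ()) 1)
      simpa [polar_Q7, h2] using this
    · have := hu (Pi.single (.inr (.inr i)) 1)
      simpa [polar_Q7, Pi.single_apply] using this
    · have := hu (Pi.single (.inr (.inl i)) 1)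
      simpa [polar_Q7, Pi.single_apply] using this
  exact ⟨fun u hu => key u hu, fun u hu => key u fun v => by rw [polar_comm]; exact hu v⟩

/-- A non-zero vector is not orthogonal to everything. -/
theorem exists_polar7_ne_zero (h2 : (2 : F) ≠ 0) {u : I7 → F} (hu : u ≠ 0) :
    ∃ v, polar (Q7 F) u v ≠ 0 := by
  by_contra hc
  push Not at hc
  exact hu ((nondegenerate_Q7 h2).1 u hc)

/-- Every value is represented in the orthogonal of a vector. -/
theorem exists_orth_value (w : I7 → F) (c : F) : ∃ b, Q7 F b = c ∧ polar (Q7 F) b w = 0 := by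
  let e : Fin 3 ⊕ Fin 3 → I7 → F := fun k => Pi.single (.inr k) 1
  by_cases h1 : w (.inr (.inl 1)) = 0
  · by_cases h2 : w (.inr (.inr 1)) = 0
    · refine ⟨e (.inl 1) + c • e (.inr 1), ?_, ?_⟩
      · simp [e, oddQF_apply, Cfsg.quadFormOdd, Fin.sum_univ_three]
      · simp [e, polar_Q7, Fin.sum_univ_three, h1, h2]
    · refine ⟨e (.inl 0) + c • e (.inr 0) +
        (-(w (.inr (.inr 0)) + c * w (.inr (.inl 0))) / w (.inr (.inr 1))) • e (.inl 1), ?_, ?_⟩
      · simp [e, oddQF_apply, Cfsg.quadFormOdd, Fin.sum_univ_three]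
      · simp [e, polar_Q7, Fin.sum_univ_three]
        field_simp
        ring
  · refine ⟨e (.inl 0) + c • e (.inr 0) +
      (-(w (.inr (.inr 0)) + c * w (.inr (.inl 0))) / w (.inr (.inl 1))) • e (.inr 1), ?_, ?_⟩
    · simp [e, oddQF_apply, Cfsg.quadFormOdd, Fin.sum_univ_three]
    · simp [e, polar_Q7, Fin.sum_univ_three]
      field_simp
      ring

/-- `Ω_7` is irreducible. -/
theorem omega7_not_le_stabilizer [Finite F] (h2 : (2 : F) ≠ 0) {W : Submodule F (I7 → F)} (hb : W ≠ ⊥)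
    (ht : W ≠ ⊤) : ¬ omega7 F ≤ subspaceStabilizer W := by
  intro hle
  have hself : ∀ a, polar (Q7 F) a a = 2 * Q7 F a := Forms.polar_self_eq (Q7 F)
  -- a vector of non-zero value not orthogonal to a vector of `W` lies in `W`
  have key : ∀ w ∈ W, ∀ a, Q7 F a ≠ 0 → polar (Q7 F) a w ≠ 0 → a ∈ W := by
    intro w hw a ha haw
    obtain ⟨b, hb1, hb2⟩ := exists_orth_value w (Q7 F a)
    obtain ⟨g, hg, hgv⟩ := exists_omega7_reflPair h2 ha hb1.symm
    have h := (GeoClasses.mem_subspaceStabilizer_iff.mp (hle hg) w).mp hw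
    rw [hgv, refl7_fix hb2, refl7] at h
    have := W.sub_mem hw h
    rw [sub_sub_cancel] at this
    have hne : (Q7 F a)⁻¹ * polar (Q7 F) a w ≠ 0 := mul_ne_zero (inv_ne_zero ha) haw
    have h' := W.smul_mem ((Q7 F a)⁻¹ * polar (Q7 F) a w)⁻¹ this
    rwa [inv_smul_smul₀ hne] at h'
  obtain ⟨w, hw, hw0⟩ := Submodule.exists_mem_ne_zero_of_ne_bot hb
  obtain ⟨a₀, ha₀, ha₀W⟩ : ∃ a₀, Q7 F a₀ ≠ 0 ∧ a₀ ∈ W := by
    by_cases hQw : Q7 F w ≠ 0
    · exact ⟨w, hQw, hw⟩
    push Not at hQw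
    obtain ⟨v, hv⟩ := exists_polar7_ne_zero h2 hw0
    rw [polar_comm] at hv
    by_cases hQv : Q7 F v ≠ 0
    · exact ⟨v, hQv, key w hw v hQv hv⟩
    push Not at hQv
    have hQvw : Q7 F (v + w) = polar (Q7 F) v w := by
      rw [QuadraticMap.map_add (Q7 F), hQv, hQw, zero_add, zero_add]
    refine ⟨v + w, by rw [hQvw]; exact hv, key w hw (v + w) (by rw [hQvw]; exact hv) ?_⟩
    rw [polar_add_left, hself, hQw, mul_zero, add_zero]
    exact hv
  -- every anisotropic vector is in `W`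
  have haniso : ∀ a, Q7 F a ≠ 0 → a ∈ W := by
    intro a ha
    by_cases hp : polar (Q7 F) a a₀ ≠ 0
    · exact key a₀ ha₀W a ha hp
    push Not at hp
    obtain ⟨a₁, ha₁, h10, h1a⟩ : ∃ a₁, Q7 F a₁ ≠ 0 ∧ polar (Q7 F) a₁ a₀ ≠ 0 ∧ polar (Q7 F) a a₁ ≠ 0 := by
      by_cases hs : Q7 F (a + a₀) ≠ 0
      · exact ⟨a + a₀, hs, by rw [polar_add_left, hp, hself, zero_add]; exact mul_ne_zero h2 ha₀,
          by rw [polar_add_right, hp, hself, add_zero]; exact mul_ne_zero h2 ha⟩
      push Not at hs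
      obtain ⟨b, hbQ, hb0, hba⟩ : ∃ b, Q7 F b ≠ 0 ∧ polar (Q7 F) b a₀ = 0 ∧ polar (Q7 F) b a = 0 := by
        by_contra hc
        push Not at hc
        let L := ((polarBilin (Q7 F)).flip a₀).prod ((polarBilin (Q7 F)).flip a)
        have h := Forms.two_mul_finrank_le_of_totallySingular (nondegenerate_Q7 h2) (W := LinearMap.ker L)
          (fun x hx => by
            by_contra h0
            exact hc x h0 (congrArg Prod.fst hx) (congrArg Prod.snd hx))
        have h' := LinearMap.finrank_range_add_finrank_ker L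
        have h'' := Submodule.finrank_le (LinearMap.range L)
        rw [Module.finrank_prod, Module.finrank_self] at h''
        rw [Module.finrank_fintype_fun_eq_card] at h h'
        simp at h h'
        omega
      have hQ1 : Q7 F (a + a₀ + b) = Q7 F b := by
        rw [QuadraticMap.map_add (Q7 F), hs, polar_add_left, polar_comm _ a b, polar_comm _ a₀ b, hb0, hba]
        ring
      refine ⟨a + a₀ + b, by rw [hQ1]; exact hbQ, ?_, ?_⟩
      · rw [polar_add_left, polar_add_left, hp, hself, hb0, zero_add, add_zero]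
        exact mul_ne_zero h2 ha₀
      · rw [polar_add_right, polar_add_right, hp, hself, polar_comm _ a b, hba, add_zero, add_zero]
        exact mul_ne_zero h2 ha
    exact key a₁ (key a₀ ha₀W a₁ ha₁ h10) a ha h1a
  apply ht
  rw [eq_top_iff]
  have hstd : ∀ k : I7, (Pi.single k 1 : I7 → F) ∈ W := by
    rintro (⟨⟩ | i | i)
    · exact haniso _ (by simp [oddQF_apply, Cfsg.quadFormOdd])
    all_goals
      have hp := haniso (Pi.single (.inr (.inl i)) 1 + Pi.single (.inr (.inr i)) 1)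
        (by fin_cases i <;> simp [oddQF_apply, Cfsg.quadFormOdd, Fin.sum_univ_three])
      have hm := haniso (Pi.single (.inr (.inl i)) 1 - Pi.single (.inr (.inr i)) 1)
        (by fin_cases i <;> simp [oddQF_apply, Cfsg.quadFormOdd, Fin.sum_univ_three])
      first
      | (have h := W.smul_mem (2⁻¹ : F) (W.add_mem hp hm)
         rw [show (2⁻¹ : F) • ((Pi.single (.inr (.inl i)) 1 + Pi.single (.inr (.inr i)) 1) +
           (Pi.single (.inr (.inl i)) 1 - Pi.single (.inr (.inr i)) 1) : I7 → F) = Pi.single (.inr (.inl i)) 1 by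
           rw [add_add_sub_cancel, ← two_smul F, inv_smul_smul₀ h2]] at h
         exact h)
      | (have h := W.smul_mem (2⁻¹ : F) (W.sub_mem hp hm)
         rw [show (2⁻¹ : F) • ((Pi.single (.inr (.inl i)) 1 + Pi.single (.inr (.inr i)) 1) -
           (Pi.single (.inr (.inl i)) 1 - Pi.single (.inr (.inr i)) 1) : I7 → F) = Pi.single (.inr (.inr i)) 1 by
           rw [add_sub_sub_cancel, ← two_smul F, inv_smul_smul₀ h2]] at h
         exact h)
  intro v _
  rw [pi_eq_sum_univ' v]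
  exact W.sum_mem fun k _ => W.smul_mem _ (hstd k)

/-- `Ω_7` fixes no orthogonal frame. -/
theorem omega7_not_le_decompositionStabilizer [Finite F] (h2 : (2 : F) ≠ 0)
    {D : Fin 7 → Submodule F (I7 → F)} (hD : IsNondegenerateMDecomposition (polar (Q7 F)) 1 D) :
    ¬ omega7 F ≤ decompositionStabilizer D := by
  classical
  intro hle
  have hv : ∀ i, ∃ v, v ∈ D i ∧ v ≠ 0 := fun i => by
    obtain ⟨v, hv, hv0⟩ := Submodule.exists_mem_ne_zero_of_ne_bot (p := D i) fun h => by
      have := hD.decomp.finrank_eq i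
      rw [h, finrank_bot] at this
      exact zero_ne_one this
    exact ⟨v, hv, hv0⟩
  choose v hv hv0 using hv
  have horth : ∀ i j, i ≠ j → polar (Q7 F) (v i) (v j) = 0 := fun i j h => hD.orthogonal i j h _ (hv i) _ (hv j)
  have hline : ∀ i x, x ∈ D i → ∃ c : F, x = c • v i := fun i x hx => by
    obtain ⟨c, hc⟩ := exists_smul_eq_of_finrank_eq_one (hD.decomp.finrank_eq i) (x := ⟨v i, hv i⟩)
      (fun h => hv0 i (congrArg Subtype.val h)) ⟨x, hx⟩
    exact ⟨c, (congrArg Subtype.val hc).symm⟩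
  have hd : ∀ i, polar (Q7 F) (v i) (v i) ≠ 0 := by
    intro i h0
    obtain ⟨-, x, hx, hne⟩ := hD.nondegenerate i _ (hv i) (hv0 i)
    obtain ⟨c, rfl⟩ := hline i x hx
    exact hne (by rw [polar_smul_right, h0, smul_zero])
  obtain ⟨a, ha, hsupp⟩ : ∃ a, Q7 F a ≠ 0 ∧ polar (Q7 F) a (v 0) ≠ 0 ∧
      ∀ i : Fin 7, ∃ j, j ≠ i ∧ j ≠ 0 ∧ polar (Q7 F) a (v j) ≠ 0 := by
    by_cases h : Q7 F (v 0 + v 1 + v 2) ≠ 0
    · refine ⟨_, h, ?_, fun i => ?_⟩
      · simpa [polar_add_left, horth] using hd 0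
      · by_cases hi : i = 1
        · exact ⟨2, by rw [hi]; decide, by decide, by simpa [polar_add_left, horth] using hd 2⟩
        · exact ⟨1, Ne.symm hi, by decide, by simpa [polar_add_left, horth] using hd 1⟩
    · push Not at h
      refine ⟨v 0 + v 1 + v 2 + v 3, ?_, ?_, fun i => ?_⟩
      · rw [QuadraticMap.map_add (Q7 F), h, zero_add, polar_add_left, polar_add_left, horth 0 3 (by decide),
          horth 1 3 (by decide), horth 2 3 (by decide), add_zero, add_zero, add_zero]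
        intro h0
        exact hd 3 (by rw [Forms.polar_self_eq, h0, mul_zero])
      · simpa [polar_add_left, horth] using hd 0
      · by_cases hi : i = 1
        · exact ⟨2, by rw [hi]; decide, by decide, by simpa [polar_add_left, horth] using hd 2⟩
        · exact ⟨1, Ne.symm hi, by decide, by simpa [polar_add_left, horth] using hd 1⟩
  obtain ⟨ha0, hsupp⟩ := hsupp
  obtain ⟨b, hb1, hb2⟩ := exists_orth_value (v 0) (Q7 F a)
  obtain ⟨g, hg, hgv⟩ := exists_omega7_reflPair h2 ha hb1.symm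
  obtain ⟨σ, hσ⟩ := hle hg
  have hmem : (g : Matrix I7 I7 F) *ᵥ v 0 ∈ D (σ 0) := by
    rw [← hσ 0]; exact ⟨v 0, hv 0, Matrix.toLin'_apply _ _⟩
  rw [hgv, refl7_fix hb2, refl7] at hmem
  obtain ⟨j, hji, hj0, hjne⟩ := hsupp (σ 0)
  obtain ⟨c, hc⟩ := hline _ _ hmem
  have := congrArg (fun x => polar (Q7 F) x (v j)) hc
  simp only [polar_sub_left, polar_smul_left, horth 0 j (Ne.symm hj0), horth (σ 0) j (Ne.symm hji), smul_eq_mul,
    mul_zero, zero_sub, neg_eq_zero, mul_eq_zero, inv_eq_zero, ha, ha0, hjne, or_self] at this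

/-- `Ω_7` is realised over no proper subfield. -/
theorem omega7_not_le_subfieldSubgroup [Finite F] (h2 : (2 : F) ≠ 0) {F₀ : Subfield F} (hF₀ : F₀ ≠ ⊤)
    (P : GL I7 F) : ¬ omega7 F ≤ subfieldSubgroup F₀ P := by
  intro hle
  let e : Fin 3 ⊕ Fin 3 → I7 → F := fun k => Pi.single (.inr k) 1
  have hsq : ∀ τ : F, τ ^ 2 ∈ F₀ := by
    intro τ
    set a : I7 → F := e (.inl 0) + e (.inr 0) with hA
    set b : I7 → F := e (.inl 0) + (τ - 1) • e (.inr 0) + (e (.inl 1) + (2 - τ) • e (.inr 1)) with hB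
    have hQa : Q7 F a = 1 := by simp [hA, e, oddQF_apply, Cfsg.quadFormOdd, Fin.sum_univ_three]
    have hQb : Q7 F b = 1 := by
      simp [hB, e, oddQF_apply, Cfsg.quadFormOdd, Fin.sum_univ_three]
      ring
    obtain ⟨g, hg, hgv⟩ := exists_omega7_reflPair h2 (by rw [hQa]; exact one_ne_zero) (hQa.trans hQb.symm)
    have hdiag : ∀ k, (g : Matrix I7 I7 F) k k = refl7 a (refl7 b (Pi.single k 1)) k := fun k => by
      rw [← hgv]; simp
    have htr : (g : Matrix I7 I7 F).trace = τ ^ 2 + 3 := by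
      rw [Matrix.trace]
      simp only [Matrix.diag_apply, hdiag, refl7, hQa, hQb, inv_one, one_mul, polar_Q7]
      simp [hA, hB, e, Fintype.sum_sum_type, Fin.sum_univ_three]
      ring
    have h := trace_mem_of_perfect (omega7_commutator h2) hle hg
    rw [htr] at h
    have h3 : (3 : F) ∈ F₀ := by
      rw [show (3 : F) = 1 + 1 + 1 by norm_num]
      exact F₀.add_mem (F₀.add_mem F₀.one_mem F₀.one_mem) F₀.one_mem
    simpa using F₀.sub_mem h h3
  apply hF₀
  rw [eq_top_iff]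
  intro τ _
  have h := F₀.mul_mem (F₀.inv_mem (F₀.add_mem F₀.one_mem F₀.one_mem))
    (F₀.sub_mem (F₀.sub_mem (hsq (τ + 1)) (hsq τ)) F₀.one_mem)
  rwa [show ((1 : F) + 1)⁻¹ * ((τ + 1) ^ 2 - τ ^ 2 - 1) = τ by
    rw [show (1 : F) + 1 = 2 by norm_num]; field_simp; ring] at h

end Cfsg.Agent.ClassicalMax
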