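import Mathlib
import Cfsg.Prelude.Def_GeometricClasses
import Cfsg.Prelude.Def_LieClassical
import Cfsg.Agent.GeoClasses.Basic
import Cfsg.Agent.MaxSub.SymplecticType

/-!
An element of order nine normalises no class-two group with central factor of order sixteen,
modulo scalars; consequently `SU_4(3)` and `Sp_4(3)` are not inside a normaliser of symplectic type.
-/

set_option autoImplicit false
set_option linter.style.haveILetI false

namespace Cfsg.Agent.ClassicalMax

open Matrix Cfsg.Geo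
open scoped MatrixGroups Matrix

/-- An automorphism of period nine of a group of order sixteen has period three. -/
theorem auto_pow_three_of_pow_nine {G : Type*} [Group G] [Finite G] (hG : Nat.card G = 16) (φ : MulAut G)
    (h9 : φ ^ 9 = 1) : φ ^ 3 = 1 := by
  classical
  haveI := Fintype.ofFinite G
  rw [Nat.card_eq_fintype_card] at hG
  by_contra hne
  obtain ⟨x, hx⟩ : ∃ x, (φ ^ 3) x ≠ x := by
    by_contra hc
    push Not at hc
    exact hne (MulEquiv.ext hc)
  set ψ := φ ^ 3 with hψ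
  let Fix : Subgroup G := ψ.toMonoidHom.eqLocus (MonoidHom.id G)
  have hcomm : ∀ i y, ψ ((φ ^ i) y) = (φ ^ i) (ψ y) := fun i y => by
    rw [hψ, ← MulAut.mul_apply, ← MulAut.mul_apply, ← pow_add, ← pow_add, Nat.add_comm]
  let orb : G → Finset G := fun y => (Finset.range 9).image fun i => (φ ^ i) y
  have horb : ∀ y, ψ y ≠ y → (orb y).card = 9 := by
    intro y hy
    rw [Finset.card_image_of_injOn, Finset.card_range]
    intro i hi j hj hij
    simp only [Finset.coe_range, Set.mem_Iio] at hi hj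
    dsimp only at hij
    have main : ∀ i j, i < 9 → j < 9 → i < j → (φ ^ i) y = (φ ^ j) y → False := by
      intro i j hi hj hlt hij
      have hd : (φ ^ (j - i)) y = y := by
        apply (φ ^ i).injective
        rw [← MulAut.mul_apply, ← pow_add, show i + (j - i) = j by omega, hij]
      have hm : ∀ m, (φ ^ ((j - i) * m)) y = y := by
        intro m
        induction m with
        | zero => simp
        | succ m ih => rw [Nat.mul_succ, pow_add, MulAut.mul_apply, hd, ih]
      have key : ∀ r : Fin 9, (r : ℕ) ≠ 0 → ∃ t : Fin 9, ((r : ℕ) * t) % 9 = 3 := by decide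
      obtain ⟨t, ht⟩ := key ⟨j - i, by omega⟩ (by simp only; omega)
      have := hm t
      rw [pow_eq_pow_mod _ h9, ht] at this
      exact hy this
    rcases lt_trichotomy i j with h | h | h
    · exact (main i j hi hj h hij).elim
    · exact h
    · exact (main j i hj hi h hij.symm).elim
  have hnot : ∀ y z, ψ y ≠ y → z ∈ orb y → ψ z ≠ z := by
    intro y z hy hz h
    simp only [orb, Finset.mem_image] at hz
    obtain ⟨i, -, rfl⟩ := hz
    rw [hcomm] at h
    exact hy ((φ ^ i).injective h)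
  let S : Finset G := Finset.univ.filter fun y => ψ y ≠ y
  have hsub : orb x ⊆ S := fun z hz => by simpa [S] using hnot x z hx hz
  have hall : ∀ y, ψ y ≠ y → y ∈ orb x := by
    intro y hy
    by_contra hy'
    have hdisj : Disjoint (orb x) (orb y) := by
      rw [Finset.disjoint_left]
      intro z hzx hzy
      apply hy'
      simp only [orb, Finset.mem_image, Finset.mem_range] at hzx hzy ⊢
      obtain ⟨i, hi, rfl⟩ := hzx
      obtain ⟨j, hj, hij⟩ := hzy
      refine ⟨(i + (9 - j)) % 9, Nat.mod_lt _ (by norm_num), ?_⟩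
      rw [← pow_eq_pow_mod _ h9, Nat.add_comm, pow_add, MulAut.mul_apply, ← hij, ← MulAut.mul_apply, ← pow_add,
        show 9 - j + j = 9 by omega, h9]
      rfl
    have := Finset.card_le_univ (orb x ∪ orb y)
    rw [Finset.card_union_of_disjoint hdisj, horb x hx, horb y hy, hG] at this
    omega
  have hS : S.card = 9 := by
    rw [← horb x hx]
    congr 1
    exact Finset.Subset.antisymm (fun y hy => hall y (by simpa [S] using hy)) hsub
  have hfix : Nat.card Fix = 7 := by
    rw [Nat.card_eq_fintype_card, Fintype.card_subtype]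
    have h := Finset.card_filter_add_card_filter_not (s := (Finset.univ : Finset G)) (fun y => ψ y = y)
    rw [Finset.card_univ, hG] at h
    have hS' : (Finset.univ.filter fun y => ¬ ψ y = y).card = 9 := hS
    show (Finset.univ.filter fun y => ψ y = y).card = 7
    omega
  have := Subgroup.card_subgroup_dvd_card Fix
  rw [hfix, Nat.card_eq_fintype_card, hG] at this
  norm_num at this

variable {ι : Type} [Fintype ι] [DecidableEq ι] {F : Type*} [Field F]

/-- The cube of a normalising element of period nine is scalar. -/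
theorem scalar_cube_of_normalizes [Finite F] {R : Subgroup (GL ι F)}
    (hirr : ActsAbsolutelyIrreducibly (matrixSet R)) (hZ : (Nat.card (Subgroup.center R)).Coprime 3)
    (hidx : (Subgroup.center R).index = 16) {g : GL ι F} (hg : g ∈ subgroupNormalizer R) (h9 : g ^ 9 = 1) :
    ∃ c : F, ((g ^ 3 : GL ι F) : Matrix ι ι F) = c • 1 := by
  classical
  have hmem : ∀ (n : ℕ) (x : GL ι F), x ∈ R → g ^ n * x * (g ^ n)⁻¹ ∈ R := fun n x hx =>
    (Subgroup.mem_normalizer_iff.mp (Subgroup.pow_mem _ hg n) x).mp hx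
  let α : MulAut R :=
    { toFun := fun x => ⟨g * x * g⁻¹, by simpa using hmem 1 x x.2⟩
      invFun := fun x => ⟨g⁻¹ * x * g, by
        simpa using (Subgroup.mem_normalizer_iff.mp (Subgroup.inv_mem _ hg) x).mp x.2⟩
      left_inv := fun x => Subtype.ext (by simp [mul_assoc])
      right_inv := fun x => Subtype.ext (by simp [mul_assoc])
      map_mul' := fun x y => Subtype.ext (by simp [mul_assoc]) }
  have hα : ∀ (n : ℕ) (x : R), ((α ^ n) x : GL ι F) = g ^ n * x * (g ^ n)⁻¹ := by
    intro n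
    induction n with
    | zero => intro x; simp
    | succ n ih =>
      intro x
      rw [pow_succ', MulAut.mul_apply]
      show g * ((α ^ n) x : GL ι F) * g⁻¹ = _
      rw [ih, pow_succ', _root_.mul_inv_rev]
      group
  set Z := Subgroup.center R
  haveI : Z.Characteristic := Subgroup.centerCharacteristic
  have hmapZ : Z.map α.toMonoidHom = Z := Subgroup.characteristic_iff_map_eq.mp inferInstance α
  let φ : MulAut (R ⧸ Z) := QuotientGroup.congr Z Z α hmapZ
  have hφ : ∀ (n : ℕ) (x : R), (φ ^ n) (QuotientGroup.mk x) = QuotientGroup.mk ((α ^ n) x) := by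
    intro n
    induction n with
    | zero => intro x; simp
    | succ n ih =>
      intro x
      rw [pow_succ', MulAut.mul_apply, ih, pow_succ', MulAut.mul_apply]
      rfl
  have h9' : φ ^ 9 = 1 := by
    refine MulEquiv.ext fun y => ?_
    obtain ⟨x, rfl⟩ := QuotientGroup.mk_surjective y
    rw [hφ, MulAut.one_apply]
    congr 1
    exact Subtype.ext (by rw [hα, h9]; simp)
  have h3 := auto_pow_three_of_pow_nine (G := R ⧸ Z) hidx φ h9'
  have hcomm : ∀ x ∈ R, g ^ 3 * x = x * g ^ 3 := by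
    intro x hx
    obtain ⟨z, hz⟩ : ∃ z : Z, (α ^ 3) ⟨x, hx⟩ = (z : R) * ⟨x, hx⟩ := by
      have := hφ 3 ⟨x, hx⟩
      rw [h3, MulAut.one_apply, eq_comm, QuotientGroup.eq_iff_div_mem] at this
      exact ⟨⟨_, this⟩, by simp⟩
    obtain ⟨c, hc⟩ := MaxSub.exists_scalar_of_mem_center hirr z.2
    have hcen : ∀ y : GL ι F, ((z : R) : GL ι F) * y = y * ((z : R) : GL ι F) := fun y => by
      apply Units.ext
      simp [hc]
    have e : g ^ 3 * x * (g ^ 3)⁻¹ = ((z : R) : GL ι F) * x := by
      rw [← hα 3 ⟨x, hx⟩, hz]; rfl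
    set t : GL ι F := ((z : R) : GL ι F)
    let C := MulAut.conj (g ^ 3)
    have hCt : C t = t := by
      show g ^ 3 * t * (g ^ 3)⁻¹ = t
      rw [← hcen, mul_inv_cancel_right]
    have hCx : C x = t * x := e
    have hC3 : C (C (C x)) = x := by
      rw [← MulAut.mul_apply, ← MulAut.mul_apply, ← map_mul, ← map_mul, ← pow_add, ← pow_add]
      simp [h9]
    have e3 : t * t * t = 1 := by
      rw [hCx, map_mul, hCt, hCx, map_mul, map_mul, hCt, hCx, ← mul_assoc, ← mul_assoc] at hC3
      exact mul_eq_right.mp hC3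
    have ht3 : (z : Z) ^ 3 = 1 := by
      apply Subtype.ext
      apply Subtype.ext
      show (((z : R) : GL ι F) ^ 3) = 1
      rw [pow_succ, pow_two, e3]
    have hz1 : z = 1 := by
      have h1 := orderOf_dvd_of_pow_eq_one ht3
      have h2 := orderOf_dvd_natCard z
      have := Nat.dvd_gcd h2 h1
      rw [hZ.gcd_eq_one] at this
      exact orderOf_eq_one_iff.mp (Nat.dvd_one.mp this)
    have : t = 1 := by simp [t, hz1]
    rw [this, one_mul, mul_inv_eq_iff_eq_mul] at e
    exact e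
  refine hirr.2 _ ?_
  rintro _ ⟨x, hx, rfl⟩
  exact congrArg Units.val (hcomm x hx)

/-- `Sp_4(3)` has an element whose ninth power is trivial and cube is not scalar. -/
theorem exists_nine_spGL [CharP F 3] :
    ∃ g ∈ Cfsg.spGL 2 F, g ^ 9 = 1 ∧ ∀ c : F, ((g ^ 3 : GL (Fin 2 ⊕ Fin 2) F) : Matrix (Fin 2 ⊕ Fin 2) (Fin 2 ⊕ Fin 2) F) ≠ c • 1 := by
  classical
  let J : Matrix (Fin 2 ⊕ Fin 2) (Fin 2 ⊕ Fin 2) (ZMod 3) := Matrix.fromBlocks 0 (-1) 1 0
  obtain ⟨B, hB9, hBJ, hB3⟩ : ∃ B : Matrix (Fin 2 ⊕ Fin 2) (Fin 2 ⊕ Fin 2) (ZMod 3),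
      B * B * B * (B * B * B) * (B * B * B) = 1 ∧ Bᵀ * J * B = J ∧
      ((B * B * B) (Sum.inl 0) (Sum.inl 0) ≠ (B * B * B) (Sum.inl 1) (Sum.inl 1) ∨
        ∃ i j, i ≠ j ∧ (B * B * B) i j ≠ 0) :=
    ⟨(!![0, 0, 2, 1; 1, 1, 0, 0; 0, 2, 0, 0; 0, 0, 1, 0] : Matrix (Fin 4) (Fin 4) (ZMod 3)).submatrix
      finSumFinEquiv finSumFinEquiv, by decide +kernel, by decide +kernel, by decide +kernel⟩
  let ψ := ZMod.castHom (dvd_refl 3) F
  let M : (Matrix (Fin 2 ⊕ Fin 2) (Fin 2 ⊕ Fin 2) (ZMod 3)) →+* Matrix (Fin 2 ⊕ Fin 2) (Fin 2 ⊕ Fin 2) F :=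
    ψ.mapMatrix
  have h9 : M B * (M B ^ 8) = 1 := by
    have hp : B ^ (8 + 1) = 1 := by
      rw [← hB9]
      simp only [pow_succ, pow_zero, one_mul, mul_assoc]
    rw [← pow_succ', ← map_pow, hp, map_one]
  let g : GL (Fin 2 ⊕ Fin 2) F := ⟨M B, M B ^ 8, h9, by rw [← pow_succ, ← h9, pow_succ']⟩
  refine ⟨g, fun u v => ?_, ?_, fun c hc => ?_⟩
  · simp only [Cfsg.glToMat, Units.coeHom_apply]
    show Cfsg.sympForm 2 F (M B *ᵥ u) (M B *ᵥ v) = Cfsg.sympForm 2 F u v
    have hform : ∀ x y : Fin 2 ⊕ Fin 2 → F, Cfsg.sympForm 2 F x y = x ⬝ᵥ (M J *ᵥ y) := by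
      intro x y
      simp [Cfsg.sympForm, Matrix.J, M, J, dotProduct, Matrix.mulVec, Fintype.sum_sum_type, Matrix.fromBlocks,
        Fin.sum_univ_two, Matrix.one_apply]
    rw [hform, hform, Matrix.dotProduct_mulVec, Matrix.dotProduct_mulVec, Matrix.dotProduct_mulVec,
      Matrix.vecMul_vecMul, ← Matrix.vecMul_transpose, Matrix.vecMul_vecMul]
    congr 2
    rw [show (M B)ᵀ = M Bᵀ from (Matrix.transpose_map (f := ψ) (M := B)), ← map_mul, ← map_mul, ← mul_assoc, hBJ]
  · refine Units.ext ?_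
    rw [Units.val_pow_eq_pow_val, pow_succ', h9]
    rfl
  · rw [Units.val_pow_eq_pow_val] at hc
    change M B ^ 3 = c • 1 at hc
    rw [← map_pow, show B ^ 3 = B * B * B by rw [pow_succ, pow_two]] at hc
    have hap := fun i j => congrFun (congrFun hc i) j
    rcases hB3 with h | ⟨i, j, hij, h⟩
    · apply h
      apply ψ.injective
      have e0 := hap (Sum.inl 0) (Sum.inl 0)
      have e1 := hap (Sum.inl 1) (Sum.inl 1)
      simp only [M, RingHom.mapMatrix_apply, Matrix.map_apply, Matrix.smul_apply, Matrix.one_apply_eq] at e0 e1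
      rw [e0, e1]
    · apply h
      apply ψ.injective
      have e0 := hap i j
      simp only [M, RingHom.mapMatrix_apply, Matrix.map_apply, Matrix.smul_apply, Matrix.one_apply_ne hij, smul_zero] at e0
      rw [e0, map_zero]

/-- `SU_4(3)` has an element whose ninth power is trivial and cube is not scalar. -/
theorem exists_nine_SU [CharP F 3] {i : F} (hi : i ^ 2 = -1) (hi3 : i ^ 3 = -i) :
    ∃ g ∈ Cfsg.GU 4 F 3 ⊓ specialLinear (Fin 4) F, g ^ 9 = 1 ∧
      ∀ c : F, ((g ^ 3 : GL (Fin 4) F) : Matrix (Fin 4) (Fin 4) F) ≠ c • 1 := by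
  classical
  letI := ZMod.algebra F 3
  let E := QuadraticAlgebra (ZMod 3) (-1) 0
  let π : E →ₐ[ZMod 3] F := QuadraticAlgebra.lift ⟨i, by simp [← pow_two, hi]⟩
  let w : ZMod 3 → ZMod 3 → E := fun a b => ⟨a, b⟩
  let cj : E → E := fun z => ⟨z.re, -z.im⟩
  obtain ⟨B, hB9, hBU, hdet, hB3⟩ : ∃ B : Matrix (Fin 4) (Fin 4) E,
      B * B * B * (B * B * B) * (B * B * B) = 1 ∧ Bᵀ * B.map cj = 1 ∧ B.det = 1 ∧
      ∃ a b, (a = b → (B * B * B) a a ≠ (B * B * B) 0 0) ∧ (a ≠ b → (B * B * B) a b ≠ 0) :=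
    ⟨!![w 0 0, w 0 0, w 0 2, w 0 0; w 1 2, w 0 0, w 0 0, w 1 2; w 1 0, w 1 2, w 0 0, w 2 0;
        w 2 0, w 1 2, w 0 0, w 1 0], by decide +kernel, by decide +kernel, by decide +kernel, by decide +kernel⟩
  have hπinj : ∀ z z' : E, π z = π z' → z = z' := by
    intro z z' h
    have hz : π (z - z') = 0 := by rw [map_sub, h, sub_self]
    have key : ∀ y : E, y = 0 ∨ ∃ y', y * y' = 1 := by
      intro y
      have hk : ∀ a b : ZMod 3, (w a b = 0) ∨ ∃ a' b', w a b * w a' b' = 1 := by decide +kernel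
      rcases hk y.re y.im with h' | ⟨a', b', h'⟩
      · exact Or.inl h'
      · exact Or.inr ⟨_, h'⟩
    rcases key (z - z') with h0 | ⟨y', hy'⟩
    · exact sub_eq_zero.mp h0
    · have := congrArg π hy'
      rw [map_mul, hz, zero_mul, map_one] at this
      exact absurd this zero_ne_one
  have hπc : ∀ z : E, π (cj z) = π z ^ 3 := by
    intro z
    have h3 : ∀ a : ZMod 3, (algebraMap (ZMod 3) F a) ^ 3 = algebraMap (ZMod 3) F a := fun a => by
      rw [← map_pow, ZMod.pow_card]
    show (z.re • 1 + (-z.im) • i : F) = (z.re • 1 + z.im • i) ^ 3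
    rw [add_pow_char, Algebra.smul_def, Algebra.smul_def, Algebra.smul_def, mul_pow, mul_pow, h3, h3, hi3, one_pow,
      map_neg]
    ring
  let M : Matrix (Fin 4) (Fin 4) E →+* Matrix (Fin 4) (Fin 4) F := π.toRingHom.mapMatrix
  have h9 : M B * (M B ^ 8) = 1 := by
    have hp : B ^ (8 + 1) = 1 := by
      rw [← hB9]
      simp only [pow_succ, pow_zero, one_mul, mul_assoc]
    rw [← pow_succ', ← map_pow, hp, map_one]
  let g : GL (Fin 4) F := ⟨M B, M B ^ 8, h9, by rw [← pow_succ, ← h9, pow_succ']⟩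
  refine ⟨g, ⟨fun u v => ?_, ?_⟩, ?_, fun c hc => ?_⟩
  · show Cfsg.hermForm 4 F 3 (M B *ᵥ u) (M B *ᵥ v) = Cfsg.hermForm 4 F 3 u v
    have hh : ∀ x y : Fin 4 → F, Cfsg.hermForm 4 F 3 x y = x ⬝ᵥ (fun k => y k ^ 3) := fun x y => rfl
    have hcv : (fun k => (M B *ᵥ v) k ^ 3) = M (B.map cj) *ᵥ fun k => v k ^ 3 := by
      funext k
      simp only [Matrix.mulVec, dotProduct, sum_pow_char, mul_pow]
      refine Finset.sum_congr rfl fun l _ => ?_
      congr 1
      exact (hπc (B k l)).symm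
    rw [hh, hh, hcv, Matrix.dotProduct_mulVec, ← Matrix.vecMul_transpose, Matrix.vecMul_vecMul,
      show (M B)ᵀ = M Bᵀ from (Matrix.transpose_map (f := π) (M := B)), ← map_mul, hBU, map_one, Matrix.vecMul_one]
  · show g ∈ specialLinear (Fin 4) F
    rw [GeoClasses.mem_specialLinear_iff]
    show (M B).det = 1
    rw [show M B = π.toRingHom.mapMatrix B from rfl, ← RingHom.map_det, hdet, map_one]
  · refine Units.ext ?_
    rw [Units.val_pow_eq_pow_val, pow_succ', h9]
    rfl
  · rw [Units.val_pow_eq_pow_val] at hc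
    change M B ^ 3 = c • 1 at hc
    rw [← map_pow, show B ^ 3 = B * B * B by rw [pow_succ, pow_two]] at hc
    have hap := fun a b => congrFun (congrFun hc a) b
    obtain ⟨a, b, h1, h2⟩ := hB3
    have e := hap a b
    have e0 := hap 0 0
    simp only [M, RingHom.mapMatrix_apply, Matrix.map_apply, Matrix.smul_apply, smul_eq_mul] at e e0
    by_cases hab : a = b
    · subst hab
      refine h1 rfl (hπinj _ _ ?_)
      rw [Matrix.one_apply_eq] at e e0
      exact e.trans e0.symm
    · refine h2 hab (hπinj _ _ ?_)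
      rw [Matrix.one_apply_ne hab, mul_zero] at e
      rw [map_zero]
      exact e

end Cfsg.Agent.ClassicalMax
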