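import Cfsg.Agent.ClassicalMax.FieldExceptionSix

/-!
In `SU_4(q)`, `q ≤ 3`, the stabiliser of two complementary totally isotropic planes lies in a subfield
group carrying a symplectic form.
-/

set_option autoImplicit false
set_option linter.style.haveILetI false

namespace Cfsg.Agent.ClassicalMax

open Matrix Cfsg.Geo Module
open Cfsg.Agent.Classical.U (SqField sqField_of_fintype)
open scoped MatrixGroups Matrix

variable {F : Type*} [Field F] {q : ℕ}

/-- The subfield of elements fixed by `x ↦ x ^ q` of a field with `q ²` elements. -/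
theorem exists_fixed_subfield (hF : SqField F q) : ∃ F₀ : Subfield F, (∀ x, x ∈ F₀ ↔ x ^ q = x) ∧
    Nat.card F = Nat.card F₀ ^ 2 := by
  classical
  have hq := hF.q_ne_zero
  let F₀ : Subfield F :=
    { carrier := {x | x ^ q = x}
      mul_mem' := fun {x y} (hx : x ^ q = x) (hy : y ^ q = y) => show (x * y) ^ q = x * y by rw [mul_pow, hx, hy]
      one_mem' := one_pow q
      add_mem' := fun {x y} (hx : x ^ q = x) (hy : y ^ q = y) => show (x + y) ^ q = x + y by rw [hF.add_pow, hx, hy]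
      zero_mem' := zero_pow hq
      neg_mem' := fun {x} (hx : x ^ q = x) => show (-x) ^ q = -x by rw [hF.neg_pow, hx]
      inv_mem' := fun x (hx : x ^ q = x) => show x⁻¹ ^ q = x⁻¹ by rw [inv_pow, hx] }
  obtain ⟨ω, hω⟩ : ∃ ω : F, ω ^ q ≠ ω := by
    by_contra hc
    push Not at hc
    obtain ⟨h, e⟩ := id hF
    haveI : Fintype F := Fintype.ofFinite F
    rw [Nat.card_eq_fintype_card] at e
    let P : Polynomial F := Polynomial.X ^ q - Polynomial.X
    have hP : P ≠ 0 := FiniteField.X_pow_card_sub_X_ne_zero _ hF.one_lt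
    have hsub : (Finset.univ : Finset F) ⊆ P.roots.toFinset := fun x _ => by
      rw [Multiset.mem_toFinset, Polynomial.mem_roots hP]
      simp [P, hc x]
    have h1 := (Finset.card_le_card hsub).trans ((Multiset.toFinset_card_le _).trans (Polynomial.card_roots' _))
    rw [Finset.card_univ, e, FiniteField.X_pow_card_sub_X_natDegree_eq _ hF.one_lt] at h1
    have := hF.one_lt
    nlinarith
  refine ⟨F₀, fun x => Iff.rfl, ?_⟩
  let θ : F₀ × F₀ → F := fun p => p.1 + p.2 * ω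
  have hθ : Function.Bijective θ := by
    refine ⟨fun p p' h => ?_, fun z => ?_⟩
    · have h2 := congrArg (fun x => x ^ q) h
      simp only [θ, hF.add_pow, mul_pow, show (p.1 : F) ^ q = p.1 from p.1.2, show (p.2 : F) ^ q = p.2 from p.2.2,
        show (p'.1 : F) ^ q = p'.1 from p'.1.2, show (p'.2 : F) ^ q = p'.2 from p'.2.2] at h h2
      have h3 : ((p.2 : F) - p'.2) * (ω ^ q - ω) = 0 := by linear_combination h2 - h
      have h4 := sub_eq_zero.mp ((mul_eq_zero.mp h3).resolve_right (sub_ne_zero.mpr hω))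
      exact Prod.ext (Subtype.ext (by linear_combination h - ω * h4)) (Subtype.ext h4)
    · set β := (z ^ q - z) / (ω ^ q - ω) with hβ
      have hβfix : β ^ q = β := by
        rw [hβ, div_pow, hF.sub_pow, hF.sub_pow, hF.pow_pow, hF.pow_pow, ← neg_sub (z ^ q), ← neg_sub (ω ^ q),
          neg_div_neg_eq]
      refine ⟨(⟨z - β * ω, ?_⟩, ⟨β, hβfix⟩), sub_add_cancel _ _⟩
      show (z - β * ω) ^ q = z - β * ω
      rw [hF.sub_pow, mul_pow, hβfix]
      have : β * (ω ^ q - ω) = z ^ q - z := div_mul_cancel₀ _ (sub_ne_zero.mpr hω)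
      linear_combination -this
  rw [← Nat.card_congr (Equiv.ofBijective θ hθ), Nat.card_prod, pow_two]

set_option maxHeartbeats 1000000 in
/-- The exceptions `q ≤ 3` for the stabilisers of pairs of isotropic planes of `SU_4(q)`. -/
theorem pair_le_subfield_four (hF : SqField F q) (hq3 : q ≤ 3) {D : Fin 2 → Submodule F (Fin 4 → F)}
    (hD : IsMDecomposition 2 D) (hts : ∀ i, IsTotallySingularFor (Cfsg.hermForm 4 F q) (D i)) :
    ∃ (F₀ : Subfield F) (P : GL (Fin 4) F) (ζ : F), Nat.card F = Nat.card F₀ ^ 2 ∧ ζ ≠ 0 ∧ ζ + ζ ^ q = 0 ∧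
      IsFormRationalStructure (Cfsg.hermForm 4 F q) F₀ ζ P ∧
      (∀ u : Fin 4 → F, (∀ i, u i ∈ F₀) →
        Cfsg.hermForm 4 F q ((P : Matrix (Fin 4) (Fin 4) F) *ᵥ u) ((P : Matrix (Fin 4) (Fin 4) F) *ᵥ u) = 0) ∧
      decompositionStabilizer D ⊓ suGL 4 F q ≤ subfieldSubgroup F₀ P := by
  classical
  obtain ⟨hfin, -⟩ := id hF
  have hf := hermForm_isUnitaryFormPow (n := 4) hF
  have hq0 := hF.q_ne_zero
  obtain ⟨δ, hδ0, hδ⟩ := hF.exists_skew
  obtain ⟨F₀, hF₀, hcard⟩ := exists_fixed_subfield hF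
  obtain ⟨ω, hω⟩ : ∃ ω : F, ω ^ q ≠ ω := by
    by_contra hc
    push Not at hc
    have : Nat.card F₀ = Nat.card F := Nat.card_congr (Equiv.subtypeUnivEquiv fun x => (hF₀ x).mpr (hc x))
    rw [this, pow_two] at hcard
    have hpos := Finite.one_lt_card (α := F)
    nlinarith
  -- dual bases
  let bE := Module.finBasisOfFinrankEq F (D 0) (hD.finrank_eq 0)
  let e : Fin 2 → (Fin 4 → F) := fun i => bE i
  have heD : ∀ i, e i ∈ D 0 := fun i => (bE i).2
  let T : D 1 →ₗ[F] (Fin 2 → F) :=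
    { toFun := fun y i => Cfsg.hermForm 4 F q y (e i)
      map_add' := fun y y' => funext fun i => hf.add_left _ _ _
      map_smul' := fun c y => funext fun i => hf.smul_left _ _ _ }
  have hsum : ∀ v : Fin 4 → F, ∃ a ∈ D 0, ∃ b ∈ D 1, a + b = v := fun v => by
    have htop : D 0 ⊔ D 1 = ⊤ := by
      rw [← hD.iSup_eq_top]
      refine le_antisymm (sup_le (le_iSup D 0) (le_iSup D 1)) (iSup_le fun i => ?_)
      fin_cases i
      · exact le_sup_left
      · exact le_sup_right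
    exact Submodule.mem_sup.mp (htop ▸ Submodule.mem_top (x := v))
  have hTinj : Function.Injective T := by
    rw [← LinearMap.ker_eq_bot, LinearMap.ker_eq_bot']
    intro y hy
    by_contra hy0
    obtain ⟨-, x, hx⟩ := hf.nondegenerate (y : Fin 4 → F) fun h => hy0 (Subtype.ext h)
    obtain ⟨a, ha, b, hb, rfl⟩ := hsum x
    apply hx
    rw [hf.add_right' hF, hts 1 _ y.2 _ hb, add_zero]
    have hrep := congrArg Subtype.val (bE.sum_repr ⟨a, ha⟩)
    simp only [Submodule.coe_sum, Submodule.coe_smul] at hrep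
    rw [← hrep, hf.sum_right hF]
    exact Finset.sum_eq_zero fun i _ => by
      rw [hf.smul_right', show Cfsg.hermForm 4 F q y (bE i) = 0 from congrFun hy i, mul_zero]
  have hTsurj : Function.Surjective T :=
    (LinearMap.injective_iff_surjective_of_finrank_eq_finrank (by rw [hD.finrank_eq]; simp)).mp hTinj
  choose fT hfT using fun j : Fin 2 => hTsurj (Pi.single j 1)
  let f : Fin 2 → (Fin 4 → F) := fun j => fT j
  have hfe : ∀ i j, Cfsg.hermForm 4 F q (f j) (e i) = if i = j then 1 else 0 := fun i j => by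
    have := congrFun (hfT j) i
    rw [Pi.single_apply] at this
    exact this
  have hef : ∀ i j, Cfsg.hermForm 4 F q (e i) (f j) = if i = j then 1 else 0 := fun i j => by
    rw [hf.herm, hfe]; split <;> simp [hq0]
  have hee : ∀ i j, Cfsg.hermForm 4 F q (e i) (e j) = 0 := fun i j => hts 0 _ (heD i) _ (heD j)
  have hff : ∀ i j, Cfsg.hermForm 4 F q (f i) (f j) = 0 := fun i j => hts 1 _ (fT i).2 _ (fT j).2
  let vec : F → F → F → F → (Fin 4 → F) := fun a b c d => a • e 0 + b • e 1 + c • f 0 + d • f 1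
  have hvec : ∀ a b c d a' b' c' d', Cfsg.hermForm 4 F q (vec a b c d) (vec a' b' c' d') =
      a * c' ^ q + b * d' ^ q + c * a' ^ q + d * b' ^ q := by
    intro a b c d a' b' c' d'
    simp only [vec, hf.add_left, hf.add_right' hF, hf.smul_left, hf.smul_right', hee, hff, hef, hfe]
    simp
  let V : Fin 4 → (Fin 4 → F) := ![e 0, e 1, f 0, f 1]
  have hli : LinearIndependent F V := by
    rw [Fintype.linearIndependent_iff]
    intro t ht
    simp only [V, Fin.sum_univ_four, Matrix.cons_val_zero, Matrix.cons_val_one, Matrix.cons_val] at ht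
    have hv : vec (t 0) (t 1) (t 2) (t 3) = 0 := ht
    have k : ∀ a b c d, Cfsg.hermForm 4 F q (vec (t 0) (t 1) (t 2) (t 3)) (vec a b c d) = 0 := fun a b c d => by
      rw [hv, hf.zero_left']
    have k0 := k 0 0 1 0
    have k1 := k 0 0 0 1
    have k2 := k 1 0 0 0
    have k3 := k 0 1 0 0
    simp only [hvec, zero_pow hq0, one_pow, mul_zero, mul_one, add_zero, zero_add] at k0 k1 k2 k3
    intro i
    fin_cases i <;> assumption
  let bV := basisOfLinearIndependentOfCardEqFinrank hli (by simp)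
  have hbV : ⇑bV = V := coe_basisOfLinearIndependentOfCardEqFinrank hli _
  have hcoord : ∀ v, ∃ a b c d, v = vec a b c d := fun v => by
    refine ⟨bV.equivFun v 0, bV.equivFun v 1, bV.equivFun v 2, bV.equivFun v 3, ?_⟩
    conv_lhs => rw [← bV.sum_equivFun v, Fin.sum_univ_four, hbV]
    rfl
  -- the structure
  let ψ : F → F → (Fin 4 → F) := fun x y => vec x y (y ^ q) (-(x ^ q))
  let col : Fin 4 → (Fin 4 → F) := ![ψ 1 0, ψ 0 1, ψ ω 0, ψ 0 ω]
  have hcol : ∀ t : Fin 4 → F, ∑ j, t j • col j = vec (t 0 + t 2 * ω) (t 1 + t 3 * ω)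
      (t 1 + t 3 * ω ^ q) (-(t 0 + t 2 * ω ^ q)) := by
    intro t
    simp only [Fin.sum_univ_four, col, ψ, vec, Matrix.cons_val_zero, Matrix.cons_val_one, Matrix.cons_val,
      zero_pow hq0, one_pow, neg_zero]
    module
  have hcolF : ∀ t : Fin 4 → F, (∀ i, t i ∈ F₀) → ∑ j, t j • col j = ψ (t 0 + t 2 * ω) (t 1 + t 3 * ω) := by
    intro t ht
    rw [hcol]
    simp only [ψ, hF.add_pow, mul_pow, (hF₀ _).mp (ht 0), (hF₀ _).mp (ht 1), (hF₀ _).mp (ht 2), (hF₀ _).mp (ht 3)]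
  have hsolve : ∀ x y, ∃ t : Fin 4 → F, (∀ i, t i ∈ F₀) ∧ ∑ j, t j • col j = ψ x y := by
    have hdec : ∀ z : F, ∃ a b : F, a ^ q = a ∧ b ^ q = b ∧ z = a + b * ω := by
      intro z
      set β := (z ^ q - z) / (ω ^ q - ω) with hβ
      have hβfix : β ^ q = β := by
        rw [hβ, div_pow, hF.sub_pow, hF.sub_pow, hF.pow_pow, hF.pow_pow, ← neg_sub (z ^ q), ← neg_sub (ω ^ q),
          neg_div_neg_eq]
      refine ⟨z - β * ω, β, ?_, hβfix, (sub_add_cancel _ _).symm⟩
      rw [hF.sub_pow, mul_pow, hβfix]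
      have : β * (ω ^ q - ω) = z ^ q - z := div_mul_cancel₀ _ (sub_ne_zero.mpr hω)
      linear_combination -this
    intro x y
    obtain ⟨a, b, ha, hb, rfl⟩ := hdec x
    obtain ⟨c, d, hc, hd, rfl⟩ := hdec y
    have hmem : ∀ i, (![a, c, b, d] : Fin 4 → F) i ∈ F₀ := fun i => by
      fin_cases i <;> simp [hF₀, ha, hb, hc, hd]
    exact ⟨![a, c, b, d], hmem, by rw [hcolF _ hmem]; rfl⟩
  have hcolli : LinearIndependent F col := by
    rw [Fintype.linearIndependent_iff]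
    intro t ht
    rw [hcol] at ht
    have k : ∀ a b c d, Cfsg.hermForm 4 F q (vec (t 0 + t 2 * ω) (t 1 + t 3 * ω)
      (t 1 + t 3 * ω ^ q) (-(t 0 + t 2 * ω ^ q))) (vec a b c d) = 0 := fun a b c d => by rw [ht, hf.zero_left']
    have k0 := k 0 0 1 0
    have k1 := k 0 0 0 1
    have k2 := k 1 0 0 0
    have k3 := k 0 1 0 0
    simp only [hvec, zero_pow hq0, one_pow, mul_zero, mul_one, add_zero, zero_add] at k0 k1 k2 k3
    have h2 : t 2 = 0 := (mul_eq_zero.mp
      (show t 2 * (ω ^ q - ω) = 0 by linear_combination -k0 - k3)).resolve_right (sub_ne_zero.mpr hω)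
    have h3 : t 3 = 0 := (mul_eq_zero.mp
      (show t 3 * (ω ^ q - ω) = 0 by linear_combination k2 - k1)).resolve_right (sub_ne_zero.mpr hω)
    intro i
    fin_cases i
    · show t 0 = 0; linear_combination k0 - ω * h2
    · show t 1 = 0; linear_combination k1 - ω * h3
    · exact h2
    · exact h3
  let bC := basisOfLinearIndependentOfCardEqFinrank hcolli (by simp)
  let Pe : (Fin 4 → F) ≃ₗ[F] (Fin 4 → F) := bC.equivFun.symm
  have hPe : ∀ u, Pe u = ∑ j, u j • col j := fun u => by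
    simp [Pe, Basis.equivFun_symm_apply, bC]
  refine ⟨F₀, GeoClasses.glOfEquiv Pe, δ, hcard, hδ0, by rw [hδ]; ring, fun u v hu hv => ?_, fun u hu => ?_, ?_⟩
  · rw [GeoClasses.glOfEquiv_mulVec, GeoClasses.glOfEquiv_mulVec, hPe, hPe, hcolF u hu, hcolF v hv, hvec, hF₀,
      mul_pow, hδ]
    simp only [hF.add_pow, hF.pow_pow, mul_pow, hF.neg_pow]
    ring
  · rw [GeoClasses.glOfEquiv_mulVec, hPe, hcolF u hu, hvec, hF.neg_pow, hF.pow_pow, hF.pow_pow]
    ring
  rintro g ⟨⟨σ, hσ⟩, hgU, hgdet⟩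
  have hscal : ∀ c : F, c ^ q = c → c ≠ 0 → ∃ s : F, s ≠ 0 ∧ s ^ q = c * s := by
    intro c hc hc0
    have hc2 : c ^ 2 = 1 := by
      have h1 := (hF.fixed_iff hc0).mp hc
      have := hF.one_lt
      interval_cases q
      · rw [show c ^ 2 = (c ^ (2 - 1)) ^ 2 by norm_num, h1, one_pow]
      · exact h1
    rcases sq_eq_one_iff.mp hc2 with rfl | rfl
    · exact ⟨1, one_ne_zero, by rw [one_pow, one_mul]⟩
    · exact ⟨δ, hδ0, by rw [hδ, neg_one_mul]⟩
  have hU : ∀ u v, Cfsg.hermForm 4 F q ((g : Matrix (Fin 4) (Fin 4) F) *ᵥ u) ((g : Matrix (Fin 4) (Fin 4) F) *ᵥ v) =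
      Cfsg.hermForm 4 F q u v := fun u v => hgU u v
  have hge : ∀ i, (g : Matrix (Fin 4) (Fin 4) F) *ᵥ e i ∈ D (σ 0) := fun i => by
    rw [← hσ]; exact ⟨e i, heD i, Matrix.toLin'_apply _ _⟩
  have hgf : ∀ i, (g : Matrix (Fin 4) (Fin 4) F) *ᵥ f i ∈ D (σ 1) := fun i => by
    rw [← hσ]; exact ⟨f i, (fT i).2, Matrix.toLin'_apply _ _⟩
  have hD0 : ∀ v ∈ D 0, ∃ a b, v = vec a b 0 0 := fun v hv => by
    obtain ⟨a, b, c, d, rfl⟩ := hcoord v
    have k0 := hts 0 _ hv _ (heD 0)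
    have k1 := hts 0 _ hv _ (heD 1)
    rw [show e 0 = vec 1 0 0 0 by simp [vec]] at k0
    rw [show e 1 = vec 0 1 0 0 by simp [vec]] at k1
    simp only [hvec, zero_pow hq0, one_pow, mul_zero, mul_one, add_zero, zero_add] at k0 k1
    exact ⟨a, b, by rw [k0, k1]⟩
  have hD1 : ∀ v ∈ D 1, ∃ c d, v = vec 0 0 c d := fun v hv => by
    obtain ⟨a, b, c, d, rfl⟩ := hcoord v
    have k0 := hts 1 _ hv _ (fT 0).2
    have k1 := hts 1 _ hv _ (fT 1).2
    rw [show (fT 0 : Fin 4 → F) = vec 0 0 1 0 by simp [vec, f]] at k0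
    rw [show (fT 1 : Fin 4 → F) = vec 0 0 0 1 by simp [vec, f]] at k1
    simp only [hvec, zero_pow hq0, one_pow, mul_zero, mul_one, add_zero, zero_add] at k0 k1
    exact ⟨c, d, by rw [k0, k1]⟩
  have hdetM : ∀ M : Matrix (Fin 4) (Fin 4) F, (∀ j, (g : Matrix (Fin 4) (Fin 4) F) *ᵥ V j = ∑ i, M i j • V i) →
      M.det = 1 := by
    intro M hM
    have hmat : LinearMap.toMatrix bV bV (Matrix.toLin' (g : Matrix (Fin 4) (Fin 4) F)) = M := by
      ext i j
      rw [LinearMap.toMatrix_apply, hbV, Matrix.toLin'_apply, hM, ← hbV, Basis.repr_sum_self]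
    rw [← hmat, LinearMap.det_toMatrix, LinearMap.det_toLin', GeoClasses.mem_specialLinear_iff.mp hgdet]
  have hgvec : ∀ a b c d, (g : Matrix (Fin 4) (Fin 4) F) *ᵥ vec a b c d =
      a • ((g : Matrix (Fin 4) (Fin 4) F) *ᵥ e 0) + b • ((g : Matrix (Fin 4) (Fin 4) F) *ᵥ e 1) +
      c • ((g : Matrix (Fin 4) (Fin 4) F) *ᵥ f 0) + d • ((g : Matrix (Fin 4) (Fin 4) F) *ᵥ f 1) := by
    intro a b c d
    simp [vec, Matrix.mulVec_add, Matrix.mulVec_smul]
  -- the algebra of dual blocks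
  have halg : ∀ a b c d p r s t : F, a * p ^ q + b * r ^ q = 1 → a * s ^ q + b * t ^ q = 0 →
      c * p ^ q + d * r ^ q = 0 → c * s ^ q + d * t ^ q = 1 → (a * d - b * c) * (p * t - r * s) = 1 →
      ∃ D : F, D ^ q = D ∧ D ≠ 0 ∧ d ^ q = D * p ∧ c ^ q = -(D * r) ∧ b ^ q = -(D * s) ∧ a ^ q = D * t := by
    intro a b c d p r s t h1 h2 h3 h4 h5
    set D := a * d - b * c with hDdef
    have hconj : D * (p * t - r * s) ^ q = 1 := by
      rw [hDdef, hF.sub_pow, mul_pow, mul_pow]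
      linear_combination h4 * (a * p ^ q + b * r ^ q) + h1 - h2 * (c * p ^ q + d * r ^ q)
    have hD0' : D ≠ 0 := left_ne_zero_of_mul_eq_one hconj
    have hDfix : D ^ q = D := by
      have h6 := congrArg (fun x => x ^ q) h5
      simp only [mul_pow, one_pow] at h6
      exact mul_right_cancel₀ (right_ne_zero_of_mul_eq_one hconj) (h6.trans hconj.symm)
    have e1 : d = D * p ^ q := by rw [hDdef]; linear_combination -d * h1 + b * h3
    have e2 : c = -(D * r ^ q) := by rw [hDdef]; linear_combination -c * h1 + a * h3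
    have e3 : b = -(D * s ^ q) := by rw [hDdef]; linear_combination d * h2 - b * h4
    have e4 : a = D * t ^ q := by rw [hDdef]; linear_combination c * h2 - a * h4
    refine ⟨D, hDfix, hD0', ?_, ?_, ?_, ?_⟩
    · rw [e1, mul_pow, hDfix, hF.pow_pow]
    · rw [e2, hF.neg_pow, mul_pow, hDfix, hF.pow_pow]
    · rw [e3, hF.neg_pow, mul_pow, hDfix, hF.pow_pow]
    · rw [e4, mul_pow, hDfix, hF.pow_pow]
  have hrel : ∀ i j, Cfsg.hermForm 4 F q ((g : Matrix (Fin 4) (Fin 4) F) *ᵥ e i)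
      ((g : Matrix (Fin 4) (Fin 4) F) *ᵥ f j) = if i = j then 1 else 0 := fun i j => by rw [hU, hef]
  have hpsi : ∃ s : F, s ≠ 0 ∧ ∀ x y, ∃ x' y', s • ((g : Matrix (Fin 4) (Fin 4) F) *ᵥ ψ x y) = ψ x' y' := by
    by_cases h0 : σ 0 = 0
    · have h1 : σ 1 = 1 := by
        rcases Fin.exists_fin_two.mp ⟨σ 1, rfl⟩ with h | h
        · exact absurd (σ.injective (h0.trans h.symm)) (by simp)
        · exact h
      obtain ⟨a, b, hga⟩ := hD0 _ (h0 ▸ hge 0)
      obtain ⟨c, d, hgb⟩ := hD0 _ (h0 ▸ hge 1)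
      obtain ⟨p, r, hgp⟩ := hD1 _ (h1 ▸ hgf 0)
      obtain ⟨s, t, hgs⟩ := hD1 _ (h1 ▸ hgf 1)
      have hdet := hdetM !![a, c, 0, 0; b, d, 0, 0; 0, 0, p, s; 0, 0, r, t] (fun j => by
        fin_cases j <;> simp [Fin.sum_univ_four, V, hga, hgb, hgp, hgs, vec])
      simp [Matrix.det_succ_row_zero, Fin.sum_univ_succ, Fin.succAbove] at hdet
      obtain ⟨D', hD', hD0', e1, e2, e3, e4⟩ := halg a b c d p r s t
        (by simpa [hga, hgp, hvec, hq0] using hrel 0 0) (by simpa [hga, hgs, hvec, hq0] using hrel 0 1)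
        (by simpa [hgb, hgp, hvec, hq0] using hrel 1 0) (by simpa [hgb, hgs, hvec, hq0] using hrel 1 1)
        (by linear_combination hdet)
      obtain ⟨sc, hsc0, hsc⟩ := hscal D'⁻¹ (by rw [inv_pow, hD']) (inv_ne_zero hD0')
      refine ⟨sc, hsc0, fun x y => ⟨sc * (x * a + y * c), sc * (x * b + y * d), ?_⟩⟩
      rw [show (g : Matrix (Fin 4) (Fin 4) F) *ᵥ ψ x y = _ from hgvec _ _ _ _, hga, hgb, hgp, hgs]
      simp only [ψ, vec, mul_pow, hF.add_pow, hsc, e1, e2, e3, e4]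
      have hi : D'⁻¹ * D' = 1 := inv_mul_cancel₀ hD0'
      match_scalars <;> first | ring1 | linear_combination (-sc * (x ^ q * s - y ^ q * p)) * hi | linear_combination (-sc * (x ^ q * t - y ^ q * r)) * hi | linear_combination (sc * (x ^ q * s - y ^ q * p)) * hi | linear_combination (sc * (x ^ q * t - y ^ q * r)) * hi
    · have h01 : σ 0 = 1 := (Fin.exists_fin_two.mp ⟨σ 0, rfl⟩).resolve_left h0
      have h1 : σ 1 = 0 := by
        rcases Fin.exists_fin_two.mp ⟨σ 1, rfl⟩ with h | h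
        · exact h
        · exact absurd (σ.injective (h01.trans h.symm)) (by simp)
      obtain ⟨a, b, hga⟩ := hD1 _ (h01 ▸ hge 0)
      obtain ⟨c, d, hgb⟩ := hD1 _ (h01 ▸ hge 1)
      obtain ⟨p, r, hgp⟩ := hD0 _ (h1 ▸ hgf 0)
      obtain ⟨s, t, hgs⟩ := hD0 _ (h1 ▸ hgf 1)
      have hdet := hdetM !![0, 0, p, s; 0, 0, r, t; a, c, 0, 0; b, d, 0, 0] (fun j => by
        fin_cases j <;> simp [Fin.sum_univ_four, V, hga, hgb, hgp, hgs, vec])
      simp [Matrix.det_succ_row_zero, Fin.sum_univ_succ, Fin.succAbove] at hdet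
      obtain ⟨D', hD', hD0', e1, e2, e3, e4⟩ := halg a b c d p r s t
        (by simpa [hga, hgp, hvec, hq0] using hrel 0 0) (by simpa [hga, hgs, hvec, hq0] using hrel 0 1)
        (by simpa [hgb, hgp, hvec, hq0] using hrel 1 0) (by simpa [hgb, hgs, hvec, hq0] using hrel 1 1)
        (by linear_combination hdet)
      obtain ⟨sc, hsc0, hsc⟩ := hscal (-D') (by rw [hF.neg_pow, hD']) (neg_ne_zero.mpr hD0')
      refine ⟨sc, hsc0, fun x y => ⟨sc * (y ^ q * p - x ^ q * s), sc * (y ^ q * r - x ^ q * t), ?_⟩⟩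
      rw [show (g : Matrix (Fin 4) (Fin 4) F) *ᵥ ψ x y = _ from hgvec _ _ _ _, hga, hgb, hgp, hgs]
      have ea : a = (D' * t) ^ q := by rw [← e4, hF.pow_pow]
      have eb : b = -((D' * s) ^ q) := by rw [← hF.neg_pow, ← e3, hF.pow_pow]
      have ec : c = -((D' * r) ^ q) := by rw [← hF.neg_pow, ← e2, hF.pow_pow]
      have ed : d = (D' * p) ^ q := by rw [← e1, hF.pow_pow]
      simp only [ψ, vec, mul_pow, hF.sub_pow, hF.pow_pow, hsc, ea, eb, ec, ed, hD']
      module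
  obtain ⟨s, hs0, hψ⟩ := hpsi
  refine mem_subfieldSubgroup_of_columns hs0 fun j => ?_
  have hj : ∃ x y, col j = ψ x y := by
    fin_cases j <;> exact ⟨_, _, rfl⟩
  obtain ⟨x, y, hxy⟩ := hj
  obtain ⟨x', y', hxy'⟩ := hψ x y
  obtain ⟨u, hu, hu'⟩ := hsolve x' y'
  refine ⟨u, hu, ?_⟩
  rw [GeoClasses.glOfEquiv_mulVec, GeoClasses.glOfEquiv_mulVec, hPe, hPe, hu', ← hxy', ← hxy,
    Finset.sum_eq_single j (fun i _ hi => by rw [Pi.single_eq_of_ne hi, zero_smul]) (by simp), Pi.single_eq_same,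
    one_smul]

end Cfsg.Agent.ClassicalMax
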