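import Cfsg.Agent.MaxSub.LinearClasses
import Cfsg.Agent.ClassicalMax.FieldExceptionThree
import Cfsg.Agent.ClassicalMax.DecompositionFive

/-!
The maximal subgroups of the special linear groups of dimension 3 to 7, given the dichotomy
"inside a member of a geometric class, or residual".
-/

set_option autoImplicit false

namespace Cfsg.Agent.ClassicalMax

open Matrix Cfsg.Geo Cfsg.Agent.MaxSub
open scoped MatrixGroups Matrix

variable {F : Type*} [Field F] [Fintype F]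

/-- The linear dichotomy in dimension `n`. -/
def LinearDichotomy (n : ℕ) (F : Type*) [Field F] [Fintype F] : Prop :=
  ∀ H : Subgroup (GL (Fin n) F), H ≤ specialLinear (Fin n) F →
      H ⊔ (scalars (Fin n) F ⊓ specialLinear (Fin n) F) ≠ specialLinear (Fin n) F →
      (∃ M, InLinearClass n F M ∧ H ≤ M) ∨ InLinearResidualClass H

theorem card_ne_six : Fintype.card F ≠ 6 := by
  intro h
  obtain ⟨p, hp⟩ := CharP.exists F
  obtain ⟨k, hpr, hk⟩ := FiniteField.card F p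
  rw [h] at hk
  have h2 : p = 2 := ((Nat.prime_dvd_prime_iff_eq Nat.prime_two hpr).mp
    (Nat.prime_two.dvd_of_dvd_pow (hk ▸ (by norm_num : (2 : ℕ) ∣ 6)))).symm
  have h3 : p = 3 := ((Nat.prime_dvd_prime_iff_eq Nat.prime_three hpr).mp
    (Nat.prime_three.dvd_of_dvd_pow (hk ▸ (by norm_num : (3 : ℕ) ∣ 6)))).symm
  omega

theorem eq_one_of_odd_dvd_two {e : ℕ} (he : Odd e) (h : e ∣ 2) : e = 1 := by
  have := Nat.le_of_dvd (by norm_num) h
  obtain ⟨k, rfl⟩ := he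
  omega

omit [Fintype F] in
theorem dec_shape {n t m : ℕ} {D : Fin t → Submodule F (Fin n → F)} (hD : IsMDecomposition m D)
    (h : t * m = n) : 2 ≤ t ∧ t ≤ n ∧ 1 ≤ m ∧ m ≤ n := by
  have ht := hD.two_le
  have hm : 1 ≤ m := hD.pos
  refine ⟨ht, ?_, hm, ?_⟩ <;> nlinarith

theorem eq_of_dvd_prime {p r : ℕ} (hp : p.Prime) (hr : r.Prime) (h : r ∣ p) : r = p :=
  (Nat.prime_dvd_prime_iff_eq hr hp).mp h

theorem tensor_shape {n n₁ n₂ : ℕ} (h1 : 2 ≤ n₁) (h2 : n₁ < n₂) (h : n = n₁ * n₂) (hn : n ≤ 7) :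
    n = 6 ∧ n₁ = 2 ∧ n₂ = 3 := by
  have : n₁ = 2 := by nlinarith
  subst this
  omega

theorem wreath_shape {n m t : ℕ} (hm : 3 ≤ m) (ht : 2 ≤ t) (h : n = m ^ t) : 9 ≤ n := by
  rw [h]
  calc 9 = 3 ^ 2 := by norm_num
    _ ≤ m ^ 2 := Nat.pow_le_pow_left hm 2
    _ ≤ m ^ t := Nat.pow_le_pow_right (by omega) ht

theorem sl3_cases (hdich : LinearDichotomy 3 F) {H : Subgroup (GL (Fin 3) F)}
    (hH : IsMaximalIn (specialLinear (Fin 3) F) H) :
    (∃ W : Submodule F (Fin 3 → F), W ≠ ⊥ ∧ W ≠ ⊤ ∧ H = subspaceStabilizer W ⊓ specialLinear (Fin 3) F) ∨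
    (5 ≤ Fintype.card F ∧ ∃ D : Fin 3 → Submodule F (Fin 3 → F), IsMDecomposition 1 D ∧
      H = decompositionStabilizer D ⊓ specialLinear (Fin 3) F) ∨
    (Fintype.card F ≠ 4 ∧ ∃ K : Subalgebra F (Matrix (Fin 3) (Fin 3) F), IsFieldSubalgebra 3 K ∧
      H = subalgebraNormalizer K ⊓ specialLinear (Fin 3) F) ∨
    (∃ (F₀ : Subfield F) (r : ℕ) (P : GL (Fin 3) F), r.Prime ∧ Fintype.card F = Nat.card F₀ ^ r ∧
      H = subfieldSubgroup F₀ P ⊓ specialLinear (Fin 3) F) ∨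
    (∃ (p : ℕ) (R : Subgroup (GL (Fin 3) F)), p.Prime ∧ Fintype.card F = p ∧ p % 3 = 1 ∧
      IsLinearSymplecticTypeData 3 R ∧ H = subgroupNormalizer R ⊓ specialLinear (Fin 3) F) ∨
    (Odd (Fintype.card F) ∧ ∃ Q : (Fin 3 → F) → F, IsNondegenerateQuadraticForm Q ∧
      H = quadSimilarityGroup Q ⊓ specialLinear (Fin 3) F) ∨
    (∃ (σ : F ≃+* F) (f : (Fin 3 → F) → (Fin 3 → F) → F), IsUnitaryForm σ f ∧
      H = similarityGroup f ⊓ specialLinear (Fin 3) F) ∨
    InLinearResidualClass H := by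
  rcases maximal_cases le_rfl hdich hH with hW | ⟨t, m, D, hD, htm, he⟩ | ⟨r, K, hr, hrn, hK, he⟩ |
    ⟨n₁, n₂, e, P, h1, h2, hn, he⟩ | hsub | ⟨r, m, R, hr, hn, hrn, hR, he⟩ |
    ⟨m, t, e, P, hm, ht, hn, he⟩ | ⟨f, hf, hev, he⟩ | hu | ⟨Q, hQ, hodd, he⟩ | hres
  · exact Or.inl hW
  · obtain ⟨ht, ht', hm, hm'⟩ := dec_shape hD htm
    obtain ⟨rfl, rfl⟩ : t = 3 ∧ m = 1 := by interval_cases t <;> omega
    by_cases hq : 5 ≤ Fintype.card F
    · exact Or.inr (Or.inl ⟨hq, D, hD, he⟩)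
    · rcases lines_cases le_rfl hD hH he (by omega) with h | ⟨Q, ho, hQ, h⟩ | h
      · exact Or.inl h
      · iterate 5 right
        exact Or.inl ⟨ho, Q, hQ, h⟩
      · iterate 6 right
        exact Or.inl h
  · obtain rfl := eq_of_dvd_prime Nat.prime_three hr hrn
    by_cases hq : Fintype.card F = 4
    · obtain ⟨F₀, P, hc, hle⟩ := fieldNormalizer_le_subfieldSubgroup hq hK
      iterate 3 right
      exact Or.inl ⟨F₀, 2, P, Nat.prime_two, hc,
        eq_inf_of_le hH (he.le.trans hle) (not_le_subfieldSubgroup (subfield_ne_top Nat.prime_two hc) P)⟩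
    · exact Or.inr (Or.inr (Or.inl ⟨hq, K, hK, he⟩))
  · have := tensor_shape h1 h2 hn (by norm_num); omega
  · exact Or.inr (Or.inr (Or.inr (Or.inl hsub)))
  · obtain rfl := eq_of_dvd_prime Nat.prime_three hr hrn
    obtain ⟨p, e, hp, -, hc, hodd, hpe, hdvd, -⟩ := data_odd (by norm_num) hR
    obtain rfl := eq_one_of_odd_dvd_two hodd hdvd
    rw [pow_one] at hc hpe
    iterate 4 right
    refine Or.inl ⟨p, R, hp, hc, ?_, hR, he⟩
    rw [← Nat.cast_one, ZMod.natCast_eq_natCast_iff'] at hpe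
    exact hpe
  · have := wreath_shape hm ht hn; omega
  · exact absurd hev (by decide)
  · iterate 6 right
    exact Or.inl hu
  · iterate 5 right
    exact Or.inl ⟨hodd, Q, hQ, he⟩
  · iterate 7 right
    exact hres

theorem sl4_cases (hdich : LinearDichotomy 4 F) {H : Subgroup (GL (Fin 4) F)}
    (hH : IsMaximalIn (specialLinear (Fin 4) F) H) :
    (∃ W : Submodule F (Fin 4 → F), W ≠ ⊥ ∧ W ≠ ⊤ ∧ H = subspaceStabilizer W ⊓ specialLinear (Fin 4) F) ∨
    (7 ≤ Fintype.card F ∧ ∃ D : Fin 4 → Submodule F (Fin 4 → F), IsMDecomposition 1 D ∧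
      H = decompositionStabilizer D ⊓ specialLinear (Fin 4) F) ∨
    (4 ≤ Fintype.card F ∧ ∃ D : Fin 2 → Submodule F (Fin 4 → F), IsMDecomposition 2 D ∧
      H = decompositionStabilizer D ⊓ specialLinear (Fin 4) F) ∨
    (∃ K : Subalgebra F (Matrix (Fin 4) (Fin 4) F), IsFieldSubalgebra 2 K ∧
      H = subalgebraNormalizer K ⊓ specialLinear (Fin 4) F) ∨
    (∃ (F₀ : Subfield F) (r : ℕ) (P : GL (Fin 4) F), r.Prime ∧ Fintype.card F = Nat.card F₀ ^ r ∧
      H = subfieldSubgroup F₀ P ⊓ specialLinear (Fin 4) F) ∨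
    (∃ (p : ℕ) (R : Subgroup (GL (Fin 4) F)), p.Prime ∧ Fintype.card F = p ∧ p % 4 = 1 ∧
      IsLinearSymplecticTypeData 2 R ∧ H = subgroupNormalizer R ⊓ specialLinear (Fin 4) F) ∨
    (Odd (Fintype.card F) ∧ ∃ Q : (Fin 4 → F) → F, IsNondegenerateQuadraticForm Q ∧
      H = quadSimilarityGroup Q ⊓ specialLinear (Fin 4) F) ∨
    (∃ f : (Fin 4 → F) → (Fin 4 → F) → F, IsSymplecticForm f ∧
      H = similarityGroup f ⊓ specialLinear (Fin 4) F) ∨
    (∃ (σ : F ≃+* F) (f : (Fin 4 → F) → (Fin 4 → F) → F), IsUnitaryForm σ f ∧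
      H = similarityGroup f ⊓ specialLinear (Fin 4) F) ∨
    InLinearResidualClass H := by
  have h3 : 3 ≤ Fintype.card (Fin 4) := by simp
  have hone := Fintype.one_lt_card (α := F)
  rcases maximal_cases (by norm_num) hdich hH with hW | ⟨t, m, D, hD, htm, he⟩ | ⟨r, K, hr, hrn, hK, he⟩ |
    ⟨n₁, n₂, e, P, h1, h2, hn, he⟩ | hsub | ⟨r, m, R, hr, hn, hrn, hR, he⟩ |
    ⟨m, t, e, P, hm, ht, hn, he⟩ | ⟨f, hf, hev, he⟩ | hu | ⟨Q, hQ, hodd, he⟩ | hres
  · exact Or.inl hW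
  · obtain ⟨ht, ht', hm, hm'⟩ := dec_shape hD htm
    rcases (show (t = 4 ∧ m = 1) ∨ (t = 2 ∧ m = 2) by interval_cases t <;> omega) with ⟨rfl, rfl⟩ | ⟨rfl, rfl⟩
    · by_cases hq : 7 ≤ Fintype.card F
      · exact Or.inr (Or.inl ⟨hq, D, hD, he⟩)
      · by_cases hq5 : Fintype.card F = 5
        · obtain ⟨R, hR, hle⟩ := decomposition_le_symplecticTypeNormalizer_of_five hq5 hD
          have : Fact (Nat.Prime 2) := ⟨Nat.prime_two⟩
          iterate 5 right
          exact Or.inl ⟨5, R, by norm_num, hq5, by norm_num, hR, eq_inf_of_le hH (he.le.trans hle)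
            (not_le_subgroupNormalizer h3 hR.symplecticType.pGroup hR.absIrred)⟩
        · have := card_ne_six (F := F)
          rcases lines_cases (by norm_num) hD hH he (by omega) with h | ⟨Q, ho, hQ, h⟩ | h
          · exact Or.inl h
          · iterate 6 right
            exact Or.inl ⟨ho, Q, hQ, h⟩
          · iterate 8 right
            exact Or.inl h
    · by_cases hq : 4 ≤ Fintype.card F
      · exact Or.inr (Or.inr (Or.inl ⟨hq, D, hD, he⟩))
      · obtain ⟨f, hf, hle⟩ := decomposition_le_similarityGroup_symplectic hD (by omega)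
        iterate 7 right
        exact Or.inl ⟨f, hf, eq_inf_of_le hH (he.le.trans hle) (not_le_similarityGroup_symplectic h3 hf)⟩
  · obtain rfl : r = 2 := eq_of_dvd_prime Nat.prime_two hr (hr.dvd_of_dvd_pow (n := 2) hrn)
    exact Or.inr (Or.inr (Or.inr (Or.inl ⟨K, hK, he⟩)))
  · have := tensor_shape h1 h2 hn (by norm_num); omega
  · iterate 4 right
    exact Or.inl hsub
  · obtain rfl : r = 2 := eq_of_dvd_prime Nat.prime_two hr (hr.dvd_of_dvd_pow (n := 2) hrn)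
    obtain ⟨p, hp, hc, hmod⟩ := data_two (by norm_num) hR
    iterate 5 right
    exact Or.inl ⟨p, R, hp, hc, hmod, hR, he⟩
  · have := wreath_shape hm ht hn; omega
  · iterate 7 right
    exact Or.inl ⟨f, hf, he⟩
  · iterate 8 right
    exact Or.inl hu
  · iterate 6 right
    exact Or.inl ⟨hodd, Q, hQ, he⟩
  · iterate 9 right
    exact hres

theorem sl5_cases (hdich : LinearDichotomy 5 F) {H : Subgroup (GL (Fin 5) F)}
    (hH : IsMaximalIn (specialLinear (Fin 5) F) H) :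
    (∃ W : Submodule F (Fin 5 → F), W ≠ ⊥ ∧ W ≠ ⊤ ∧ H = subspaceStabilizer W ⊓ specialLinear (Fin 5) F) ∨
    (5 ≤ Fintype.card F ∧ ∃ D : Fin 5 → Submodule F (Fin 5 → F), IsMDecomposition 1 D ∧
      H = decompositionStabilizer D ⊓ specialLinear (Fin 5) F) ∨
    (∃ K : Subalgebra F (Matrix (Fin 5) (Fin 5) F), IsFieldSubalgebra 5 K ∧
      H = subalgebraNormalizer K ⊓ specialLinear (Fin 5) F) ∨
    (∃ (F₀ : Subfield F) (r : ℕ) (P : GL (Fin 5) F), r.Prime ∧ Fintype.card F = Nat.card F₀ ^ r ∧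
      H = subfieldSubgroup F₀ P ⊓ specialLinear (Fin 5) F) ∨
    ((∃ p : ℕ, p.Prime ∧ Fintype.card F = p ∧ (p % 5 = 1)) ∧ ∃ R : Subgroup (GL (Fin 5) F),
      IsLinearSymplecticTypeData 5 R ∧ H = subgroupNormalizer R ⊓ specialLinear (Fin 5) F) ∨
    (Odd (Fintype.card F) ∧ ∃ Q : (Fin 5 → F) → F, IsNondegenerateQuadraticForm Q ∧
      H = quadSimilarityGroup Q ⊓ specialLinear (Fin 5) F) ∨
    (∃ (σ : F ≃+* F) (f : (Fin 5 → F) → (Fin 5 → F) → F), IsUnitaryForm σ f ∧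
      H = similarityGroup f ⊓ specialLinear (Fin 5) F) ∨
    InLinearResidualClass H := by
  rcases maximal_cases (by norm_num) hdich hH with hW | ⟨t, m, D, hD, htm, he⟩ | ⟨r, K, hr, hrn, hK, he⟩ |
    ⟨n₁, n₂, e, P, h1, h2, hn, he⟩ | hsub | ⟨r, m, R, hr, hn, hrn, hR, he⟩ |
    ⟨m, t, e, P, hm, ht, hn, he⟩ | ⟨f, hf, hev, he⟩ | hu | ⟨Q, hQ, hodd, he⟩ | hres
  · exact Or.inl hW
  · obtain ⟨ht, ht', hm, hm'⟩ := dec_shape hD htm
    obtain ⟨rfl, rfl⟩ : t = 5 ∧ m = 1 := by interval_cases t <;> omega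
    by_cases hq : 5 ≤ Fintype.card F
    · exact Or.inr (Or.inl ⟨hq, D, hD, he⟩)
    · rcases lines_cases (by norm_num) hD hH he (by omega) with h | ⟨Q, ho, hQ, h⟩ | h
      · exact Or.inl h
      · iterate 5 right
        exact Or.inl ⟨ho, Q, hQ, h⟩
      · iterate 6 right
        exact Or.inl h
  · obtain rfl := eq_of_dvd_prime (by norm_num : Nat.Prime 5) hr hrn
    exact Or.inr (Or.inr (Or.inl ⟨K, hK, he⟩))
  · have := tensor_shape h1 h2 hn (by norm_num); omega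
  · exact Or.inr (Or.inr (Or.inr (Or.inl hsub)))
  · obtain rfl := eq_of_dvd_prime (by norm_num : Nat.Prime 5) hr hrn
    obtain ⟨p, e, hp, -, hc, hodd, hpe, hdvd, -⟩ := data_odd (by norm_num) hR
    obtain rfl : e = 1 := by
      have := Nat.le_of_dvd (by norm_num) hdvd
      interval_cases e <;> first | rfl | (exfalso; revert hodd hdvd; decide)
    rw [pow_one] at hc hpe
    iterate 4 right
    refine Or.inl ⟨⟨p, hp, hc, ?_⟩, R, hR, he⟩
    rw [← Nat.cast_one, ZMod.natCast_eq_natCast_iff'] at hpe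
    exact hpe
  · have := wreath_shape hm ht hn; omega
  · exact absurd hev (by decide)
  · iterate 6 right
    exact Or.inl hu
  · iterate 5 right
    exact Or.inl ⟨hodd, Q, hQ, he⟩
  · iterate 7 right
    exact hres

theorem sl6_cases (hdich : LinearDichotomy 6 F) {H : Subgroup (GL (Fin 6) F)}
    (hH : IsMaximalIn (specialLinear (Fin 6) F) H) :
    (∃ W : Submodule F (Fin 6 → F), W ≠ ⊥ ∧ W ≠ ⊤ ∧ H = subspaceStabilizer W ⊓ specialLinear (Fin 6) F) ∨
    (5 ≤ Fintype.card F ∧ ∃ D : Fin 6 → Submodule F (Fin 6 → F), IsMDecomposition 1 D ∧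
      H = decompositionStabilizer D ⊓ specialLinear (Fin 6) F) ∨
    (3 ≤ Fintype.card F ∧ ∃ D : Fin 3 → Submodule F (Fin 6 → F), IsMDecomposition 2 D ∧
      H = decompositionStabilizer D ⊓ specialLinear (Fin 6) F) ∨
    (∃ D : Fin 2 → Submodule F (Fin 6 → F), IsMDecomposition 3 D ∧
      H = decompositionStabilizer D ⊓ specialLinear (Fin 6) F) ∨
    (∃ K : Subalgebra F (Matrix (Fin 6) (Fin 6) F), IsFieldSubalgebra 2 K ∧
      H = subalgebraNormalizer K ⊓ specialLinear (Fin 6) F) ∨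
    (∃ K : Subalgebra F (Matrix (Fin 6) (Fin 6) F), IsFieldSubalgebra 3 K ∧
      H = subalgebraNormalizer K ⊓ specialLinear (Fin 6) F) ∨
    (3 ≤ Fintype.card F ∧ ∃ (e : Fin 6 ≃ Fin 2 × Fin 3) (P : GL (Fin 6) F),
      H = tensorProductSubgroup 2 3 e P ⊓ specialLinear (Fin 6) F) ∨
    (∃ (F₀ : Subfield F) (r : ℕ) (P : GL (Fin 6) F), r.Prime ∧ Fintype.card F = Nat.card F₀ ^ r ∧
      H = subfieldSubgroup F₀ P ⊓ specialLinear (Fin 6) F) ∨
    (Odd (Fintype.card F) ∧ ∃ Q : (Fin 6 → F) → F, IsNondegenerateQuadraticForm Q ∧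
      H = quadSimilarityGroup Q ⊓ specialLinear (Fin 6) F) ∨
    (∃ f : (Fin 6 → F) → (Fin 6 → F) → F, IsSymplecticForm f ∧
      H = similarityGroup f ⊓ specialLinear (Fin 6) F) ∨
    (∃ (σ : F ≃+* F) (f : (Fin 6 → F) → (Fin 6 → F) → F), IsUnitaryForm σ f ∧
      H = similarityGroup f ⊓ specialLinear (Fin 6) F) ∨
    InLinearResidualClass H := by
  have h3 : 3 ≤ Fintype.card (Fin 6) := by simp
  have hone := Fintype.one_lt_card (α := F)
  rcases maximal_cases (by norm_num) hdich hH with hW | ⟨t, m, D, hD, htm, he⟩ | ⟨r, K, hr, hrn, hK, he⟩ |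
    ⟨n₁, n₂, e, P, h1, h2, hn, he⟩ | hsub | ⟨r, m, R, hr, hn, hrn, hR, he⟩ |
    ⟨m, t, e, P, hm, ht, hn, he⟩ | ⟨f, hf, hev, he⟩ | hu | ⟨Q, hQ, hodd, he⟩ | hres
  · exact Or.inl hW
  · obtain ⟨ht, ht', hm, hm'⟩ := dec_shape hD htm
    rcases (show (t = 6 ∧ m = 1) ∨ (t = 3 ∧ m = 2) ∨ (t = 2 ∧ m = 3) by interval_cases t <;> omega) with
      ⟨rfl, rfl⟩ | ⟨rfl, rfl⟩ | ⟨rfl, rfl⟩
    · by_cases hq : 5 ≤ Fintype.card F
      · exact Or.inr (Or.inl ⟨hq, D, hD, he⟩)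
      · rcases lines_cases (by norm_num) hD hH he (by omega) with h | ⟨Q, ho, hQ, h⟩ | h
        · exact Or.inl h
        · iterate 8 right
          exact Or.inl ⟨ho, Q, hQ, h⟩
        · iterate 10 right
          exact Or.inl h
    · by_cases hq : 3 ≤ Fintype.card F
      · exact Or.inr (Or.inr (Or.inl ⟨hq, D, hD, he⟩))
      · iterate 9 right
        exact Or.inl (planes_case (by norm_num) hD hH he (by omega))
    · exact Or.inr (Or.inr (Or.inr (Or.inl ⟨D, hD, he⟩)))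
  · have hr' : r = 2 ∨ r = 3 := by
      rcases hr.dvd_mul.mp (show r ∣ 2 * 3 from hrn) with h | h
      · exact Or.inl (eq_of_dvd_prime Nat.prime_two hr h)
      · exact Or.inr (eq_of_dvd_prime Nat.prime_three hr h)
    rcases hr' with rfl | rfl
    · iterate 4 right
      exact Or.inl ⟨K, hK, he⟩
    · iterate 5 right
      exact Or.inl ⟨K, hK, he⟩
  · obtain ⟨-, rfl, rfl⟩ := tensor_shape h1 h2 hn (by norm_num)
    by_cases hq : 3 ≤ Fintype.card F
    · iterate 6 right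
      exact Or.inl ⟨hq, e, P, he⟩
    · obtain ⟨K, hK, hle⟩ := tensor_two_le_normalizer (n := 6) (by norm_num : 0 < 3) (by omega) e P
      iterate 4 right
      exact Or.inl ⟨K, hK, eq_inf_of_le hH ((he.le.trans inf_le_left).trans hle)
        (not_specialLinear_le_normalizer (by norm_num) h3 hK)⟩
  · iterate 7 right
    exact Or.inl hsub
  · exfalso
    rcases hr.dvd_mul.mp (show r ∣ 2 * 3 from hrn) with h | h
    · obtain rfl := eq_of_dvd_prime Nat.prime_two hr h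
      have : 3 ∣ 2 := Nat.prime_three.dvd_of_dvd_pow (hn ▸ (by norm_num : (3 : ℕ) ∣ 6))
      norm_num at this
    · obtain rfl := eq_of_dvd_prime Nat.prime_three hr h
      have : 2 ∣ 3 := Nat.prime_two.dvd_of_dvd_pow (hn ▸ (by norm_num : (2 : ℕ) ∣ 6))
      norm_num at this
  · have := wreath_shape hm ht hn; omega
  · iterate 9 right
    exact Or.inl ⟨f, hf, he⟩
  · iterate 10 right
    exact Or.inl hu
  · iterate 8 right
    exact Or.inl ⟨hodd, Q, hQ, he⟩
  · iterate 11 right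
    exact hres

theorem sl7_cases (hdich : LinearDichotomy 7 F) {H : Subgroup (GL (Fin 7) F)}
    (hH : IsMaximalIn (specialLinear (Fin 7) F) H) :
    (∃ W : Submodule F (Fin 7 → F), W ≠ ⊥ ∧ W ≠ ⊤ ∧ H = subspaceStabilizer W ⊓ specialLinear (Fin 7) F) ∨
    (5 ≤ Fintype.card F ∧ ∃ D : Fin 7 → Submodule F (Fin 7 → F), IsMDecomposition 1 D ∧
      H = decompositionStabilizer D ⊓ specialLinear (Fin 7) F) ∨
    (∃ K : Subalgebra F (Matrix (Fin 7) (Fin 7) F), IsFieldSubalgebra 7 K ∧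
      H = subalgebraNormalizer K ⊓ specialLinear (Fin 7) F) ∨
    (∃ (F₀ : Subfield F) (r : ℕ) (P : GL (Fin 7) F), r.Prime ∧ Fintype.card F = Nat.card F₀ ^ r ∧
      H = subfieldSubgroup F₀ P ⊓ specialLinear (Fin 7) F) ∨
    ((∃ p : ℕ, p.Prime ∧ CharP F p ∧ ((Fintype.card F = p ∧ p % 7 = 1) ∨
        (Fintype.card F = p ^ 3 ∧ (p % 7 = 2 ∨ p % 7 = 4)))) ∧
      ∃ R : Subgroup (GL (Fin 7) F), IsLinearSymplecticTypeData 7 R ∧
        H = subgroupNormalizer R ⊓ specialLinear (Fin 7) F) ∨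
    (Odd (Fintype.card F) ∧ ∃ Q : (Fin 7 → F) → F, IsNondegenerateQuadraticForm Q ∧
      H = quadSimilarityGroup Q ⊓ specialLinear (Fin 7) F) ∨
    (∃ (σ : F ≃+* F) (f : (Fin 7 → F) → (Fin 7 → F) → F), IsUnitaryForm σ f ∧
      H = similarityGroup f ⊓ specialLinear (Fin 7) F) ∨
    InLinearResidualClass H := by
  rcases maximal_cases (by norm_num) hdich hH with hW | ⟨t, m, D, hD, htm, he⟩ | ⟨r, K, hr, hrn, hK, he⟩ |
    ⟨n₁, n₂, e, P, h1, h2, hn, he⟩ | hsub | ⟨r, m, R, hr, hn, hrn, hR, he⟩ |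
    ⟨m, t, e, P, hm, ht, hn, he⟩ | ⟨f, hf, hev, he⟩ | hu | ⟨Q, hQ, hodd, he⟩ | hres
  · exact Or.inl hW
  · obtain ⟨ht, ht', hm, hm'⟩ := dec_shape hD htm
    obtain ⟨rfl, rfl⟩ : t = 7 ∧ m = 1 := by interval_cases t <;> omega
    by_cases hq : 5 ≤ Fintype.card F
    · exact Or.inr (Or.inl ⟨hq, D, hD, he⟩)
    · rcases lines_cases (by norm_num) hD hH he (by omega) with h | ⟨Q, ho, hQ, h⟩ | h
      · exact Or.inl h
      · iterate 5 right
        exact Or.inl ⟨ho, Q, hQ, h⟩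
      · iterate 6 right
        exact Or.inl h
  · obtain rfl := eq_of_dvd_prime (by norm_num : Nat.Prime 7) hr hrn
    exact Or.inr (Or.inr (Or.inl ⟨K, hK, he⟩))
  · have := tensor_shape h1 h2 hn (by norm_num); omega
  · exact Or.inr (Or.inr (Or.inr (Or.inl hsub)))
  · obtain rfl := eq_of_dvd_prime (by norm_num : Nat.Prime 7) hr hrn
    obtain ⟨p, e, hp, hch, hc, hodd, hpe, hdvd, hmin⟩ := data_odd (by norm_num) hR
    iterate 4 right
    refine Or.inl ⟨⟨p, hp, hch, ?_⟩, R, hR, he⟩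
    have hlt := Nat.mod_lt p (show 7 > 0 by norm_num)
    have hcast : (p : ZMod 7) = ((p % 7 : ℕ) : ZMod 7) := (ZMod.natCast_mod p 7).symm
    rw [hcast] at hpe
    have he6 := Nat.le_of_dvd (by norm_num) hdvd
    obtain rfl | rfl : e = 1 ∨ e = 3 := by
      interval_cases e <;> first | omega | (exfalso; revert hodd hdvd; decide)
    · refine Or.inl ⟨by rw [hc, pow_one], ?_⟩
      rw [pow_one] at hpe
      generalize p % 7 = a at hpe hlt ⊢
      interval_cases a <;> first | rfl | (exfalso; revert hpe; decide)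
    · refine Or.inr ⟨hc, ?_⟩
      have h1 := hmin 1 one_pos (by norm_num)
      rw [pow_one, hcast] at h1
      generalize p % 7 = a at hpe hlt h1 ⊢
      interval_cases a <;> first | omega | (exfalso; revert hpe h1; decide)
  · have := wreath_shape hm ht hn; omega
  · exact absurd hev (by decide)
  · iterate 6 right
    exact Or.inl hu
  · iterate 5 right
    exact Or.inl ⟨hodd, Q, hQ, he⟩
  · iterate 7 right
    exact hres

end Cfsg.Agent.ClassicalMax
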