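import Cfsg.Agent.ClassicalMax.SympExceptions

/-!
The maximal subgroups of `Sp_4(q)`, `q` even, and of `Sp_6(q)`, given the symplectic dichotomy.
-/

set_option autoImplicit false

namespace Cfsg.Agent.ClassicalMax

open Matrix Cfsg.Geo
open scoped MatrixGroups Matrix

variable {F : Type*} [Field F] [Fintype F]

theorem sp4_even_cases (heven : ¬ Odd (Fintype.card F)) (h4 : 4 ≤ Fintype.card F)
    (hdich : SymplecticDichotomy 2 F) {H : Subgroup (GL (Fin 2 ⊕ Fin 2) F)}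
    (hH : IsMaximalIn (Cfsg.spGL 2 F) H) :
    (∃ W : Submodule F (Fin 2 ⊕ Fin 2 → F), W ≠ ⊥ ∧ IsTotallySingularFor (Cfsg.sympForm 2 F) W ∧
      H = subspaceStabilizer W ⊓ Cfsg.spGL 2 F) ∨
    (∃ D : Fin 2 → Submodule F (Fin 2 ⊕ Fin 2 → F), IsNondegenerateMDecomposition (Cfsg.sympForm 2 F) 2 D ∧
      H = decompositionStabilizer D ⊓ Cfsg.spGL 2 F) ∨
    (∃ K : Subalgebra F (Matrix (Fin 2 ⊕ Fin 2) (Fin 2 ⊕ Fin 2) F), IsFieldSubalgebra 2 K ∧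
      IsSelfAdjointFor (Cfsg.sympForm 2 F) K ∧
      (∀ k ∈ K, ∀ v : (Fin 2 ⊕ Fin 2 → F), (Cfsg.sympForm 2 F) (Matrix.mulVec k v) v = 0) ∧
      H = subalgebraNormalizer K ⊓ Cfsg.spGL 2 F) ∨
    (∃ (F₀ : Subfield F) (r : ℕ) (P : GL (Fin 2 ⊕ Fin 2) F) (ζ : F), r.Prime ∧
      Fintype.card F = Nat.card F₀ ^ r ∧ ζ ≠ 0 ∧ IsFormRationalStructure (Cfsg.sympForm 2 F) F₀ ζ P ∧
      H = subfieldSubgroup F₀ P ⊓ Cfsg.spGL 2 F) ∨
    (∃ Q : (Fin 2 ⊕ Fin 2 → F) → F, IsNondegenerateQuadraticForm Q ∧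
      (∀ u v : (Fin 2 ⊕ Fin 2 → F), QuadraticMap.polar Q u v = (Cfsg.sympForm 2 F) u v) ∧
      H = quadSimilarityGroup Q ⊓ Cfsg.spGL 2 F) ∨
    InSymplecticResidualClass H := by
  rcases sp_maximal_cases le_rfl (Or.inr (Or.inr h4)) hdich hH with hW | ⟨W, hb, hnd, hd, hd2, he⟩ |
    ⟨t, k, D, hD, htk, hk, ht2, hk2, he⟩ | ⟨hodd, -⟩ | hsub |
    ⟨R, p, k, -, -, -, -, hpodd, hc, -⟩ | ⟨-, hQ⟩ | ⟨r, K, hr, hrd, hK, hsa, halt, he⟩ | ⟨hodd, -⟩ |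
    ⟨n₁, n₂, e, P, f₁, f₂, hodd, -⟩ | ⟨k, t, hk, ht, hkt⟩ | hres
  · exact Or.inl hW
  · omega
  · obtain ⟨rfl, rfl⟩ : t = 2 ∧ k = 2 := by
      have : t ≤ 2 := by nlinarith
      constructor <;> nlinarith
    exact Or.inr (Or.inl ⟨D, hD, he⟩)
  · exact absurd hodd heven
  · exact Or.inr (Or.inr (Or.inr (Or.inl hsub)))
  · exact absurd (hc ▸ hpodd) heven
  · exact Or.inr (Or.inr (Or.inr (Or.inr (Or.inl hQ))))
  · obtain rfl : r = 2 := (Nat.prime_dvd_prime_iff_eq hr Nat.prime_two).mp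
      (hr.dvd_of_dvd_pow (n := 2) hrd)
    exact Or.inr (Or.inr (Or.inl ⟨K, hK, hsa, halt, he⟩))
  · exact absurd hodd heven
  · exact absurd hodd heven
  · exfalso
    have : 2 ^ 3 ≤ k ^ t := (Nat.pow_le_pow_left hk 3).trans (Nat.pow_le_pow_right (by omega) ht)
    omega
  · iterate 5 right
    exact hres

theorem sp6_cases (hdich : SymplecticDichotomy 3 F) {H : Subgroup (GL (Fin 3 ⊕ Fin 3) F)}
    (hH : IsMaximalIn (Cfsg.spGL 3 F) H) :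
    (∃ W : Submodule F (Fin 3 ⊕ Fin 3 → F), W ≠ ⊥ ∧ IsTotallySingularFor (Cfsg.sympForm 3 F) W ∧
      H = subspaceStabilizer W ⊓ Cfsg.spGL 3 F) ∨
    (∃ W : Submodule F (Fin 3 ⊕ Fin 3 → F), W ≠ ⊥ ∧ IsNondegenerateOn (Cfsg.sympForm 3 F) W ∧
      Module.finrank F W < 3 ∧ H = subspaceStabilizer W ⊓ Cfsg.spGL 3 F) ∨
    (3 ≤ Fintype.card F ∧ ∃ D : Fin 3 → Submodule F (Fin 3 ⊕ Fin 3 → F),
      IsNondegenerateMDecomposition (Cfsg.sympForm 3 F) 2 D ∧ H = decompositionStabilizer D ⊓ Cfsg.spGL 3 F) ∨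
    (Odd (Fintype.card F) ∧ ∃ D : Fin 2 → Submodule F (Fin 3 ⊕ Fin 3 → F), IsMDecomposition 3 D ∧
      (∀ i, IsTotallySingularFor (Cfsg.sympForm 3 F) (D i)) ∧ H = decompositionStabilizer D ⊓ Cfsg.spGL 3 F) ∨
    (∃ K : Subalgebra F (Matrix (Fin 3 ⊕ Fin 3) (Fin 3 ⊕ Fin 3) F), IsFieldSubalgebra 3 K ∧
      IsSelfAdjointFor (Cfsg.sympForm 3 F) K ∧
      (∀ k ∈ K, ∀ v : (Fin 3 ⊕ Fin 3 → F), (Cfsg.sympForm 3 F) (Matrix.mulVec k v) v = 0) ∧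
      H = subalgebraNormalizer K ⊓ Cfsg.spGL 3 F) ∨
    (Odd (Fintype.card F) ∧ ∃ K : Subalgebra F (Matrix (Fin 3 ⊕ Fin 3) (Fin 3 ⊕ Fin 3) F),
      IsFieldSubalgebra 2 K ∧ IsAdjointClosedFor (Cfsg.sympForm 3 F) K ∧
      ¬ IsSelfAdjointFor (Cfsg.sympForm 3 F) K ∧ H = subalgebraNormalizer K ⊓ Cfsg.spGL 3 F) ∨
    (Odd (Fintype.card F) ∧ 5 ≤ Fintype.card F ∧ ∃ (e : (Fin 3 ⊕ Fin 3) ≃ Fin 2 × Fin 3)
      (P : GL (Fin 3 ⊕ Fin 3) F) (f₁ : (Fin 2 → F) → (Fin 2 → F) → F) (f₂ : (Fin 3 → F) → (Fin 3 → F) → F),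
      IsSymplecticForm f₁ ∧ IsSymmetricForm f₂ ∧ IsTensorFormStructure id (Cfsg.sympForm 3 F) f₁ f₂ e P ∧
      H = tensorProductSubgroup 2 3 e P ⊓ Cfsg.spGL 3 F) ∨
    (∃ (F₀ : Subfield F) (r : ℕ) (P : GL (Fin 3 ⊕ Fin 3) F) (ζ : F), r.Prime ∧
      Fintype.card F = Nat.card F₀ ^ r ∧ ζ ≠ 0 ∧ IsFormRationalStructure (Cfsg.sympForm 3 F) F₀ ζ P ∧
      H = subfieldSubgroup F₀ P ⊓ Cfsg.spGL 3 F) ∨
    (¬ Odd (Fintype.card F) ∧ ∃ Q : (Fin 3 ⊕ Fin 3 → F) → F, IsNondegenerateQuadraticForm Q ∧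
      (∀ u v : (Fin 3 ⊕ Fin 3 → F), QuadraticMap.polar Q u v = (Cfsg.sympForm 3 F) u v) ∧
      H = quadSimilarityGroup Q ⊓ Cfsg.spGL 3 F) ∨
    InSymplecticResidualClass H := by
  have hone := Fintype.one_lt_card (α := F)
  rcases sp_maximal_cases (by norm_num) (Or.inl le_rfl) hdich hH with hW | ⟨W, hb, hnd, hd, -, he⟩ |
    ⟨t, k, D, hD, htk, hk, ht2, hk2, he⟩ | hts | hsub |
    ⟨R, p, k, -, -, -, -, -, -, -, -, -, hk, -⟩ | hQ | ⟨r, K, hr, hrd, hK, hsa, halt, he⟩ | hadj |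
    ⟨n₁, n₂, e, P, f₁, f₂, hodd, h1, h2, hn, hf₁, hf₂, hs, he⟩ | ⟨k, t, hk, ht, hkt⟩ | hres
  · exact Or.inl hW
  · exact Or.inr (Or.inl ⟨W, hb, hnd, hd, he⟩)
  · obtain ⟨rfl, rfl⟩ : t = 3 ∧ k = 2 := by
      obtain ⟨j, rfl⟩ := hk
      have : t ≤ 3 := by nlinarith
      interval_cases t <;> omega
    by_cases hq : 3 ≤ Fintype.card F
    · exact Or.inr (Or.inr (Or.inl ⟨hq, D, hD, he⟩))
    · have hF : Fintype.card F = 2 := by omega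
      obtain ⟨Q, hQ, hpol, hle⟩ := decomposition_le_quadSimilarityGroup_of_two hF hD
      iterate 8 right
      exact Or.inl ⟨by rw [hF]; decide, Q, hQ, hpol,
        eq_inf_max hH ((he.le.trans inf_le_left).trans hle) (spGL_not_le_quadSimilarityGroup (by norm_num) hpol)⟩
  · exact Or.inr (Or.inr (Or.inr (Or.inl hts)))
  · iterate 7 right
    exact Or.inl hsub
  · exfalso
    have : 3 ∣ 2 := Nat.prime_three.dvd_of_dvd_pow (hk ▸ (by norm_num : (3 : ℕ) ∣ 2 * 3))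
    norm_num at this
  · iterate 8 right
    exact Or.inl hQ
  · rcases hr.dvd_mul.mp hrd with h | h
    · obtain rfl := (Nat.prime_dvd_prime_iff_eq hr Nat.prime_two).mp h
      exact absurd (two_mul_degree_dvd_of_selfAdjoint (by norm_num) hK hsa halt) (by norm_num)
    · obtain rfl := (Nat.prime_dvd_prime_iff_eq hr Nat.prime_three).mp h
      exact Or.inr (Or.inr (Or.inr (Or.inr (Or.inl ⟨K, hK, hsa, halt, he⟩))))
  · iterate 5 right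
    exact Or.inl hadj
  · obtain ⟨rfl, rfl⟩ : n₁ = 2 ∧ n₂ = 3 := by
      have : n₁ ≤ 2 := by nlinarith
      constructor <;> nlinarith
    by_cases hq : 5 ≤ Fintype.card F
    · iterate 6 right
      exact Or.inl ⟨hodd, hq, e, P, f₁, f₂, hf₁, hf₂, hs, he⟩
    · have hF : Fintype.card F = 3 := by obtain ⟨j, hj⟩ := hodd; omega
      obtain ⟨D, hD, hle⟩ := tensor_le_decomposition_of_three hF e P hf₁ hf₂ hs
      exact Or.inr (Or.inr (Or.inl ⟨by omega, D, hD,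
        eq_inf_max hH (he.le.trans hle) (spGL_not_le_decompositionStabilizer hD.decomp le_rfl)⟩))
  · exfalso
    have : 2 ^ 3 ≤ k ^ t := (Nat.pow_le_pow_left hk 3).trans (Nat.pow_le_pow_right (by omega) ht)
    omega
  · iterate 9 right
    exact hres

end Cfsg.Agent.ClassicalMax
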