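import Cfsg.Agent.ClassicalMax.SympCases
import Cfsg.Agent.ClassicalMax.Decomp
import Cfsg.Agent.Forms.Orthogonal

/-!
Exceptional inclusions between geometric members of the symplectic groups, and the dimension
restriction on self-adjoint field extensions.
-/

set_option autoImplicit false
set_option linter.style.haveILetI false

namespace Cfsg.Agent.ClassicalMax

open Matrix Cfsg.Geo Cfsg.Agent.Forms Module
open scoped MatrixGroups Matrix Kronecker commutatorElement

variable {F : Type*} [Field F] {m : ℕ}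

/-- A self-adjoint field of degree `r` with alternating twists forces `2 r ∣ 2 m`. -/
theorem two_mul_degree_dvd_of_selfAdjoint (hm : 0 < m) {r : ℕ}
    {K : Subalgebra F (Matrix (Fin m ⊕ Fin m) (Fin m ⊕ Fin m) F)} (hK : IsFieldSubalgebra r K)
    (hsa : IsSelfAdjointFor (Cfsg.sympForm m F) K)
    (halt : ∀ k ∈ K, ∀ v, Cfsg.sympForm m F (k *ᵥ v) v = 0) : 2 * r ∣ 2 * m := by
  classical
  suffices h : ∀ d, ∀ W : Submodule F (Fin m ⊕ Fin m → F), finrank F W = d →
      (∀ k ∈ K, ∀ x ∈ W, k *ᵥ x ∈ W) → IsNondegenerateOn (Cfsg.sympForm m F) W → 2 * r ∣ d by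
    refine h _ ⊤ ?_ (fun _ _ _ _ => Submodule.mem_top) (fun w _ hw => ⟨?_, ?_⟩)
    · rw [finrank_top, Module.finrank_fintype_fun_eq_card, card_fin_sum]
    · obtain ⟨x, hx⟩ := exists_sympForm_ne_zero hw
      exact ⟨x, Submodule.mem_top, hx⟩
    · obtain ⟨x, hx⟩ := exists_sympForm_ne_zero hw
      exact ⟨x, Submodule.mem_top, by rw [sympForm_swap]; simpa using hx⟩
  intro d
  induction d using Nat.strong_induction_on with
  | _ d ih =>
  intro W hW hinv hnd
  by_cases hb : W = ⊥
  · subst hb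
    rw [finrank_bot] at hW
    exact hW ▸ dvd_zero _
  obtain ⟨u, hu, hu0⟩ := Submodule.exists_mem_ne_zero_of_ne_bot hb
  obtain ⟨-, v, hv, huv⟩ := hnd u hu hu0
  set B := sympBil m F with hB
  let E : (K × K) →ₗ[F] (Fin m ⊕ Fin m → F) :=
    { toFun := fun p => (p.1 : Matrix (Fin m ⊕ Fin m) (Fin m ⊕ Fin m) F) *ᵥ u +
        (p.2 : Matrix (Fin m ⊕ Fin m) (Fin m ⊕ Fin m) F) *ᵥ v
      map_add' := fun p p' => by simp [Matrix.add_mulVec]; abel
      map_smul' := fun c p => by simp [Matrix.smul_mulVec] }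
  let Λ : (Fin m ⊕ Fin m → F) →ₗ[F] Module.Dual F (K × K) :=
    { toFun := fun x => (B x).comp E
      map_add' := fun x y => by rw [map_add, LinearMap.add_comp]
      map_smul' := fun c x => by rw [RingHom.id_apply, map_smul, LinearMap.smul_comp] }
  have hΛ : ∀ x p, Λ x p = Cfsg.sympForm m F x (E p) := fun x p => sympBil_apply _ _
  have hE0 : ∀ (a b : K) (w z : Fin m ⊕ Fin m → F), Cfsg.sympForm m F
      ((a : Matrix (Fin m ⊕ Fin m) (Fin m ⊕ Fin m) F) *ᵥ w) ((b : Matrix (Fin m ⊕ Fin m) (Fin m ⊕ Fin m) F) *ᵥ z) =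
      Cfsg.sympForm m F (((b * a : K) : Matrix (Fin m ⊕ Fin m) (Fin m ⊕ Fin m) F) *ᵥ w) z := by
    intro a b w z
    rw [← hsa b b.2, Matrix.mulVec_mulVec]
    rfl
  -- the pairing of `U` with `K × K` is injective
  have hinjU : Function.Injective (Λ.comp E) := by
    rw [← LinearMap.ker_eq_bot, LinearMap.ker_eq_bot']
    rintro ⟨a, b⟩ hab
    have key : ∀ c : K, ∀ w : Fin m ⊕ Fin m → F, Cfsg.sympForm m F
        ((c : Matrix (Fin m ⊕ Fin m) (Fin m ⊕ Fin m) F) *ᵥ w) w = 0 := fun c w => halt c c.2 w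
    have hzero : ∀ (x : K) (w z : Fin m ⊕ Fin m → F), Cfsg.sympForm m F w z ≠ 0 →
        (∀ c : K, Cfsg.sympForm m F (((c * x : K) : Matrix (Fin m ⊕ Fin m) (Fin m ⊕ Fin m) F) *ᵥ w) z = 0) → x = 0 := by
      intro x w z hwz hc
      by_contra hx
      obtain ⟨y, hy, hxy⟩ := hK.inv x x.2 fun h => hx (Subtype.ext h)
      apply hwz
      have := hc ⟨y, hy⟩
      rw [show ((⟨y, hy⟩ * x : K) : Matrix (Fin m ⊕ Fin m) (Fin m ⊕ Fin m) F) = 1 from mul_eq_one_comm.mp hxy,
        Matrix.one_mulVec] at this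
      exact this
    have ha : a = 0 := by
      refine hzero a u v huv fun c => ?_
      have := LinearMap.congr_fun hab (0, c)
      simp only [LinearMap.comp_apply, hΛ, LinearMap.zero_apply] at this
      simp only [E, LinearMap.coe_mk, AddHom.coe_mk, ZeroMemClass.coe_zero, Matrix.zero_mulVec, zero_add,
        ← sympBil_apply, map_add, LinearMap.add_apply] at this
      simpa only [sympBil_apply, hE0, key, add_zero] using this
    have hb' : b = 0 := by
      refine hzero b v u (by rw [sympForm_swap]; simpa using huv) fun c => ?_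
      have := LinearMap.congr_fun hab (c, 0)
      simp only [LinearMap.comp_apply, hΛ, LinearMap.zero_apply] at this
      simp only [E, ha, LinearMap.coe_mk, AddHom.coe_mk, ZeroMemClass.coe_zero, Matrix.zero_mulVec, zero_add,
        add_zero] at this
      simpa only [hE0] using this
    rw [ha, hb']; rfl
  have hEinj : Function.Injective E := fun p q h => hinjU (by simp [h])
  haveI : FiniteDimensional F K := inferInstance
  haveI : Nonempty (Fin m ⊕ Fin m) := ⟨.inl ⟨0, hm⟩⟩
  haveI : Nontrivial K := ⟨0, 1, fun h => zero_ne_one (α := Matrix (Fin m ⊕ Fin m) (Fin m ⊕ Fin m) F) (congrArg Subtype.val h)⟩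
  have hdimU : finrank F (LinearMap.range E) = 2 * r := by
    rw [LinearMap.finrank_range_of_inj hEinj, Module.finrank_prod, hK.finrank_eq, two_mul]
  have hUW : LinearMap.range E ≤ W := by
    rintro _ ⟨⟨a, b⟩, rfl⟩
    exact W.add_mem (hinv a a.2 u hu) (hinv b b.2 v hv)
  set W' := W ⊓ LinearMap.ker Λ with hW'
  have hsurj : Function.Surjective (Λ.comp E) :=
    (LinearMap.injective_iff_surjective_of_finrank_eq_finrank (Subspace.dual_finrank_eq).symm).mp hinjU
  have hsplit : LinearMap.range E ⊔ W' = W := by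
    refine le_antisymm (sup_le hUW inf_le_left) fun x hx => ?_
    obtain ⟨p, hp⟩ := hsurj (Λ x)
    rw [show x = E p + (x - E p) by abel]
    refine Submodule.add_mem_sup ⟨p, rfl⟩ ⟨W.sub_mem hx (hUW ⟨p, rfl⟩), ?_⟩
    rw [SetLike.mem_coe, LinearMap.mem_ker, map_sub, ← LinearMap.comp_apply, hp, sub_self]
  have hdisj : LinearMap.range E ⊓ W' = ⊥ := by
    rw [eq_bot_iff]
    rintro x ⟨⟨p, rfl⟩, -, hp⟩
    have hp' : (Λ.comp E) p = 0 := hp
    rw [hinjU (hp'.trans (map_zero _).symm), Submodule.mem_bot, map_zero]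
  have hsum := Submodule.finrank_sup_add_finrank_inf_eq (LinearMap.range E) W'
  rw [hsplit, hdisj, finrank_bot, add_zero, hW, hdimU] at hsum
  rw [hsum]
  refine dvd_add dvd_rfl (ih _ ?_ W' rfl ?_ ?_)
  · have : 0 < r := hK.finrank_eq ▸ Module.finrank_pos
    omega
  · rintro k hk x ⟨hx, hxk⟩
    refine ⟨hinv k hk x hx, LinearMap.ext fun ⟨a, b⟩ => ?_⟩
    rw [LinearMap.zero_apply, hΛ, hsa k hk]
    have := LinearMap.congr_fun (show Λ x = 0 from hxk) (⟨k, hk⟩ * a, ⟨k, hk⟩ * b)
    rw [LinearMap.zero_apply, hΛ] at this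
    simpa [E, Matrix.mulVec_add, Matrix.mulVec_mulVec] using this
  · intro w hw hw0
    obtain ⟨-, x, hx, hne⟩ := hnd w hw.1 hw0
    rw [← hsplit] at hx
    obtain ⟨_, ⟨p, rfl⟩, x', hx', rfl⟩ := Submodule.mem_sup.mp hx
    have h0 : Cfsg.sympForm m F w (E p) = 0 := by
      rw [← hΛ, show Λ w = 0 from hw.2, LinearMap.zero_apply]
    rw [← sympBil_apply, map_add, sympBil_apply, sympBil_apply, h0, zero_add] at hne
    exact ⟨⟨x', hx', by rw [sympForm_swap]; simpa using hne⟩, ⟨x', hx', hne⟩⟩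

/-- A decomposition given by a basis. -/
theorem isMDecomposition_of_basis {ι : Type} [Fintype ι] {t k : ℕ} (ht : 2 ≤ t) (hk : 0 < k)
    (b : Basis (Fin k × Fin t) F (ι → F)) :
    IsMDecomposition k fun i : Fin t => Submodule.span F (Set.range fun l => b (l, i)) where
  two_le := ht
  pos := hk
  finrank_eq i := by
    rw [show (fun l => b (l, i)) = b ∘ (fun l => (l, i)) from rfl,
      finrank_span_eq_card (b.linearIndependent.comp _ fun l l' h => congrArg Prod.fst h), Fintype.card_fin]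
  indep := by
    rw [iSupIndep_def]
    intro i
    have h : (⨆ (j) (_ : j ≠ i), Submodule.span F (Set.range fun l => b (l, j))) =
        Submodule.span F (b '' {p | p.2 ≠ i}) := by
      rw [← Submodule.span_iUnion₂]
      congr 1
      ext x
      simp only [Set.mem_iUnion, Set.mem_range, Set.mem_image, Set.mem_setOf_eq, exists_prop]
      constructor
      · rintro ⟨j, hj, l, rfl⟩; exact ⟨(l, j), hj, rfl⟩
      · rintro ⟨⟨l, j⟩, hj, rfl⟩; exact ⟨j, hj, l, rfl⟩
    have h' : (Set.range fun l => b (l, i)) = b '' {p | p.2 = i} := by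
      ext x
      simp only [Set.mem_range, Set.mem_image, Set.mem_setOf_eq]
      constructor
      · rintro ⟨l, rfl⟩; exact ⟨(l, i), rfl, rfl⟩
      · rintro ⟨⟨l, j⟩, hj, rfl⟩; exact ⟨l, by rw [← hj]⟩
    rw [h, h']
    exact b.linearIndependent.disjoint_span_image (Set.disjoint_left.mpr fun p h1 h2 => h2 h1)
  iSup_eq_top := by
    rw [← Submodule.span_iUnion, eq_top_iff, ← b.span_eq]
    refine Submodule.span_mono ?_
    rintro _ ⟨⟨l, j⟩, rfl⟩
    exact Set.mem_iUnion.mpr ⟨j, l, rfl⟩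

/-- Over the field with two elements the stabiliser of a decomposition into non-degenerate planes
fixes a quadratic form polarising to the symplectic form. -/
theorem decomposition_le_quadSimilarityGroup_of_two [Fintype F] (hF : Fintype.card F = 2) {t : ℕ}
    {D : Fin t → Submodule F (Fin m ⊕ Fin m → F)} (hD : IsNondegenerateMDecomposition (Cfsg.sympForm m F) 2 D) :
    ∃ Q : (Fin m ⊕ Fin m → F) → F, IsNondegenerateQuadraticForm Q ∧
      (∀ u v, QuadraticMap.polar Q u v = Cfsg.sympForm m F u v) ∧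
      decompositionStabilizer D ≤ quadSimilarityGroup Q := by
  classical
  have h01 : ∀ x : F, x = 0 ∨ x = 1 := by
    intro x
    by_contra hc
    push Not at hc
    have : ({0, 1, x} : Finset F).card ≤ 2 := hF ▸ Finset.card_le_univ _
    rw [Finset.card_insert_of_notMem (by simp [Ne.symm hc.1]), Finset.card_pair (Ne.symm hc.2)] at this
    omega
  have h2 : (2 : F) = 0 := by
    have := Nat.cast_card_eq_zero F
    rw [hF] at this
    simpa using this
  obtain ⟨b, hb⟩ := exists_adapted_basis hD.decomp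
  let c := b.equivFun
  have hin : ∀ l i, b (l, i) ∈ D i := fun l i => hb i ▸ Submodule.subset_span ⟨l, rfl⟩
  have hpair : ∀ i, Cfsg.sympForm m F (b (0, i)) (b (1, i)) = 1 := by
    intro i
    obtain ⟨-, x, hx, hne⟩ := hD.nondegenerate i _ (hin 0 i) (b.ne_zero _)
    rw [hb, Submodule.mem_span_range_iff_exists_fun] at hx
    obtain ⟨s, rfl⟩ := hx
    simp only [← sympBil_apply, Fin.sum_univ_two, map_add, map_smul, smul_eq_mul] at hne
    simp only [sympBil_apply, sympForm_self, mul_zero, zero_add] at hne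
    exact (h01 _).resolve_left fun h => hne (by rw [h, mul_zero])
  let φ : F → F → F := fun x y => x ^ 2 + x * y + y ^ 2
  let Q : (Fin m ⊕ Fin m → F) → F := fun v => ∑ i, φ (c v (0, i)) (c v (1, i))
  have hQadd : ∀ u v, QuadraticMap.polar Q u v =
      ∑ i, (c u (0, i) * c v (1, i) + c u (1, i) * c v (0, i)) := by
    intro u v
    simp only [QuadraticMap.polar, Q, map_add, Pi.add_apply, ← Finset.sum_sub_distrib]
    refine Finset.sum_congr rfl fun i _ => ?_
    simp only [φ]
    linear_combination (c u (0, i) * c v (0, i) + c u (1, i) * c v (1, i)) * h2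
  have hpol : ∀ u v, QuadraticMap.polar Q u v = Cfsg.sympForm m F u v := by
    intro u v
    rw [hQadd]
    conv_rhs => rw [← b.sum_equivFun u, ← b.sum_equivFun v, ← sympBil_apply]
    simp only [map_sum, map_smul, LinearMap.sum_apply, LinearMap.smul_apply, smul_eq_mul]
    rw [Fintype.sum_prod_type, Fin.sum_univ_two, ← Finset.sum_add_distrib]
    refine Finset.sum_congr rfl fun i _ => ?_
    have horth : ∀ l i' l', i' ≠ i → sympBil m F (b (l, i')) (b (l', i)) = 0 := fun l i' l' hne => by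
      rw [sympBil_apply]; exact hD.orthogonal i' i hne _ (hin l i') _ (hin l' i)
    have hp : Cfsg.sympForm m F (b (1, i)) (b (0, i)) = 1 := by
      rw [sympForm_swap, hpair]; linear_combination -h2
    simp only [Fintype.sum_prod_type, Fin.sum_univ_two]
    rw [Finset.sum_eq_single i (fun x _ hx => by rw [horth _ _ _ hx, mul_zero]) (by simp),
      Finset.sum_eq_single i (fun x _ hx => by rw [horth _ _ _ hx, mul_zero]) (by simp),
      Finset.sum_eq_single i (fun x _ hx => by rw [horth _ _ _ hx, mul_zero]) (by simp),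
      Finset.sum_eq_single i (fun x _ hx => by rw [horth _ _ _ hx, mul_zero]) (by simp)]
    simp only [sympBil_apply, sympForm_self, hpair, hp, c]
    ring
  refine ⟨Q, ⟨fun a v => ?_, ?_, fun v hv => ?_⟩, hpol, fun g hg => ⟨1, fun v => ?_⟩⟩
  · simp only [Q, φ, map_smul, Pi.smul_apply, smul_eq_mul, Finset.mul_sum]
    exact Finset.sum_congr rfl fun i _ => by ring
  · rw [show QuadraticMap.polar Q = fun u v => sympBil m F u v from
      funext₂ fun u v => (hpol u v).trans (sympBil_apply u v).symm]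
    constructor <;> intros <;> simp
  · obtain ⟨x, hx⟩ := exists_sympForm_ne_zero hv
    exact ⟨⟨x, by rw [hpol]; exact hx⟩, ⟨x, by rw [hpol, sympForm_swap]; simpa using hx⟩⟩
  · obtain ⟨B⟩ := exists_blockData hb hg
    rw [Units.val_one, one_mul]
    show ∑ i, φ (c _ (0, i)) (c _ (1, i)) = ∑ i, φ (c v (0, i)) (c v (1, i))
    rw [← Equiv.sum_comp B.perm]
    refine Finset.sum_congr rfl fun i _ => ?_
    simp only [c, B.repr_mulVec, Fin.sum_univ_two]
    have hdet := B.det_blk_ne_zero i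
    rw [Matrix.det_fin_two] at hdet
    haveI : CharP F 2 := (CharP.charP_iff_prime_eq_zero Nat.prime_two).2 (by exact_mod_cast h2)
    let ψ := ZMod.castHom (dvd_refl 2) F
    have hψ : ∀ x : F, ∃ z : ZMod 2, ψ z = x := fun x =>
      (h01 x).elim (fun h => ⟨0, by rw [h, map_zero]⟩) (fun h => ⟨1, by rw [h, map_one]⟩)
    obtain ⟨a₀, ha₀⟩ := hψ (B.blk i 0 0)
    obtain ⟨b₀, hb₀⟩ := hψ (B.blk i 0 1)
    obtain ⟨c₀, hc₀⟩ := hψ (B.blk i 1 0)
    obtain ⟨d₀, hd₀⟩ := hψ (B.blk i 1 1)
    obtain ⟨x₀, hx₀⟩ := hψ (b.equivFun v (0, i))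
    obtain ⟨y₀, hy₀⟩ := hψ (b.equivFun v (1, i))
    have key : ∀ a b c d x y : ZMod 2, a * d - b * c ≠ 0 →
        (a * x + b * y) ^ 2 + (a * x + b * y) * (c * x + d * y) + (c * x + d * y) ^ 2 =
          x ^ 2 + x * y + y ^ 2 := by decide
    have hne : a₀ * d₀ - b₀ * c₀ ≠ 0 := fun h => hdet (by
      rw [← ha₀, ← hb₀, ← hc₀, ← hd₀, ← map_mul, ← map_mul, ← map_sub, h, map_zero])
    rw [← ha₀, ← hb₀, ← hc₀, ← hd₀, ← hx₀, ← hy₀]
    have := congrArg ψ (key a₀ b₀ c₀ d₀ x₀ y₀ hne)
    simpa only [φ, map_add, map_mul, map_pow] using this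

theorem formOfGram_eq {n : ℕ} {f : (Fin n → F) → (Fin n → F) → F} (hf : IsBilinearForm f)
    (x y : Fin n → F) : f x y = formOfGram id (gramMatrix f) x y := by
  let B : (Fin n → F) →ₗ[F] (Fin n → F) →ₗ[F] F :=
    LinearMap.mk₂ F f hf.add_left hf.smul_left hf.add_right hf.smul_right
  have key : B x y = formOfGram id (gramMatrix f) x y := by
    conv_lhs => rw [pi_eq_sum_univ' x, pi_eq_sum_univ' y]
    simp only [map_sum, LinearMap.sum_apply, map_smul, LinearMap.smul_apply, smul_eq_mul, formOfGram,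
      gramMatrix, id]
    rw [Finset.sum_comm]
    simp only [B, LinearMap.mk₂_apply, Finset.mul_sum]
    exact Finset.sum_congr rfl fun a _ => Finset.sum_congr rfl fun b' _ => by ring
  exact key

theorem formOfGram_kronecker {n₁ n₂ : ℕ} (G₁ : Matrix (Fin n₁) (Fin n₁) F) (G₂ : Matrix (Fin n₂) (Fin n₂) F)
    (y y' : Fin n₁ → F) (w w' : Fin n₂ → F) :
    formOfGram id (G₁ ⊗ₖ G₂) (fun p => y p.1 * w p.2) (fun p => y' p.1 * w' p.2) =
      formOfGram id G₁ y y' * formOfGram id G₂ w w' := by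
  simp only [formOfGram, id, Matrix.kroneckerMap_apply, Fintype.sum_prod_type]
  rw [Finset.sum_mul_sum]
  simp only [Finset.sum_mul_sum]
  exact Finset.sum_congr rfl fun a _ => Finset.sum_congr rfl fun c _ => Finset.sum_congr rfl fun d _ =>
    Finset.sum_congr rfl fun f _ => by ring

/-- An orthogonal basis with constant values of a three-dimensional symmetric form over three elements. -/
theorem exists_constant_basis_three [Fintype F] (hF : Fintype.card F = 3) {B : LinearMap.BilinForm F (Fin 3 → F)}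
    (hS : B.IsSymm) (hB : B.Nondegenerate) :
    ∃ (w : Basis (Fin 3) F (Fin 3 → F)) (ε : F), ε ≠ 0 ∧ ∀ i j, B (w i) (w j) = if i = j then ε else 0 := by
  haveI : CharP F 3 := by
    obtain ⟨p, hp⟩ := CharP.exists F
    obtain ⟨n, hpr, hn⟩ := FiniteField.card F p
    rw [hF] at hn
    obtain rfl : p = 3 := ((Nat.prime_dvd_prime_iff_eq Nat.prime_three hpr).mp
      (Nat.prime_three.dvd_of_dvd_pow (dvd_of_eq hn))).symm
    exact hp
  have h3 : (3 : F) = 0 := by exact_mod_cast CharP.cast_eq_zero F 3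
  have h2 : (2 : F) ≠ 0 := fun h => one_ne_zero (show (1 : F) = 0 by linear_combination h3 - h)
  have hns : ¬ IsSquare (-1 : F) := by
    rintro ⟨x, hx⟩
    have hx0 : x ≠ 0 := fun h => by simp [h] at hx
    have := FiniteField.pow_card_sub_one_eq_one x hx0
    rw [hF] at this
    exact h2 (by linear_combination (-1 : F) * hx - this)
  obtain ⟨b, horth, hone, hlast⟩ :=
    Forms.exists_orthogonal_basis_symm h2 hS hB (n := 2) (by simp) hns
  have e0 := hone 0 (by decide)
  have e1 := hone 1 (by decide)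
  rcases hlast with e2 | e2
  · refine ⟨b, 1, one_ne_zero, fun i j => ?_⟩
    split
    · next h => subst h; fin_cases i <;> assumption
    · next h => exact horth i j h
  · let v : Fin 3 → Fin 3 → F := ![b 0 + b 1, b 0 - b 1, b 2]
    have hv : ∀ i j, B (v i) (v j) = if i = j then -1 else 0 := by
      intro i j
      have o : ∀ i j : Fin 3, i ≠ j → B (b i) (b j) = 0 := horth
      have e2' : B (b 2) (b 2) = -1 := e2
      fin_cases i <;> fin_cases j <;>
        simp [v, e0, e1, e2', o 0 1 (by decide), o 1 0 (by decide), o 0 2 (by decide), o 2 0 (by decide),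
          o 1 2 (by decide), o 2 1 (by decide)] <;> linear_combination h3
    have hli : LinearIndependent F v := by
      rw [Fintype.linearIndependent_iff]
      intro s hs i
      have := congrArg (fun x => B x (v i)) hs
      simp only [map_sum, map_smul, LinearMap.sum_apply, LinearMap.smul_apply, smul_eq_mul, hv, map_zero,
        LinearMap.zero_apply, mul_ite, mul_zero, Finset.sum_ite_eq', Finset.mem_univ, if_true] at this
      simpa using this
    refine ⟨basisOfLinearIndependentOfCardEqFinrank hli (by simp), -1, by simp, fun i j => ?_⟩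
    rw [coe_basisOfLinearIndependentOfCardEqFinrank]
    exact hv i j

/-- Over three elements a tensor member `Sp_2 ⊗ O_3` fixes a decomposition into non-degenerate planes. -/
theorem tensor_le_decomposition_of_three [Fintype F] (hF : Fintype.card F = 3)
    (e : (Fin m ⊕ Fin m) ≃ Fin 2 × Fin 3) (P : GL (Fin m ⊕ Fin m) F)
    {f₁ : (Fin 2 → F) → (Fin 2 → F) → F} {f₂ : (Fin 3 → F) → (Fin 3 → F) → F}
    (hf₁ : IsSymplecticForm f₁) (hf₂ : IsSymmetricForm f₂)
    (hs : IsTensorFormStructure id (Cfsg.sympForm m F) f₁ f₂ e P) :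
    ∃ D : Fin 3 → Submodule F (Fin m ⊕ Fin m → F), IsNondegenerateMDecomposition (Cfsg.sympForm m F) 2 D ∧
      tensorProductSubgroup 2 3 e P ⊓ Cfsg.spGL m F ≤ decompositionStabilizer D := by
  classical
  obtain ⟨c, hc, hform⟩ := hs
  let B₂ : LinearMap.BilinForm F (Fin 3 → F) :=
    LinearMap.mk₂ F f₂ hf₂.bilinear.add_left hf₂.bilinear.smul_left hf₂.bilinear.add_right hf₂.bilinear.smul_right
  have hB₂ : B₂.Nondegenerate := by
    constructor <;> intro x hx <;> by_contra h0
    · obtain ⟨-, y, hy⟩ := hf₂.nondegenerate x h0; exact hy (hx y)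
    · obtain ⟨⟨y, hy⟩, -⟩ := hf₂.nondegenerate x h0; exact hy (hx y)
  have hS₂ : B₂.IsSymm := ⟨fun x y => by simpa [B₂] using hf₂.symm x y⟩
  obtain ⟨w, ε, hε, hw⟩ := exists_constant_basis_three hF hS₂ hB₂
  let L : Fin 3 → (Fin 2 → F) → (Fin m ⊕ Fin m → F) := fun i y =>
    (P : Matrix (Fin m ⊕ Fin m) (Fin m ⊕ Fin m) F) *ᵥ ((fun p : Fin 2 × Fin 3 => y p.1 * w i p.2) ∘ e)
  have hLadd : ∀ i y y', L i (y + y') = L i y + L i y' := fun i y y' => by
    simp only [L, ← Matrix.mulVec_add]; congr 1; funext p; simp [add_mul]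
  have hLsmul : ∀ i (a : F) y, L i (a • y) = a • L i y := fun i a y => by
    simp only [L, ← Matrix.mulVec_smul]; congr 1; funext p; simp [mul_assoc]
  have hL : ∀ i j y y', Cfsg.sympForm m F (L i y) (L j y') = c * (f₁ y y' * if i = j then ε else 0) := by
    intro i j y y'
    simp only [L]
    rw [hform, formOfGram_kronecker, ← formOfGram_eq hf₁.bilinear, ← formOfGram_eq hf₂.bilinear]
    rw [show f₂ (w i) (w j) = B₂ (w i) (w j) from rfl, hw]
  let v : Fin 2 × Fin 3 → (Fin m ⊕ Fin m → F) := fun p => L p.2 (Pi.single p.1 1)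
  have hLsum : ∀ i (s : Fin 2 → F), ∑ l, s l • v (l, i) = L i s := by
    intro i s
    simp only [v]
    rw [Fin.sum_univ_two, ← hLsmul, ← hLsmul, ← hLadd]
    congr 1
    funext l; fin_cases l <;> simp
  have hli : LinearIndependent F v := by
    rw [Fintype.linearIndependent_iff]
    intro s hs0 ⟨l, j⟩
    have hrow : (fun l => s (l, j)) = 0 := by
      by_contra hne
      obtain ⟨-, y, hy⟩ := hf₁.nondegenerate _ hne
      apply hy
      have := congrArg (fun x => sympBil m F x (L j y)) hs0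
      simp only [Fintype.sum_prod_type] at this
      rw [Finset.sum_comm] at this
      simp only [hLsum, map_sum, LinearMap.sum_apply, sympBil_apply, hL, map_zero, LinearMap.zero_apply,
        mul_ite, mul_zero, Finset.sum_ite_eq', Finset.mem_univ, if_true, mul_eq_zero] at this
      simpa [hc, hε] using this
    exact congrFun hrow l
  let b := basisOfLinearIndependentOfCardEqFinrank hli
    (by rw [Module.finrank_fintype_fun_eq_card, Fintype.card_congr e])
  have hbv : (b : Fin 2 × Fin 3 → _) = v := coe_basisOfLinearIndependentOfCardEqFinrank hli _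
  let D : Fin 3 → Submodule F (Fin m ⊕ Fin m → F) := fun i => Submodule.span F (Set.range fun l => b (l, i))
  have hmem : ∀ i x, x ∈ D i ↔ ∃ y, x = L i y := by
    intro i x
    rw [Submodule.mem_span_range_iff_exists_fun]
    simp only [hbv, hLsum]
    exact ⟨fun ⟨s, hs⟩ => ⟨s, hs.symm⟩, fun ⟨s, hs⟩ => ⟨s, hs.symm⟩⟩
  refine ⟨D, ⟨isMDecomposition_of_basis (by norm_num) two_pos b, fun i x hx hx0 => ?_, fun i j hij x hx x' hx' => ?_⟩, ?_⟩
  · obtain ⟨y, rfl⟩ := (hmem i x).mp hx
    have hy : y ≠ 0 := fun h => hx0 (by rw [h, ← zero_smul F (0 : Fin 2 → F), hLsmul, zero_smul])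
    obtain ⟨⟨z, hz⟩, ⟨z', hz'⟩⟩ := hf₁.nondegenerate y hy
    exact ⟨⟨L i z, (hmem i _).mpr ⟨z, rfl⟩, by rw [hL, if_pos rfl]; exact mul_ne_zero hc (mul_ne_zero hz hε)⟩,
      ⟨L i z', (hmem i _).mpr ⟨z', rfl⟩, by rw [hL, if_pos rfl]; exact mul_ne_zero hc (mul_ne_zero hz' hε)⟩⟩
  · obtain ⟨y, rfl⟩ := (hmem i x).mp hx
    obtain ⟨y', rfl⟩ := (hmem j x').mp hx'
    rw [hL, if_neg hij, mul_zero, mul_zero]
  rintro g ⟨⟨_, ⟨k, ⟨a, b', hk⟩, rfl⟩, hg⟩, hsp⟩
  simp only [MulEquiv.toMonoidHom_eq_coe, MonoidHom.coe_coe, MulAut.conj_apply] at hg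
  have hgL : ∀ x : Fin 2 × Fin 3 → F, (g : Matrix (Fin m ⊕ Fin m) (Fin m ⊕ Fin m) F) *ᵥ
      ((P : Matrix (Fin m ⊕ Fin m) (Fin m ⊕ Fin m) F) *ᵥ (x ∘ e)) =
      (P : Matrix (Fin m ⊕ Fin m) (Fin m ⊕ Fin m) F) *ᵥ (((k : Matrix (Fin 2 × Fin 3) (Fin 2 × Fin 3) F) *ᵥ x) ∘ e) := by
    intro x
    rw [← hg, Matrix.mulVec_mulVec, ← Units.val_mul, inv_mul_cancel_right, Units.val_mul, ← Matrix.mulVec_mulVec]
    congr 1
    have hval : ((glReindex e.symm k : GL (Fin m ⊕ Fin m) F) : Matrix (Fin m ⊕ Fin m) (Fin m ⊕ Fin m) F) =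
        Matrix.reindex e.symm e.symm (k : Matrix (Fin 2 × Fin 3) (Fin 2 × Fin 3) F) := rfl
    rw [hval, Matrix.reindex_apply, Equiv.symm_symm, Matrix.submatrix_mulVec_equiv]
    simp [Function.comp_assoc]
  have hkron : ∀ (y : Fin 2 → F) (z : Fin 3 → F), (k : Matrix (Fin 2 × Fin 3) (Fin 2 × Fin 3) F) *ᵥ
      (fun p => y p.1 * z p.2) = fun p => ((a : Matrix (Fin 2) (Fin 2) F) *ᵥ y) p.1 *
        ((b' : Matrix (Fin 3) (Fin 3) F) *ᵥ z) p.2 := by
    intro y z
    funext p
    rw [hk]
    simp only [Matrix.mulVec, dotProduct, Matrix.kroneckerMap_apply, Finset.sum_mul_sum, Fintype.sum_prod_type]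
    exact Finset.sum_congr rfl fun i _ => Finset.sum_congr rfl fun j _ => by ring
  -- `b'` is a similitude of `f₂`
  set y₀ : Fin 2 → F := Pi.single 0 1
  obtain ⟨-, y₁, hy₁⟩ := hf₁.nondegenerate y₀ (by simp [y₀])
  have hsim : ∀ z z', f₁ ((a : Matrix (Fin 2) (Fin 2) F) *ᵥ y₀) ((a : Matrix (Fin 2) (Fin 2) F) *ᵥ y₁) *
      f₂ ((b' : Matrix (Fin 3) (Fin 3) F) *ᵥ z) ((b' : Matrix (Fin 3) (Fin 3) F) *ᵥ z') = f₁ y₀ y₁ * f₂ z z' := by
    intro z z'
    have h := hsp ((P : Matrix (Fin m ⊕ Fin m) (Fin m ⊕ Fin m) F) *ᵥ ((fun p => y₀ p.1 * z p.2) ∘ e))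
      ((P : Matrix (Fin m ⊕ Fin m) (Fin m ⊕ Fin m) F) *ᵥ ((fun p => y₁ p.1 * z' p.2) ∘ e))
    simp only [Cfsg.glToMat, Units.coeHom_apply] at h
    rw [hgL, hgL, hform, hform, hkron, hkron, formOfGram_kronecker, formOfGram_kronecker,
      ← formOfGram_eq hf₁.bilinear, ← formOfGram_eq hf₂.bilinear, ← formOfGram_eq hf₁.bilinear,
      ← formOfGram_eq hf₂.bilinear] at h
    exact mul_left_cancel₀ hc h
  set μ := f₁ y₀ y₁ / f₁ ((a : Matrix (Fin 2) (Fin 2) F) *ᵥ y₀) ((a : Matrix (Fin 2) (Fin 2) F) *ᵥ y₁) with hμ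
  have hden : f₁ ((a : Matrix (Fin 2) (Fin 2) F) *ᵥ y₀) ((a : Matrix (Fin 2) (Fin 2) F) *ᵥ y₁) ≠ 0 := by
    intro h0
    have := hsim (w 0) (w 0)
    rw [h0, zero_mul, show f₂ (w 0) (w 0) = B₂ (w 0) (w 0) from rfl, hw, if_pos rfl] at this
    exact mul_ne_zero hy₁ hε this.symm
  have hb'sim : ∀ z z', B₂ ((b' : Matrix (Fin 3) (Fin 3) F) *ᵥ z) ((b' : Matrix (Fin 3) (Fin 3) F) *ᵥ z') = μ * B₂ z z' := by
    intro z z'
    show f₂ _ _ = μ * f₂ z z'
    rw [hμ, div_mul_eq_mul_div, eq_div_iff hden]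
    linear_combination hsim z z'
  have hμ0 : μ ≠ 0 := div_ne_zero hy₁ hden
  have hunits : ∀ x : F, x ≠ 0 → x ^ 2 = 1 := fun x hx => by simpa [hF] using FiniteField.pow_card_sub_one_eq_one x hx
  -- the multiplier is one
  let T := Matrix.of fun i j : Fin 3 => w.equivFun ((b' : Matrix (Fin 3) (Fin 3) F) *ᵥ w j) i
  have hT : ∀ i j, B₂ ((b' : Matrix (Fin 3) (Fin 3) F) *ᵥ w i) ((b' : Matrix (Fin 3) (Fin 3) F) *ᵥ w j) =
      ε * ∑ l, T l i * T l j := by
    intro i j
    conv_lhs => rw [← w.sum_equivFun ((b' : Matrix (Fin 3) (Fin 3) F) *ᵥ w i),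
      ← w.sum_equivFun ((b' : Matrix (Fin 3) (Fin 3) F) *ᵥ w j)]
    simp only [map_sum, map_smul, LinearMap.sum_apply, LinearMap.smul_apply, smul_eq_mul, hw, mul_ite, mul_zero,
      Finset.sum_ite_eq, Finset.sum_ite_eq', Finset.mem_univ, if_true, Finset.mul_sum, T, Matrix.of_apply]
    exact Finset.sum_congr rfl fun l _ => by ring
  have hTT : Tᵀ * T = μ • (1 : Matrix (Fin 3) (Fin 3) F) := by
    ext i j
    have := (hT i j).symm.trans (hb'sim (w i) (w j))
    rw [hw] at this
    simp only [Matrix.mul_apply, Matrix.transpose_apply, Matrix.smul_apply, Matrix.one_apply, smul_eq_mul]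
    apply mul_left_cancel₀ hε
    rw [this]
    split <;> ring
  have hμ1 : μ = 1 := by
    have hd := congrArg Matrix.det hTT
    rw [Matrix.det_mul, Matrix.det_transpose, Matrix.det_smul, Matrix.det_one, Fintype.card_fin, mul_one] at hd
    have hd0 : T.det ≠ 0 := fun h => pow_ne_zero 3 hμ0 (by rw [← hd, h, mul_zero])
    linear_combination hunits _ hd0 - hd - μ * hunits μ hμ0
  -- the columns of `T` have one non-zero entry
  have hcol : ∀ j, ∃ i, ∀ l, l ≠ i → T l j = 0 := by
    intro j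
    have h := congrFun (congrFun hTT j) j
    simp only [Matrix.mul_apply, Matrix.transpose_apply, Matrix.smul_apply, Matrix.one_apply_eq, smul_eq_mul,
      mul_one, hμ1, Fin.sum_univ_three] at h
    have h3 : (3 : F) = 0 := by
      have := Nat.cast_card_eq_zero F
      rw [hF] at this
      simpa using this
    have hsq : ∀ l, T l j = 0 ∨ T l j * T l j = 1 := fun l => by
      by_cases hl : T l j = 0
      · exact Or.inl hl
      · exact Or.inr (by rw [← pow_two]; exact hunits _ hl)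
    rcases hsq 0 with a0 | a0 <;> rcases hsq 1 with a1 | a1 <;> rcases hsq 2 with a2 | a2 <;>
      simp only [a0, a1, a2, mul_zero, zero_add, add_zero] at h
    · exact absurd h zero_ne_one
    · exact ⟨2, fun l hl => by fin_cases l <;> first | assumption | exact absurd rfl hl⟩
    · exact ⟨1, fun l hl => by fin_cases l <;> first | assumption | exact absurd rfl hl⟩
    · exact absurd (show (1 : F) = 0 by linear_combination h) one_ne_zero
    · exact ⟨0, fun l hl => by fin_cases l <;> first | assumption | exact absurd rfl hl⟩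
    · exact absurd (show (1 : F) = 0 by linear_combination h) one_ne_zero
    · exact absurd (show (1 : F) = 0 by linear_combination h) one_ne_zero
    · exact absurd (show (1 : F) = 0 by linear_combination h3 - h) one_ne_zero
  choose σ hσ using hcol
  have hbw : ∀ j, (b' : Matrix (Fin 3) (Fin 3) F) *ᵥ w j = T (σ j) j • w (σ j) := by
    intro j
    conv_lhs => rw [← w.sum_equivFun ((b' : Matrix (Fin 3) (Fin 3) F) *ᵥ w j)]
    rw [Finset.sum_eq_single (σ j) (fun l _ hl => by
      have := hσ j l hl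
      simp only [T, Matrix.of_apply] at this
      rw [this, zero_smul]) (by simp)]
    rfl
  have hσinj : Function.Injective σ := by
    intro i j hij
    by_contra hne
    have h := hb'sim (w i) (w j)
    simp only [hbw, hij, map_smul, LinearMap.smul_apply, hw, if_pos, if_neg hne, smul_eq_mul, mul_zero] at h
    have hnz : ∀ l, T (σ l) l ≠ 0 := fun l h0 => w.ne_zero l
      (GeoClasses.mulVec_injective b' (by show _ *ᵥ w l = _ *ᵥ (0 : Fin 3 → F); rw [hbw, h0, zero_smul, Matrix.mulVec_zero]))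
    have h1 := hnz i
    have h2 := hnz j
    simp only [hij, mul_eq_zero, hε, or_false] at h h1
    rcases h with h | h
    · first | exact h1 h | exact h2 h
    · first | exact h2 h | exact h1 h
  refine ⟨Equiv.ofBijective σ (Finite.injective_iff_bijective.mp hσinj), fun i => ?_⟩
  apply Submodule.eq_of_le_of_finrank_eq
  · rintro _ ⟨x, hx, rfl⟩
    obtain ⟨y, rfl⟩ := (hmem i x).mp hx
    rw [Matrix.toLin'_apply]
    refine (hmem _ _).mpr ⟨T (σ i) i • ((a : Matrix (Fin 2) (Fin 2) F) *ᵥ y), ?_⟩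
    simp only [L]
    rw [hgL, hkron, hbw]
    congr 1
    funext p
    simp only [Equiv.ofBijective_apply, Function.comp_apply, Pi.smul_apply, smul_eq_mul]
    ring
  · have hinj : Function.Injective (Matrix.toLin' (g : Matrix (Fin m ⊕ Fin m) (Fin m ⊕ Fin m) F)) :=
      fun x y h => GeoClasses.mulVec_injective g (by simpa using h)
    rw [← LinearEquiv.finrank_eq (Submodule.equivMapOfInjective _ hinj (D i)),
      (isMDecomposition_of_basis (by norm_num : 2 ≤ 3) two_pos b).finrank_eq,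
      (isMDecomposition_of_basis (by norm_num : 2 ≤ 3) two_pos b).finrank_eq]

end Cfsg.Agent.ClassicalMax
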