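import Cfsg.Agent.ClassicalMax.UnitaryCases
import Cfsg.Agent.ClassicalMax.SympExceptions

/-!
Exceptional inclusions between geometric members of unitary groups over the field with four elements.
-/

set_option autoImplicit false
set_option linter.style.haveILetI false

namespace Cfsg.Agent.ClassicalMax

open Matrix Cfsg.Geo Module
open Cfsg.Agent.Classical.U (SqField sqField_of_fintype)
open scoped MatrixGroups Matrix Kronecker commutatorElement

variable {F : Type*} [Field F]

section Form

variable {ι : Type} {q : ℕ} {f : (ι → F) → (ι → F) → F}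

/-- The standard hermitian form is unitary. -/
theorem hermForm_isUnitaryFormPow {n : ℕ} (hF : SqField F q) : IsUnitaryFormPow q (Cfsg.hermForm n F q) where
  add_left x y v := Classical.U.herm_add_left x y v
  smul_left c x v := Classical.U.herm_smul_left c x v
  herm v w := (hF.herm_symm w v).symm
  nondegenerate v hv := by
    constructor <;> by_contra hc <;> push Not at hc
    · refine hv (hF.eq_zero_of_herm v fun x => ?_)
      rw [← hF.herm_symm]
      show (Cfsg.hermForm n F q x v) ^ q = 0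
      rw [hc, zero_pow hF.q_ne_zero]
    · exact hv (hF.eq_zero_of_herm v hc)

theorem _root_.Cfsg.Geo.IsUnitaryFormPow.smul_right' (hf : IsUnitaryFormPow q f) (c : F) (x v : ι → F) :
    f x (c • v) = c ^ q * f x v := by
  rw [hf.herm, hf.smul_left, mul_pow, ← hf.herm]

theorem _root_.Cfsg.Geo.IsUnitaryFormPow.add_right' (hF : SqField F q) (hf : IsUnitaryFormPow q f) (x v w : ι → F) :
    f x (v + w) = f x v + f x w := by
  rw [hf.herm, hf.add_left, hF.add_pow, ← hf.herm, ← hf.herm]

theorem _root_.Cfsg.Geo.IsUnitaryFormPow.zero_left' (hf : IsUnitaryFormPow q f) (v : ι → F) : f 0 v = 0 := by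
  have := hf.smul_left 0 0 v
  rwa [zero_smul, zero_mul] at this

theorem _root_.Cfsg.Geo.IsUnitaryFormPow.sum_left {κ : Type} (hf : IsUnitaryFormPow q f) (s : Finset κ) (x : κ → (ι → F))
    (v : ι → F) : f (∑ i ∈ s, x i) v = ∑ i ∈ s, f (x i) v := by
  classical
  induction s using Finset.induction with
  | empty => simp [hf.zero_left']
  | insert a s ha ih => rw [Finset.sum_insert ha, Finset.sum_insert ha, hf.add_left, ih]

theorem _root_.Cfsg.Geo.IsUnitaryFormPow.sum_right {κ : Type} (hF : SqField F q) (hf : IsUnitaryFormPow q f) (s : Finset κ)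
    (x : κ → (ι → F)) (v : ι → F) : f v (∑ i ∈ s, x i) = ∑ i ∈ s, f v (x i) := by
  rw [hf.herm, hf.sum_left, hF.sum_pow]
  exact Finset.sum_congr rfl fun i _ => (hf.herm _ _).symm

theorem _root_.Cfsg.Geo.IsUnitaryFormPow.eq_formOfGram {k : ℕ} {f : (Fin k → F) → (Fin k → F) → F} (hF : SqField F q)
    (hf : IsUnitaryFormPow q f) (x y : Fin k → F) :
    f x y = formOfGram (fun z : F => z ^ q) (gramMatrix f) x y := by
  conv_lhs => rw [pi_eq_sum_univ' x, pi_eq_sum_univ' y]
  rw [hf.sum_left]
  refine Finset.sum_congr rfl fun a _ => ?_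
  rw [hf.sum_right hF]
  refine Finset.sum_congr rfl fun b _ => ?_
  rw [hf.smul_left, hf.smul_right']
  simp only [gramMatrix]
  ring

theorem formOfGram_kronecker_pow {n₁ n₂ : ℕ} (G₁ : Matrix (Fin n₁) (Fin n₁) F) (G₂ : Matrix (Fin n₂) (Fin n₂) F)
    (y y' : Fin n₁ → F) (w w' : Fin n₂ → F) :
    formOfGram (fun z : F => z ^ q) (G₁ ⊗ₖ G₂) (fun p => y p.1 * w p.2) (fun p => y' p.1 * w' p.2) =
      formOfGram (fun z : F => z ^ q) G₁ y y' * formOfGram (fun z : F => z ^ q) G₂ w w' := by
  simp only [formOfGram, Matrix.kroneckerMap_apply, Fintype.sum_prod_type, mul_pow]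
  rw [Finset.sum_mul_sum]
  simp only [Finset.sum_mul_sum]
  exact Finset.sum_congr rfl fun a _ => Finset.sum_congr rfl fun c _ => Finset.sum_congr rfl fun d _ =>
    Finset.sum_congr rfl fun f _ => by ring

end Form

section Four

variable (hF : SqField F 2)
include hF

theorem two_eq_zero_of_sqField : (2 : F) = 0 := by
  obtain ⟨h, e⟩ := id hF
  have : Fintype F := Fintype.ofFinite F
  have h4 := Nat.cast_card_eq_zero F
  rw [Nat.card_eq_fintype_card] at e
  rw [e] at h4
  push_cast at h4
  exact pow_eq_zero_iff two_ne_zero |>.mp ((show (2:F) ^ 2 = 4 by norm_num).trans h4)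

theorem pow_three_of_ne_zero {x : F} (hx : x ≠ 0) : x ^ 3 = 1 := by
  obtain ⟨h, e⟩ := id hF
  have : Fintype F := Fintype.ofFinite F
  rw [Nat.card_eq_fintype_card] at e
  have := FiniteField.pow_card_sub_one_eq_one x hx
  rwa [e] at this

theorem eq_zero_or_one_of_sq {x : F} (hx : x ^ 2 = x) : x = 0 ∨ x = 1 := by
  have : x * (x - 1) = 0 := by linear_combination hx
  exact (mul_eq_zero.mp this).imp id sub_eq_zero.mp

theorem exists_omega : ∃ ω : F, ω ^ 2 + ω + 1 = 0 ∧ ω ≠ 0 ∧ ω ≠ 1 := by
  classical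
  obtain ⟨h, e⟩ := id hF
  have : Fintype F := Fintype.ofFinite F
  rw [Nat.card_eq_fintype_card] at e
  obtain ⟨ω, hω⟩ : ((Finset.univ : Finset F) \ {0, 1}).Nonempty := by
    rw [← Finset.card_pos]
    have h1 := Finset.le_card_sdiff ({0, 1} : Finset F) Finset.univ
    have h2 : ({0, 1} : Finset F).card ≤ 2 := Finset.card_le_two
    rw [Finset.card_univ, e] at h1
    omega
  simp at hω
  refine ⟨ω, ?_, hω.1, hω.2⟩
  have : (ω - 1) * (ω ^ 2 + ω + 1) = 0 := by linear_combination pow_three_of_ne_zero hF hω.1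
  exact (mul_eq_zero.mp this).resolve_left (sub_ne_zero.mpr hω.2)

variable {ι : Type} {f : (ι → F) → (ι → F) → F}

theorem self_value (hf : IsUnitaryFormPow 2 f) (u : ι → F) : f u u = 0 ∨ f u u = 1 :=
  eq_zero_or_one_of_sq hF (hf.herm u u).symm

/-- A non-degenerate plane over four elements has exactly two anisotropic lines, orthogonal to each other. -/
theorem exists_orth_pair (hf : IsUnitaryFormPow 2 f) {W : Submodule F (ι → F)} (hW : finrank F W = 2)
    (hnd : IsNondegenerateOn f W) :
    ∃ v : Fin 2 → (ι → F), (∀ l, v l ∈ W) ∧ (∀ l, f (v l) (v l) = 1) ∧ (∀ l l', l ≠ l' → f (v l) (v l') = 0) ∧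
      ∀ u ∈ W, f u u ≠ 0 → ∃ l, u ∈ Submodule.span F {v l} := by
  classical
  have h2 := two_eq_zero_of_sqField hF
  obtain ⟨ω, hω, hω0, hω1⟩ := exists_omega hF
  haveI : FiniteDimensional F W := Module.finite_of_finrank_pos (by omega)
  obtain ⟨a, ha, haa⟩ : ∃ a ∈ W, f a a = 1 := by
    by_contra hc
    push Not at hc
    have hiso : ∀ u ∈ W, f u u = 0 := fun u hu => (self_value hF hf u).resolve_right (hc u hu)
    obtain ⟨u, hu, hu0⟩ := Submodule.exists_mem_ne_zero_of_ne_bot (p := W) fun h => by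
      rw [h, finrank_bot] at hW; omega
    obtain ⟨-, w, hw, hne⟩ := hnd u hu hu0
    have h := hiso _ (W.add_mem hu (W.smul_mem (ω * f u w) hw))
    rw [hf.add_left, hf.add_right' hF, hf.add_right' hF, hf.smul_left, hf.smul_left, hf.smul_right',
      hf.smul_right', hiso u hu, hiso w hw, hf.herm w u] at h
    have h' : f u w ^ 3 * (ω * (ω + 1)) = 0 := by linear_combination h
    rw [pow_three_of_ne_zero hF hne, one_mul] at h'
    rcases mul_eq_zero.mp h' with h' | h'
    · exact hω0 h'
    · exact hω1 (by linear_combination h' - h2)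
  have ha0 : a ≠ 0 := fun h => by rw [h, hf.zero_left'] at haa; exact zero_ne_one haa
  obtain ⟨w, hw, hwa⟩ : ∃ w ∈ W, w ∉ Submodule.span F {a} := by
    by_contra hc
    push Not at hc
    have := Submodule.finrank_mono (show W ≤ Submodule.span F {a} from hc)
    rw [finrank_span_singleton ha0, hW] at this
    omega
  set b := w + f w a • a with hb
  have hbW : b ∈ W := W.add_mem hw (W.smul_mem _ ha)
  have hba : f b a = 0 := by rw [hb, hf.add_left, hf.smul_left, haa]; linear_combination f w a * h2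
  have hab : f a b = 0 := by rw [hf.herm, hba]; exact zero_pow two_ne_zero
  have hb' : b ∉ Submodule.span F {a} := fun h => hwa (by
    have := Submodule.sub_mem _ h (Submodule.smul_mem _ (f w a) (Submodule.mem_span_singleton_self a))
    simpa [hb] using this)
  have hb0 : b ≠ 0 := fun h => hb' (h ▸ Submodule.zero_mem _)
  have hspan : Submodule.span F {a} ⊔ Submodule.span F {b} = W := by
    apply Submodule.eq_of_le_of_finrank_le (sup_le (by simpa using ha) (by simpa using hbW))
    rw [hW]
    have hlt : Submodule.span F {a} < Submodule.span F {a} ⊔ Submodule.span F {b} :=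
      lt_of_le_of_ne le_sup_left fun h => hb' (h ▸ Submodule.mem_sup_right (Submodule.mem_span_singleton_self b))
    haveI : FiniteDimensional F (Submodule.span F {a} ⊔ Submodule.span F {b} : Submodule F (ι → F)) :=
      Submodule.finiteDimensional_sup _ _
    have := Submodule.finrank_lt_finrank_of_lt hlt
    rw [finrank_span_singleton ha0] at this
    omega
  have hcoord : ∀ u ∈ W, ∃ α β : F, u = α • a + β • b := by
    intro u hu
    rw [← hspan, Submodule.mem_sup] at hu
    obtain ⟨_, h1, _, h2, rfl⟩ := hu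
    obtain ⟨α, rfl⟩ := Submodule.mem_span_singleton.mp h1
    obtain ⟨β, rfl⟩ := Submodule.mem_span_singleton.mp h2
    exact ⟨α, β, rfl⟩
  have hbb : f b b = 1 := by
    refine (self_value hF hf b).resolve_left fun h0 => ?_
    obtain ⟨⟨x, hx, hne⟩, -⟩ := hnd b hbW hb0
    obtain ⟨α, β, rfl⟩ := hcoord x hx
    exact hne (by rw [hf.add_left, hf.smul_left, hf.smul_left, hab, h0]; ring)
  refine ⟨![a, b], fun l => by fin_cases l <;> assumption, fun l => by fin_cases l <;> assumption,
    fun l l' h => by fin_cases l <;> fin_cases l' <;> simp_all, fun u hu hne => ?_⟩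
  obtain ⟨α, β, rfl⟩ := hcoord u hu
  by_cases hα : α = 0
  · exact ⟨1, Submodule.mem_span_singleton.mpr ⟨β, by simp [hα]⟩⟩
  by_cases hβ : β = 0
  · exact ⟨0, Submodule.mem_span_singleton.mpr ⟨α, by simp [hβ]⟩⟩
  refine absurd ?_ hne
  rw [hf.add_left, hf.add_right' hF, hf.add_right' hF, hf.smul_left, hf.smul_left, hf.smul_left, hf.smul_left,
    hf.smul_right', hf.smul_right', hf.smul_right', hf.smul_right', haa, hbb, hab, hba]
  linear_combination pow_three_of_ne_zero hF hα + pow_three_of_ne_zero hF hβ + h2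

end Four

section Frame

variable {n q : ℕ}

/-- Pairwise orthogonal anisotropic vectors span a frame. -/
theorem frame_of_orth (hF : SqField F q) (hn : 2 ≤ n) {v : Fin n → (Fin n → F)}
    (hd : ∀ i, Cfsg.hermForm n F q (v i) (v i) ≠ 0)
    (ho : ∀ i j, i ≠ j → Cfsg.hermForm n F q (v i) (v j) = 0) :
    IsNondegenerateMDecomposition (Cfsg.hermForm n F q) 1 fun i => Submodule.span F {v i} := by
  have hf := hermForm_isUnitaryFormPow (n := n) hF
  have hli : LinearIndependent F v := by
    rw [Fintype.linearIndependent_iff]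
    intro c hc j
    have := congrArg (fun x => Cfsg.hermForm n F q x (v j)) hc
    simp only [hf.sum_left, hf.smul_left, hf.zero_left'] at this
    rw [Finset.sum_eq_single j (fun i _ hi => by rw [ho i j hi, mul_zero]) (by simp)] at this
    exact (mul_eq_zero.mp this).resolve_right (hd j)
  haveI : Nonempty (Fin n) := ⟨⟨0, by omega⟩⟩
  let b := basisOfLinearIndependentOfCardEqFinrank hli (by simp)
  let b' : Basis (Fin 1 × Fin n) F (Fin n → F) := b.reindex (Equiv.uniqueProd (Fin n) (Fin 1)).symm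
  have hD : (fun i => Submodule.span F {v i}) = fun i : Fin n => Submodule.span F (Set.range fun l => b' (l, i)) := by
    funext i
    rw [Set.range_unique]
    simp [b', b]
  refine ⟨?_, fun i w hw hw0 => ?_, fun i j hij u hu w hw => ?_⟩
  · rw [hD]
    exact isMDecomposition_of_basis hn Nat.one_pos b'
  · obtain ⟨c, rfl⟩ := Submodule.mem_span_singleton.mp hw
    have hc : c ≠ 0 := fun h => hw0 (by rw [h, zero_smul])
    refine ⟨⟨v i, Submodule.mem_span_singleton_self _, ?_⟩, v i, Submodule.mem_span_singleton_self _, ?_⟩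
    · rw [hf.smul_right']; exact mul_ne_zero (pow_ne_zero _ hc) (hd i)
    · rw [hf.smul_left]; exact mul_ne_zero hc (hd i)
  · obtain ⟨a, rfl⟩ := Submodule.mem_span_singleton.mp hu
    obtain ⟨c, rfl⟩ := Submodule.mem_span_singleton.mp hw
    rw [hf.smul_left, hf.smul_right', ho i j hij, mul_zero, mul_zero]

/-- An invertible matrix sending each line of a frame into another one stabilises it. -/
theorem mem_decompositionStabilizer_of_maps {t k : ℕ} {D : Fin t → Submodule F (Fin n → F)}
    (hD : IsMDecomposition k D) {g : GL (Fin n) F} {σ : Fin t → Fin t} (hσ : Function.Injective σ)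
    (h : ∀ i, ∀ x ∈ D i, (g : Matrix (Fin n) (Fin n) F) *ᵥ x ∈ D (σ i)) : g ∈ decompositionStabilizer D := by
  refine ⟨Equiv.ofBijective σ (Finite.injective_iff_bijective.mp hσ), fun i => ?_⟩
  apply Submodule.eq_of_le_of_finrank_eq
  · rintro _ ⟨x, hx, rfl⟩
    rw [Matrix.toLin'_apply]
    exact h i x hx
  · have hinj : Function.Injective (Matrix.toLin' (g : Matrix (Fin n) (Fin n) F)) :=
      fun x y h => GeoClasses.mulVec_injective g (by simpa using h)
    rw [← LinearEquiv.finrank_eq (Submodule.equivMapOfInjective _ hinj (D i)), hD.finrank_eq, hD.finrank_eq]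

/-- Over four elements the stabiliser of a decomposition into planes fixes a frame. -/
theorem planes_le_frame (hF : SqField F 2) {t : ℕ} {D : Fin t → Submodule F (Fin n → F)}
    (hD : IsNondegenerateMDecomposition (Cfsg.hermForm n F 2) 2 D) :
    ∃ E : Fin n → Submodule F (Fin n → F), IsNondegenerateMDecomposition (Cfsg.hermForm n F 2) 1 E ∧
      decompositionStabilizer D ⊓ Cfsg.GU n F 2 ≤ decompositionStabilizer E := by
  classical
  have hf := hermForm_isUnitaryFormPow (n := n) hF
  have htn : t * 2 = n := by rw [MaxSub.mul_eq_card_of_isMDecomposition hD.decomp, Fintype.card_fin]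
  choose a haW haa hao hal using fun i => exists_orth_pair hF hf (hD.decomp.finrank_eq i) (hD.nondegenerate i)
  let ix : Fin n ≃ Fin t × Fin 2 := ((Equiv.cast (congrArg Fin htn.symm)).trans finProdFinEquiv.symm)
  let v : Fin n → (Fin n → F) := fun j => a (ix j).1 (ix j).2
  have hvd : ∀ j, Cfsg.hermForm n F 2 (v j) (v j) ≠ 0 := fun j => by
    show Cfsg.hermForm n F 2 (a _ _) (a _ _) ≠ 0
    rw [haa]; exact one_ne_zero
  have hvo : ∀ j j', j ≠ j' → Cfsg.hermForm n F 2 (v j) (v j') = 0 := by
    intro j j' hne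
    have hne' : ix j ≠ ix j' := fun h => hne (ix.injective h)
    by_cases h1 : (ix j).1 = (ix j').1
    · show Cfsg.hermForm n F 2 (a _ _) (a _ _) = 0
      rw [h1]
      exact hao _ _ _ fun h2 => hne' (Prod.ext h1 h2)
    · exact hD.orthogonal _ _ h1 _ (haW _ _) _ (haW _ _)
  have hn2 : 2 ≤ n := by have := hD.decomp.two_le; omega
  have hE := frame_of_orth hF hn2 hvd hvo
  refine ⟨_, hE, ?_⟩
  rintro g ⟨⟨σ, hσ⟩, hgU⟩
  have himg : ∀ j, ∃ j', (g : Matrix (Fin n) (Fin n) F) *ᵥ v j ∈ Submodule.span F {v j'} := by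
    intro j
    have hmem : (g : Matrix (Fin n) (Fin n) F) *ᵥ v j ∈ D (σ (ix j).1) := by
      rw [← hσ]; exact ⟨v j, haW _ _, Matrix.toLin'_apply _ _⟩
    obtain ⟨l, hl⟩ := hal _ _ hmem (by
      have := hgU (v j) (v j)
      simp only [Units.coeHom_apply] at this
      rw [this]; exact hvd j)
    exact ⟨ix.symm (σ (ix j).1, l), by simpa [v] using hl⟩
  choose τ hτ using himg
  refine mem_decompositionStabilizer_of_maps hE.decomp (σ := τ) (fun j j' h => ?_) fun j x hx => ?_
  · by_contra hne
    obtain ⟨c, hc⟩ := Submodule.mem_span_singleton.mp (hτ j)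
    obtain ⟨c', hc'⟩ := Submodule.mem_span_singleton.mp (hτ j')
    have := hgU (v j) (v j')
    simp only [Units.coeHom_apply] at this
    rw [← hc, ← hc', hvo j j' hne, hf.smul_left, hf.smul_right', h] at this
    have hc0 : ∀ (i : Fin n) (e : F), e • v (τ i) = (g : Matrix (Fin n) (Fin n) F) *ᵥ v i → e ≠ 0 := by
      intro i e he h0
      rw [h0, zero_smul, ← Matrix.mulVec_zero (g : Matrix (Fin n) (Fin n) F)] at he
      have := GeoClasses.mulVec_injective g he.symm
      apply hvd i
      rw [this, hf.zero_left']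
    rcases mul_eq_zero.mp this with h' | h'
    · exact hc0 j c hc h'
    · rcases mul_eq_zero.mp h' with h' | h'
      · exact hc0 j' c' hc' (eq_zero_of_pow_eq_zero h')
      · exact hvd _ h'
  · obtain ⟨c, rfl⟩ := Submodule.mem_span_singleton.mp hx
    rw [Matrix.mulVec_smul]
    exact Submodule.smul_mem _ _ (hτ j)

end Frame

section Tensor

/-- Over four elements a tensor decomposition `2 × n₂` fixes a decomposition into two orthogonal members. -/
theorem tensor_le_decomposition_of_four {n n₂ : ℕ} (hF : SqField F 2) (hn₂ : 0 < n₂)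
    (e : Fin n ≃ Fin 2 × Fin n₂) (P : GL (Fin n) F)
    {f₁ : (Fin 2 → F) → (Fin 2 → F) → F} {f₂ : (Fin n₂ → F) → (Fin n₂ → F) → F}
    (hf₁ : IsUnitaryFormPow 2 f₁) (hf₂ : IsUnitaryFormPow 2 f₂)
    (hs : IsTensorFormStructure (fun x : F => x ^ 2) (Cfsg.hermForm n F 2) f₁ f₂ e P) :
    ∃ D : Fin 2 → Submodule F (Fin n → F), IsNondegenerateMDecomposition (Cfsg.hermForm n F 2) n₂ D ∧
      tensorProductSubgroup 2 n₂ e P ⊓ Cfsg.GU n F 2 ≤ decompositionStabilizer D := by
  classical
  obtain ⟨c, hc, hform⟩ := hs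
  obtain ⟨a, -, haa, hao, hal⟩ := exists_orth_pair hF hf₁ (W := ⊤) (by simp) fun w _ hw =>
    ⟨(hf₁.nondegenerate w hw).1.imp fun x hx => ⟨Submodule.mem_top, hx⟩,
      (hf₁.nondegenerate w hw).2.imp fun x hx => ⟨Submodule.mem_top, hx⟩⟩
  obtain ⟨z₀, hz₀⟩ : ∃ z, f₂ z z ≠ 0 := by
    obtain ⟨ω, hω, hω0, hω1⟩ := exists_omega hF
    by_contra hc
    push Not at hc
    obtain ⟨-, w, hne⟩ := hf₂.nondegenerate (Pi.single ⟨0, hn₂⟩ 1) (by simp)
    set u : Fin n₂ → F := Pi.single ⟨0, hn₂⟩ 1
    have h := hc (u + (ω * f₂ u w) • w)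
    rw [hf₂.add_left, hf₂.add_right' hF, hf₂.add_right' hF, hf₂.smul_left, hf₂.smul_left, hf₂.smul_right',
      hf₂.smul_right', hc u, hc w, hf₂.herm w u] at h
    have h' : f₂ u w ^ 3 * (ω * (ω + 1)) = 0 := by linear_combination h
    rw [pow_three_of_ne_zero hF hne, one_mul] at h'
    rcases mul_eq_zero.mp h' with h' | h'
    · exact hω0 h'
    · exact hω1 (by linear_combination h' - two_eq_zero_of_sqField hF)
  let L : Fin 2 → (Fin n₂ → F) →ₗ[F] (Fin n → F) := fun i =>
    { toFun := fun z => (P : Matrix (Fin n) (Fin n) F) *ᵥ ((fun p : Fin 2 × Fin n₂ => a i p.1 * z p.2) ∘ e)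
      map_add' := fun z z' => by simp only [← Matrix.mulVec_add]; congr 1; funext p; simp [mul_add]
      map_smul' := fun b z => by
        simp only [RingHom.id_apply, ← Matrix.mulVec_smul]; congr 1; funext p; simp; ring }
  have hL : ∀ i j z z', Cfsg.hermForm n F 2 (L i z) (L j z') = c * (f₁ (a i) (a j) * f₂ z z') := by
    intro i j z z'
    simp only [L, LinearMap.coe_mk, AddHom.coe_mk]
    rw [hform, formOfGram_kronecker_pow, ← hf₁.eq_formOfGram hF, ← hf₂.eq_formOfGram hF]
  have hinj : ∀ i, Function.Injective (L i) := by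
    intro i
    rw [← LinearMap.ker_eq_bot, LinearMap.ker_eq_bot']
    intro z hz
    by_contra hz0
    obtain ⟨⟨x, hx⟩, -⟩ := hf₂.nondegenerate z hz0
    have := hL i i x z
    rw [hz, haa, one_mul, (hermForm_isUnitaryFormPow hF).herm, (hermForm_isUnitaryFormPow hF).zero_left',
      zero_pow two_ne_zero] at this
    exact mul_ne_zero hc hx this.symm
  let D : Fin 2 → Submodule F (Fin n → F) := fun i => LinearMap.range (L i)
  have hfr : ∀ i, finrank F (D i) = n₂ := fun i => by
    rw [LinearMap.finrank_range_of_inj (hinj i), Module.finrank_fintype_fun_eq_card, Fintype.card_fin]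
  have horth : ∀ i j, i ≠ j → AreOrthogonalFor (Cfsg.hermForm n F 2) (D i) (D j) := by
    rintro i j hij _ ⟨z, rfl⟩ _ ⟨z', rfl⟩
    rw [hL, hao i j hij, zero_mul, mul_zero]
  have hdisj : Disjoint (D 0) (D 1) := by
    rw [Submodule.disjoint_def]
    rintro _ ⟨z, rfl⟩ hx
    by_contra hne
    obtain ⟨⟨x, hx'⟩, -⟩ := hf₂.nondegenerate z fun h => hne (by rw [h, map_zero])
    have := horth 0 1 (by simp) _ ⟨x, rfl⟩ _ hx
    rw [hL, haa, one_mul] at this
    exact mul_ne_zero hc hx' this
  have hcompl : D 0 ⊔ D 1 = ⊤ := by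
    apply Submodule.eq_top_of_finrank_eq
    have h1 := Submodule.finrank_sup_add_finrank_inf_eq (D 0) (D 1)
    rw [hdisj.eq_bot, finrank_bot, hfr, hfr] at h1
    rw [Module.finrank_fintype_fun_eq_card, Fintype.card_congr e, Fintype.card_prod, Fintype.card_fin, Fintype.card_fin]
    omega
  have hdec : IsMDecomposition n₂ D :=
    { two_le := le_rfl
      pos := hn₂
      finrank_eq := hfr
      indep := by
        rw [iSupIndep_def]
        intro i
        fin_cases i
        · exact hdisj.mono_right (iSup₂_le fun j hj => by fin_cases j <;> simp_all)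
        · exact hdisj.symm.mono_right (iSup₂_le fun j hj => by fin_cases j <;> simp_all)
      iSup_eq_top := eq_top_iff.mpr (hcompl ▸ sup_le (le_iSup D 0) (le_iSup D 1)) }
  refine ⟨D, ⟨hdec, fun i w hw hw0 => ?_, horth⟩, ?_⟩
  · obtain ⟨z, rfl⟩ := hw
    obtain ⟨⟨x, hx⟩, ⟨x', hx'⟩⟩ := hf₂.nondegenerate z fun h => hw0 (by rw [h, map_zero])
    exact ⟨⟨L i x, ⟨x, rfl⟩, by rw [hL, haa, one_mul]; exact mul_ne_zero hc hx⟩,
      ⟨L i x', ⟨x', rfl⟩, by rw [hL, haa, one_mul]; exact mul_ne_zero hc hx'⟩⟩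
  rintro g ⟨⟨_, ⟨k, ⟨a', b', hk⟩, rfl⟩, hg⟩, hsp⟩
  simp only [MulEquiv.toMonoidHom_eq_coe, MonoidHom.coe_coe, MulAut.conj_apply] at hg
  have hgP : ∀ (y : Fin 2 → F) (z : Fin n₂ → F), (g : Matrix (Fin n) (Fin n) F) *ᵥ
      ((P : Matrix (Fin n) (Fin n) F) *ᵥ ((fun p => y p.1 * z p.2) ∘ e)) =
      (P : Matrix (Fin n) (Fin n) F) *ᵥ ((fun p => ((a' : Matrix (Fin 2) (Fin 2) F) *ᵥ y) p.1 *
        ((b' : Matrix (Fin n₂) (Fin n₂) F) *ᵥ z) p.2) ∘ e) := by
    intro y z
    rw [← hg, Matrix.mulVec_mulVec, ← Units.val_mul, inv_mul_cancel_right, Units.val_mul, ← Matrix.mulVec_mulVec]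
    congr 1
    have hval : ((glReindex e.symm k : GL (Fin n) F) : Matrix (Fin n) (Fin n) F) =
        Matrix.reindex e.symm e.symm (k : Matrix (Fin 2 × Fin n₂) (Fin 2 × Fin n₂) F) := rfl
    rw [hval, Matrix.reindex_apply, Equiv.symm_symm, Matrix.submatrix_mulVec_equiv, Function.comp_assoc,
      Equiv.self_comp_symm, Function.comp_id]
    congr 1
    funext p
    rw [hk]
    simp only [Matrix.mulVec, dotProduct, Matrix.kroneckerMap_apply, Finset.sum_mul_sum, Fintype.sum_prod_type]
    exact Finset.sum_congr rfl fun i _ => Finset.sum_congr rfl fun j _ => by ring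
  have hline : ∀ i, ∃ j, (a' : Matrix (Fin 2) (Fin 2) F) *ᵥ a i ∈ Submodule.span F {a j} := by
    intro i
    refine hal _ Submodule.mem_top fun h0 => ?_
    have h := hsp (L i z₀) (L i z₀)
    simp only [Units.coeHom_apply, L, LinearMap.coe_mk, AddHom.coe_mk] at h
    rw [hgP, hform, hform, formOfGram_kronecker_pow, formOfGram_kronecker_pow, ← hf₁.eq_formOfGram hF,
      ← hf₁.eq_formOfGram hF, ← hf₂.eq_formOfGram hF, ← hf₂.eq_formOfGram hF, h0, haa, zero_mul, mul_zero,
      one_mul] at h
    exact mul_ne_zero hc hz₀ h.symm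
  choose τ hτ using hline
  refine mem_decompositionStabilizer_of_maps hdec (σ := τ) (fun i j h => ?_) fun i x hx => ?_
  · by_contra hne
    obtain ⟨s, hs⟩ := Submodule.mem_span_singleton.mp (hτ i)
    obtain ⟨s', hs'⟩ := Submodule.mem_span_singleton.mp (hτ j)
    have h0 := hsp (L i z₀) (L j z₀)
    simp only [Units.coeHom_apply, L, LinearMap.coe_mk, AddHom.coe_mk] at h0
    rw [hgP, hgP, hform, hform, formOfGram_kronecker_pow, formOfGram_kronecker_pow, ← hf₁.eq_formOfGram hF,
      ← hf₁.eq_formOfGram hF, ← hf₂.eq_formOfGram hF, ← hf₂.eq_formOfGram hF, ← hs, ← hs', h, hao i j hne,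
      zero_mul, mul_zero, hf₁.smul_left, hf₁.smul_right', haa] at h0
    have hne0 : ∀ (l : Fin 2) (r : F), r • a (τ l) = (a' : Matrix (Fin 2) (Fin 2) F) *ᵥ a l → r ≠ 0 := by
      intro l r hr h0
      rw [h0, zero_smul, ← Matrix.mulVec_zero (a' : Matrix (Fin 2) (Fin 2) F)] at hr
      have := GeoClasses.mulVec_injective a' hr.symm
      have h1 := haa l
      rw [this, hf₁.zero_left'] at h1
      exact zero_ne_one h1
    have hz' : f₂ ((b' : Matrix (Fin n₂) (Fin n₂) F) *ᵥ z₀) ((b' : Matrix (Fin n₂) (Fin n₂) F) *ᵥ z₀) ≠ 0 := by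
      intro hz
      have h1 := hsp (L i z₀) (L i z₀)
      simp only [Units.coeHom_apply, L, LinearMap.coe_mk, AddHom.coe_mk] at h1
      rw [hgP, hform, hform, formOfGram_kronecker_pow, formOfGram_kronecker_pow, ← hf₁.eq_formOfGram hF,
        ← hf₁.eq_formOfGram hF, ← hf₂.eq_formOfGram hF, ← hf₂.eq_formOfGram hF, hz, haa, mul_zero, mul_zero,
        one_mul] at h1
      exact mul_ne_zero hc hz₀ h1.symm
    simp [hc, hz', hne0 i s hs, hne0 j s' (h ▸ hs')] at h0
  · obtain ⟨z, rfl⟩ := hx
    obtain ⟨s, hs⟩ := Submodule.mem_span_singleton.mp (hτ i)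
    refine ⟨s • ((b' : Matrix (Fin n₂) (Fin n₂) F) *ᵥ z), ?_⟩
    simp only [L, LinearMap.coe_mk, AddHom.coe_mk]
    rw [hgP, ← hs]
    congr 1
    funext p
    simp only [Function.comp_apply, Pi.smul_apply, smul_eq_mul]
    ring

end Tensor

section FrameSix

/-- The invariant set of the frame stabiliser in six dimensions over four elements. -/
def sixGood (x : Fin 6 → F) : Prop :=
  (∃ i j, i ≠ j ∧ x i ≠ 0 ∧ x j ≠ 0 ∧ ∀ l, l ≠ i → l ≠ j → x l = 0) ∨ ((∀ i, x i ≠ 0) ∧ ∏ i, x i = 1)

variable (hF : SqField F 2)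
include hF

theorem sixGood_smul {s : F} (hs : s ≠ 0) {x : Fin 6 → F} (hx : sixGood x) : sixGood fun i => s * x i := by
  rcases hx with ⟨i, j, hij, hi, hj, hl⟩ | ⟨hne, hp⟩
  · exact Or.inl ⟨i, j, hij, mul_ne_zero hs hi, mul_ne_zero hs hj, fun l h h' => by simp [hl l h h']⟩
  · refine Or.inr ⟨fun i => mul_ne_zero hs (hne i), ?_⟩
    rw [Finset.prod_mul_distrib, hp, mul_one, Finset.prod_const, Finset.card_univ, Fintype.card_fin,
      show s ^ 6 = (s ^ 3) ^ 2 by ring, pow_three_of_ne_zero hF hs, one_pow]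

theorem sixGood_shift_one {y : Fin 6 → F} (hne : ∀ i, y i ≠ 0) (hsum : ∑ i, y i = 1) (hprod : ∏ i, y i = 1) :
    sixGood fun i => y i + 1 := by
  classical
  have h2 := two_eq_zero_of_sqField hF
  obtain ⟨ω, hω, hω0, hω1⟩ := exists_omega hF
  let val : Fin 3 → F := ![1, ω, ω + 1]
  have hk : ∀ i, ∃ k, y i = val k := by
    intro i
    by_cases h1 : y i = 1
    · exact ⟨0, h1⟩
    have he : (y i) ^ 2 + y i + 1 = 0 := by
      have : (y i - 1) * ((y i) ^ 2 + y i + 1) = 0 := by linear_combination pow_three_of_ne_zero hF (hne i)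
      exact (mul_eq_zero.mp this).resolve_left (sub_ne_zero.mpr h1)
    have : (y i - ω) * (y i - (ω + 1)) = 0 := by linear_combination he + hω - (y i + 1 + y i * ω) * h2
    rcases mul_eq_zero.mp this with h | h
    · exact ⟨1, sub_eq_zero.mp h⟩
    · exact ⟨2, sub_eq_zero.mp h⟩
  choose k hk using hk
  set cnt : Fin 3 → ℕ := fun j => (Finset.univ.filter fun i => k i = j).card with hcnt
  have htot : cnt 0 + cnt 1 + cnt 2 = 6 := by
    have := Finset.card_eq_sum_card_fiberwise (f := k) (s := (Finset.univ : Finset (Fin 6))) (t := Finset.univ)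
      (by simp)
    rw [Finset.card_univ, Fintype.card_fin, Fin.sum_univ_three] at this
    exact this.symm
  have hs : (cnt 0 : F) + cnt 1 * ω + cnt 2 * (ω + 1) = 1 := by
    refine Eq.trans ?_ hsum
    rw [Finset.sum_congr rfl fun i _ => hk i, ← Finset.sum_fiberwise Finset.univ k (fun i => val (k i)),
      Fin.sum_univ_three]
    have : ∀ j, ∑ i ∈ Finset.univ.filter (fun i => k i = j), val (k i) = (cnt j : F) * val j := fun j => by
      rw [Finset.sum_congr rfl fun i hi => by rw [(Finset.mem_filter.mp hi).2], Finset.sum_const, nsmul_eq_mul]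
    rw [this, this, this]
    simp [val]
  have hp : ω ^ cnt 1 * (ω + 1) ^ cnt 2 = 1 := by
    refine Eq.trans ?_ hprod
    rw [Finset.prod_congr rfl fun i _ => hk i, ← Finset.prod_fiberwise Finset.univ k (fun i => val (k i)),
      Fin.prod_univ_three]
    have : ∀ j, ∏ i ∈ Finset.univ.filter (fun i => k i = j), val (k i) = val j ^ cnt j := fun j => by
      rw [Finset.prod_congr rfl fun i hi => by rw [(Finset.mem_filter.mp hi).2], Finset.prod_const]
    rw [this, this, this]
    simp [val]
  have hω2 : ω + 1 = ω ^ 2 := by linear_combination -hω + ω ^ 2 * h2 + (ω + 1) * h2 - (ω ^ 2) * h2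
  have hω3 : ω ^ 3 = 1 := pow_three_of_ne_zero hF hω0
  rw [hω2, ← pow_mul, ← pow_add] at hp
  have hmod : (cnt 1 + 2 * cnt 2) % 3 = 0 := by
    have := pow_eq_pow_mod (cnt 1 + 2 * cnt 2) hω3
    rw [hp] at this
    rcases Nat.lt_or_ge ((cnt 1 + 2 * cnt 2) % 3) 1 with h | h
    · omega
    exfalso
    have h' := Nat.mod_lt (cnt 1 + 2 * cnt 2) (show 3 > 0 by norm_num)
    interval_cases h'' : (cnt 1 + 2 * cnt 2) % 3
    · exact hω1 (by simpa using this.symm)
    · exact hω1 (by linear_combination ω * this + hω3)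
  have hpar : ∀ m : ℕ, (m : F) = ((m % 2 : ℕ) : F) := fun m => by
    conv_lhs => rw [← Nat.div_add_mod m 2, Nat.cast_add, Nat.cast_mul]
    push_cast
    rw [h2, zero_mul, zero_add]
  have h12 : (cnt 0 + cnt 2) % 2 = 1 ∧ (cnt 1 + cnt 2) % 2 = 0 := by
    have hs' : ((cnt 0 + cnt 2 : ℕ) : F) + ((cnt 1 + cnt 2 : ℕ) : F) * ω = 1 := by
      push_cast; linear_combination hs
    rw [hpar (cnt 0 + cnt 2), hpar (cnt 1 + cnt 2)] at hs'
    rcases Nat.mod_two_eq_zero_or_one (cnt 0 + cnt 2) with e | e <;>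
      rcases Nat.mod_two_eq_zero_or_one (cnt 1 + cnt 2) with e' | e' <;> simp [e, e'] at hs' ⊢
    · exact hω1 hs'
    · exact hω0 (by linear_combination hs')
  have hcase : cnt 0 = 4 ∨ cnt 0 = 0 := by omega
  have hz : ∀ i, y i + 1 = 0 ↔ k i = 0 := by
    intro i
    rw [hk i]
    generalize k i = j
    fin_cases j
    · simp [val]; linear_combination h2
    · simp [val]; exact fun h => hω1 (by linear_combination h - h2)
    · simp [val]; exact fun h => hω0 (by linear_combination h - h2)
  rcases hcase with h4 | h0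
  · have hc2 : (Finset.univ.filter fun i => ¬ k i = 0).card = 2 := by
      have := Finset.card_filter_add_card_filter_not (s := (Finset.univ : Finset (Fin 6))) (fun i => k i = 0)
      rw [Finset.card_univ, Fintype.card_fin] at this
      simp only [hcnt] at h4
      omega
    obtain ⟨i, j, hij, hset⟩ := Finset.card_eq_two.mp hc2
    have hmem : ∀ l, ¬ k l = 0 ↔ l = i ∨ l = j := fun l => by
      have := congrArg (l ∈ ·) hset
      simpa using this
    exact Or.inl ⟨i, j, hij, fun h => (hmem i).mpr (Or.inl rfl) ((hz i).mp h),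
      fun h => (hmem j).mpr (Or.inr rfl) ((hz j).mp h),
      fun l h h' => (hz l).mpr (by_contra fun hl => ((hmem l).mp hl).elim h h')⟩
  · have hnz : ∀ i, k i ≠ 0 := fun i h => by
      have : i ∈ Finset.univ.filter fun i => k i = 0 := by simp [h]
      simp only [hcnt, Finset.card_eq_zero] at h0
      rw [h0] at this
      exact Finset.notMem_empty i this
    refine Or.inr ⟨fun i h => hnz i ((hz i).mp h), ?_⟩
    have hsq : ∀ i, y i + 1 = (y i) ^ 2 := by
      intro i
      have h1 : y i ≠ 1 := fun h => hnz i ((hz i).mp (by rw [h]; linear_combination h2))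
      have : (y i - 1) * ((y i) ^ 2 + y i + 1) = 0 := by linear_combination pow_three_of_ne_zero hF (hne i)
      linear_combination -((mul_eq_zero.mp this).resolve_left (sub_ne_zero.mpr h1)) + (y i + 1) * h2
    rw [Finset.prod_congr rfl fun i _ => hsq i, Finset.prod_pow, hprod, one_pow]

theorem sixGood_shift {x : Fin 6 → F} (hx : sixGood x) : sixGood fun i => x i + ∑ l, x l := by
  classical
  have h2 := two_eq_zero_of_sqField hF
  set s := ∑ l, x l with hs
  by_cases hs0 : s = 0
  · simpa [hs0] using hx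
  rcases hx with ⟨i, j, hij, hi, hj, hl⟩ | ⟨hne, hp⟩
  · have hsum : s = x i + x j := by
      rw [hs, ← Finset.sum_subset (Finset.subset_univ {i, j}) (fun l _ h => by
        simp only [Finset.mem_insert, Finset.mem_singleton, not_or] at h; exact hl l h.1 h.2), Finset.sum_pair hij]
    have ei : x i + s = x j := by rw [hsum]; linear_combination x i * h2
    have ej : x j + s = x i := by rw [hsum]; linear_combination x j * h2
    refine Or.inr ⟨fun l => ?_, ?_⟩
    · show x l + s ≠ 0
      by_cases h : l = i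
      · rw [h, ei]; exact hj
      by_cases h' : l = j
      · rw [h', ej]; exact hi
      rw [hl l h h', zero_add]; exact hs0
    · rw [← Finset.mul_prod_erase _ _ (Finset.mem_univ i), ← Finset.mul_prod_erase _ _
        (show j ∈ Finset.univ.erase i by simp [hij.symm]), ei, ej,
        Finset.prod_congr rfl fun l hl' => by
          simp only [Finset.mem_erase, Finset.mem_univ, and_true] at hl'
          rw [hl l hl'.2 hl'.1, zero_add],
        Finset.prod_const, Finset.card_erase_of_mem (by simp [hij.symm]), Finset.card_erase_of_mem (Finset.mem_univ i),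
        Finset.card_univ, Fintype.card_fin]
      norm_num
      have hne : x i - x j ≠ 0 := sub_ne_zero.mpr fun h => hs0 (by rw [hsum, h]; linear_combination x j * h2)
      have hq : (x i) ^ 2 + x i * x j + (x j) ^ 2 = 0 := by
        have : (x i - x j) * ((x i) ^ 2 + x i * x j + (x j) ^ 2) = 0 := by
          linear_combination pow_three_of_ne_zero hF hi - pow_three_of_ne_zero hF hj
        exact (mul_eq_zero.mp this).resolve_left hne
      rw [show s ^ 4 = s ^ 3 * s by ring, pow_three_of_ne_zero hF hs0, one_mul, hsum]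
      linear_combination (x i) * hq - pow_three_of_ne_zero hF hi - h2
  · have hy := sixGood_shift_one hF (y := fun i => s⁻¹ * x i) (fun i => mul_ne_zero (inv_ne_zero hs0) (hne i))
      (by rw [← Finset.mul_sum, ← hs, inv_mul_cancel₀ hs0])
      (by rw [Finset.prod_mul_distrib, hp, mul_one, Finset.prod_const, Finset.card_univ, Fintype.card_fin,
            show s⁻¹ ^ 6 = (s⁻¹ ^ 3) ^ 2 by ring, pow_three_of_ne_zero hF (inv_ne_zero hs0), one_pow])
    have := sixGood_smul hF hs0 hy
    convert this using 2 with i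
    field_simp

/-- The frame stabiliser of `SU_6(2)` is not maximal. -/
theorem frame_not_maximal_six {D : Fin 6 → Submodule F (Fin 6 → F)}
    (hD : IsNondegenerateMDecomposition (Cfsg.hermForm 6 F 2) 1 D) :
    ¬ IsMaximalIn (suGL 6 F 2) (decompositionStabilizer D ⊓ suGL 6 F 2) := by
  classical
  intro hmax
  have h2 := two_eq_zero_of_sqField hF
  have hf := hermForm_isUnitaryFormPow (n := 6) hF
  have hv : ∀ i, ∃ v, v ∈ D i ∧ Cfsg.hermForm 6 F 2 v v = 1 ∧ ∀ x ∈ D i, ∃ c : F, x = c • v := fun i => by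
    obtain ⟨v, hv, hv0⟩ := Submodule.exists_mem_ne_zero_of_ne_bot (p := D i) fun h => by
      have := hD.decomp.finrank_eq i
      rw [h, finrank_bot] at this
      exact zero_ne_one this
    have hline : ∀ x ∈ D i, ∃ c : F, x = c • v := fun x hx => by
      obtain ⟨c, hc⟩ := exists_smul_eq_of_finrank_eq_one (hD.decomp.finrank_eq i) (x := ⟨v, hv⟩)
        (fun h => hv0 (congrArg Subtype.val h)) ⟨x, hx⟩
      exact ⟨c, (congrArg Subtype.val hc).symm⟩
    refine ⟨v, hv, (self_value hF hf v).resolve_left fun h0 => ?_, hline⟩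
    obtain ⟨⟨x, hx, hne⟩, -⟩ := hD.nondegenerate i v hv hv0
    obtain ⟨c, rfl⟩ := hline x hx
    exact hne (by rw [hf.smul_left, h0, mul_zero])
  choose v hvD hvv hline using hv
  have hvo : ∀ i j, i ≠ j → Cfsg.hermForm 6 F 2 (v i) (v j) = 0 := fun i j h =>
    hD.orthogonal i j h _ (hvD i) _ (hvD j)
  have hcomb : ∀ (c : Fin 6 → F) j, Cfsg.hermForm 6 F 2 (∑ i, c i • v i) (v j) = c j := by
    intro c j
    simp only [hf.sum_left, hf.smul_left]
    rw [Finset.sum_eq_single j (fun i _ hi => by rw [hvo i j hi, mul_zero]) (by simp), hvv, mul_one]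
  have hli : LinearIndependent F v := by
    rw [Fintype.linearIndependent_iff]
    intro c hc j
    rw [← hcomb c j, hc, hf.zero_left']
  let b := basisOfLinearIndependentOfCardEqFinrank hli (by simp)
  have hbv : ⇑b = v := coe_basisOfLinearIndependentOfCardEqFinrank hli _
  let X : (Fin 6 → F) → Fin 6 → F := fun u i => Cfsg.hermForm 6 F 2 u (v i)
  have hexp : ∀ u, ∑ i, X u i • v i = u := by
    intro u
    have h := b.sum_equivFun u
    rw [hbv] at h
    have : ∀ i, X u i = b.equivFun u i := fun i => by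
      show Cfsg.hermForm 6 F 2 u (v i) = _
      conv_lhs => rw [← h]
      exact hcomb _ i
    simp only [this]
    exact h
  let M : Subgroup (GL (Fin 6) F) :=
    { carrier := {g | ∀ u, sixGood (X ((g : Matrix (Fin 6) (Fin 6) F) *ᵥ u)) ↔ sixGood (X u)}
      mul_mem' := fun {g h} hg hh u => by rw [Units.val_mul, ← Matrix.mulVec_mulVec, hg, hh]
      one_mem' := fun u => by simp
      inv_mem' := fun {g} hg u => by
        rw [← hg, Matrix.mulVec_mulVec, ← Units.val_mul, mul_inv_cancel, Units.val_one, Matrix.one_mulVec] }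
  have hle : decompositionStabilizer D ⊓ suGL 6 F 2 ≤ M := by
    rintro g ⟨⟨σ, hσ⟩, hgU, hgS⟩
    have hco : ∀ i, ∃ c : F, (g : Matrix (Fin 6) (Fin 6) F) *ᵥ v i = c • v (σ i) := fun i =>
      hline _ _ (by rw [← hσ]; exact ⟨v i, hvD i, Matrix.toLin'_apply _ _⟩)
    choose lam hlam using hco
    have hlam0 : ∀ i, lam i ≠ 0 := fun i h => by
      have := hlam i
      rw [h, zero_smul, ← Matrix.mulVec_zero (g : Matrix (Fin 6) (Fin 6) F)] at this
      have h1 := hvv i
      rw [GeoClasses.mulVec_injective g this, hf.zero_left'] at h1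
      exact zero_ne_one h1
    have hprod : ∏ i, lam i = 1 := by
      have hmat : LinearMap.toMatrix b b (Matrix.toLin' (g : Matrix (Fin 6) (Fin 6) F)) =
          (Matrix.diagonal lam).submatrix σ.symm id := by
        ext i j
        rw [LinearMap.toMatrix_apply, hbv, Matrix.toLin'_apply, hlam, map_smul, Matrix.submatrix_apply, id,
          Matrix.diagonal_apply, ← hbv, b.repr_self]
        by_cases h : σ j = i
        · subst h; simp
        · rw [Finsupp.smul_apply, Finsupp.single_eq_of_ne (Ne.symm h), smul_zero,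
            if_neg fun h' => h (by rw [← h', Equiv.apply_symm_apply])]
      have hdet := congrArg Matrix.det hmat
      rw [LinearMap.det_toMatrix, LinearMap.det_toLin', GeoClasses.mem_specialLinear_iff.mp hgS,
        Matrix.det_permute, Matrix.det_diagonal] at hdet
      rcases Int.units_eq_one_or (Equiv.Perm.sign σ.symm) with e | e <;> rw [e] at hdet
      · simpa using hdet.symm
      · simp at hdet
        linear_combination hdet - h2
    have key : ∀ u i, X ((g : Matrix (Fin 6) (Fin 6) F) *ᵥ u) (σ i) = lam i * X u i := by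
      intro u i
      conv_lhs => rw [← hexp u]
      show Cfsg.hermForm 6 F 2 _ _ = _
      rw [Matrix.mulVec_sum]
      simp only [Matrix.mulVec_smul, hlam, smul_smul]
      rw [← Equiv.sum_comp σ.symm]
      simp only [Equiv.apply_symm_apply]
      rw [hcomb (fun l => X u (σ.symm l) * lam (σ.symm l)), Equiv.symm_apply_apply, mul_comm]
    intro u
    constructor <;> intro hgood
    · rcases hgood with ⟨i, j, hij, hi, hj, hl⟩ | ⟨hne, hp⟩
      · obtain ⟨i, rfl⟩ := σ.surjective i
        obtain ⟨j, rfl⟩ := σ.surjective j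
        rw [key] at hi hj
        exact Or.inl ⟨i, j, fun h => hij (by rw [h]), right_ne_zero_of_mul hi, right_ne_zero_of_mul hj,
          fun l h h' => by
            have := hl (σ l) (fun e => h (σ.injective e)) (fun e => h' (σ.injective e))
            rw [key] at this
            exact (mul_eq_zero.mp this).resolve_left (hlam0 l)⟩
      · refine Or.inr ⟨fun i => right_ne_zero_of_mul (key u i ▸ hne (σ i)), ?_⟩
        rw [← Equiv.prod_comp σ, Finset.prod_congr rfl fun i _ => key u i, Finset.prod_mul_distrib, hprod, one_mul] at hp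
        exact hp
    · rcases hgood with ⟨i, j, hij, hi, hj, hl⟩ | ⟨hne, hp⟩
      · refine Or.inl ⟨σ i, σ j, fun h => hij (σ.injective h), by rw [key]; exact mul_ne_zero (hlam0 i) hi,
          by rw [key]; exact mul_ne_zero (hlam0 j) hj, fun l h h' => ?_⟩
        obtain ⟨l, rfl⟩ := σ.surjective l
        rw [key, hl l (fun e => h (by rw [e])) (fun e => h' (by rw [e])), mul_zero]
      · refine Or.inr ⟨fun l => ?_, ?_⟩
        · obtain ⟨l, rfl⟩ := σ.surjective l
          rw [key]; exact mul_ne_zero (hlam0 l) (hne l)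
        · rw [← Equiv.prod_comp σ, Finset.prod_congr rfl fun i _ => key u i, Finset.prod_mul_distrib, hprod, hp, one_mul]
  -- transvections
  obtain ⟨ω, hω, hω0, hω1⟩ := exists_omega hF
  have hone : (1 : F) ^ 2 = -1 := by rw [one_pow]; linear_combination h2
  have hiso : ∀ S : Finset (Fin 6), Even S.card →
      Cfsg.hermForm 6 F 2 (∑ i ∈ S, v i) (∑ i ∈ S, v i) = 0 := by
    intro S hS
    rw [hf.sum_left, Finset.sum_congr rfl fun i hi => show Cfsg.hermForm 6 F 2 (v i) (∑ j ∈ S, v j) = 1 by
      rw [hf.sum_right hF, Finset.sum_eq_single i (fun j _ hj => hvo i j hj.symm) (fun h => absurd hi h), hvv],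
      Finset.sum_const, nsmul_one]
    obtain ⟨m, hm⟩ := hS
    rw [hm, Nat.cast_add]
    linear_combination (m : F) * h2
  have hX : ∀ (S : Finset (Fin 6)) (hS : Even S.card) u i,
      X ((uTau (hiso S hS) 1 : GL (Fin 6) F) *ᵥ u : Fin 6 → F) i = X u i + (if i ∈ S then ∑ l ∈ S, X u l else 0) := by
    intro S hS u i
    show Cfsg.hermForm 6 F 2 _ _ = _
    rw [(uTau_isTransvec (hiso S hS) 1).apply_eq, one_smul, hermDual_apply, hf.add_left, hf.smul_left, hf.sum_left,
      hf.sum_right hF]
    congr 1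
    rw [Finset.sum_congr rfl fun j _ => show Cfsg.hermForm 6 F 2 (v j) (v i) = if j = i then 1 else 0 by
      split
      · next h => rw [h, hvv]
      · next h => exact hvo j i h, Finset.sum_ite_eq', mul_ite, mul_one, mul_zero]
  have hτM : uTau (hiso Finset.univ ⟨3, rfl⟩) 1 ∈ M := by
    have hval : ∀ u, X ((uTau (hiso Finset.univ ⟨3, rfl⟩) 1 : GL (Fin 6) F) *ᵥ u : Fin 6 → F) =
        fun i => X u i + ∑ l, X u l := fun u => funext fun i => by rw [hX Finset.univ ⟨3, rfl⟩]; simp
    intro u
    rw [hval]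
    refine ⟨fun h => ?_, sixGood_shift hF⟩
    have := sixGood_shift hF h
    convert this using 2 with i
    rw [Finset.sum_add_distrib, Finset.sum_const, Finset.card_univ, Fintype.card_fin, nsmul_eq_mul]
    push_cast
    linear_combination -(4 * ∑ l, X u l) * h2
  rcases hmax.2 (M ⊓ suGL 6 F 2) (le_inf hle inf_le_right) inf_le_right with h | h
  · have hτ : uTau (hiso Finset.univ ⟨3, rfl⟩) 1 ∈ decompositionStabilizer D ⊓ suGL 6 F 2 :=
      h ▸ ⟨hτM, uTau_mem hF _ hone⟩
    obtain ⟨⟨σ, hσ⟩, -⟩ := hτ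
    obtain ⟨c, hc⟩ := hline _ _ (show (uTau (hiso Finset.univ ⟨3, rfl⟩) 1 : GL (Fin 6) F) *ᵥ v 0 ∈ D (σ 0) by
      rw [← hσ]; exact ⟨v 0, hvD 0, Matrix.toLin'_apply _ _⟩)
    obtain ⟨j, hj, hj0⟩ : ∃ j : Fin 6, j ≠ σ 0 ∧ j ≠ 0 := by
      generalize σ 0 = a; revert a; decide
    have h1 := hX Finset.univ ⟨3, rfl⟩ (v 0) j
    rw [hc] at h1
    have hXv : ∀ i l, X (v i) l = if i = l then 1 else 0 := fun i l => by
      show Cfsg.hermForm 6 F 2 _ _ = _
      split
      · next h => rw [h, hvv]
      · next h => exact hvo i l h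
    rw [show X (c • v (σ 0)) j = c * X (v (σ 0)) j from hf.smul_left _ _ _, hXv, if_neg hj.symm, mul_zero] at h1
    simp only [hXv, if_neg hj0.symm, Finset.mem_univ, if_true, Finset.sum_ite_eq, zero_add] at h1
    exact zero_ne_one h1
  · -- a transvection outside `M`
    have hS : Even ({0, 1, 2, 3} : Finset (Fin 6)).card := ⟨2, rfl⟩
    have hmem : uTau (hiso {0, 1, 2, 3} hS) 1 ∈ M := (h.symm ▸ uTau_mem hF _ hone : _ ∈ M ⊓ suGL 6 F 2).1
    let x₀ : Fin 6 → F := fun i => if i = 0 then 1 else if i = 1 then ω else 0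
    have hXu : X (∑ i, x₀ i • v i) = x₀ := funext (hcomb x₀)
    have hgood := (hmem (∑ i, x₀ i • v i)).mpr (by
      rw [hXu]; exact Or.inl ⟨0, 1, by decide, by simp [x₀], by simp [x₀, hω0], fun l a b => by simp [x₀, a, b]⟩)
    have hω' : (1 : F) + ω ≠ 0 := fun e => hω1 (by linear_combination e - h2)
    have hy : X ((uTau (hiso {0, 1, 2, 3} hS) 1 : GL (Fin 6) F) *ᵥ (∑ i, x₀ i • v i) : Fin 6 → F) =
        ![1 + (1 + ω), ω + (1 + ω), 1 + ω, 1 + ω, 0, 0] := by
      funext i
      rw [hX _ hS, hXu]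
      fin_cases i <;> simp [x₀]
    rw [hy] at hgood
    rcases hgood with ⟨i, j, hij, -, -, hl⟩ | ⟨hne, -⟩
    · have h3 : ∀ l : Fin 6, l.val < 4 → (![1 + (1 + ω), ω + (1 + ω), 1 + ω, 1 + ω, 0, 0] : Fin 6 → F) l ≠ 0 := by
        intro l hl4
        fin_cases l <;> simp at hl4 ⊢
        · exact fun e => hω0 (by linear_combination e - h2)
        · exact fun e => one_ne_zero (by linear_combination e - ω * h2)
        · exact hω'
        · exact hω'
      have hcomb4 : ∀ a b : Fin 6, ∃ l : Fin 6, l.val < 4 ∧ l ≠ a ∧ l ≠ b := by decide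
      obtain ⟨l, hl4, hli', hlj⟩ := hcomb4 i j
      exact h3 l hl4 (hl l hli' hlj)
    · exact hne 4 (by simp)

end FrameSix

end Cfsg.Agent.ClassicalMax
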