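import Cfsg.Agent.ClassicalMax.UnitaryCases
import Cfsg.Agent.ClassicalMax.UnitaryExceptions
import Cfsg.Agent.ClassicalMax.FieldExceptionSix

/-!
Maximal subgroups of `SU_6`, given the dichotomy.
-/

set_option autoImplicit false
set_option linter.style.haveILetI false

namespace Cfsg.Agent.ClassicalMax

open Matrix Cfsg.Geo
open Cfsg.Agent.Classical.U (SqField sqField_of_fintype)
open scoped MatrixGroups Matrix

variable {F : Type*} [Field F] [Fintype F] {q : ℕ}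

/-- `SU_6`. -/
theorem su6_cases (hc : Fintype.card F = q ^ 2) (hdich : UnitaryDichotomy 6 F q)
    {H : Subgroup (GL (Fin 6) F)} (hH : IsMaximalIn (suGL 6 F q) H) :
    (∃ W : Submodule F (Fin 6 → F), W ≠ ⊥ ∧ IsTotallySingularFor (Cfsg.hermForm 6 F q) W ∧
      H = subspaceStabilizer W ⊓ suGL 6 F q) ∨
    (∃ W : Submodule F (Fin 6 → F), W ≠ ⊥ ∧ IsNondegenerateOn (Cfsg.hermForm 6 F q) W ∧
      2 * Module.finrank F W < 6 ∧ H = subspaceStabilizer W ⊓ suGL 6 F q) ∨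
    (3 ≤ q ∧ ∃ D : Fin 6 → Submodule F (Fin 6 → F), IsNondegenerateMDecomposition (Cfsg.hermForm 6 F q) 1 D ∧
      H = decompositionStabilizer D ⊓ suGL 6 F q) ∨
    (3 ≤ q ∧ ∃ D : Fin 3 → Submodule F (Fin 6 → F), IsNondegenerateMDecomposition (Cfsg.hermForm 6 F q) 2 D ∧
      H = decompositionStabilizer D ⊓ suGL 6 F q) ∨
    (∃ D : Fin 2 → Submodule F (Fin 6 → F), IsNondegenerateMDecomposition (Cfsg.hermForm 6 F q) 3 D ∧
      H = decompositionStabilizer D ⊓ suGL 6 F q) ∨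
    (∃ D : Fin 2 → Submodule F (Fin 6 → F), IsMDecomposition 3 D ∧
      (∀ i, IsTotallySingularFor (Cfsg.hermForm 6 F q) (D i)) ∧ H = decompositionStabilizer D ⊓ suGL 6 F q) ∨
    (3 ≤ q ∧ ∃ K : Subalgebra F (Matrix (Fin 6) (Fin 6) F), IsFieldSubalgebra 3 K ∧
      IsAdjointClosedFor (Cfsg.hermForm 6 F q) K ∧ H = subalgebraNormalizer K ⊓ suGL 6 F q) ∨
    (3 ≤ q ∧ ∃ (e : Fin 6 ≃ Fin 2 × Fin 3) (P : GL (Fin 6) F) (f₁ : (Fin 2 → F) → (Fin 2 → F) → F)
      (f₂ : (Fin 3 → F) → (Fin 3 → F) → F), IsUnitaryFormPow q f₁ ∧ IsUnitaryFormPow q f₂ ∧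
      IsTensorFormStructure (fun x : F => x ^ q) (Cfsg.hermForm 6 F q) f₁ f₂ e P ∧
      H = tensorProductSubgroup 2 3 e P ⊓ suGL 6 F q) ∨
    (∃ (F₀ : Subfield F) (r : ℕ) (P : GL (Fin 6) F), r.Prime ∧ Odd r ∧ Fintype.card F = Nat.card F₀ ^ r ∧
      IsFormRationalStructure (Cfsg.hermForm 6 F q) F₀ 1 P ∧ H = subfieldSubgroup F₀ P ⊓ suGL 6 F q) ∨
    (∃ (F₀ : Subfield F) (P : GL (Fin 6) F) (ζ : F), Fintype.card F = Nat.card F₀ ^ 2 ∧ ζ ≠ 0 ∧
      ζ + ζ ^ q = 0 ∧ IsFormRationalStructure (Cfsg.hermForm 6 F q) F₀ ζ P ∧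
      (∀ u : Fin 6 → F, (∀ i, u i ∈ F₀) →
        Cfsg.hermForm 6 F q ((P : Matrix (Fin 6) (Fin 6) F) *ᵥ u) ((P : Matrix (Fin 6) (Fin 6) F) *ᵥ u) = 0) ∧
      H = subfieldSubgroup F₀ P ⊓ suGL 6 F q) ∨
    (Odd q ∧ ∃ (F₀ : Subfield F) (P : GL (Fin 6) F), Fintype.card F = Nat.card F₀ ^ 2 ∧
      IsFormRationalStructure (Cfsg.hermForm 6 F q) F₀ 1 P ∧ H = subfieldSubgroup F₀ P ⊓ suGL 6 F q) ∨
    InUnitaryResidualClass H := by
  have hF : SqField F q := sqField_of_fintype hc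
  have hq := hF.one_lt
  have hperf := suGL_commutator hF (n := 6) (by norm_num) (by norm_num)
  rcases su_maximal_cases (by norm_num) (by norm_num) (by norm_num) hc hdich hH with h | h |
    ⟨t, k, D, hD, htk, ht, hk, he⟩ | ⟨k, D, hk, hD, hts, he⟩ | h | h | ⟨F₀, P, ζ, -, h⟩ |
    ⟨r, R, ⟨hR, -, -, p, j, k, -, -, -, -, hdeg, hk, -⟩, -, -⟩ | ⟨r, K, hr, hodd, hrn, hK, hac, he⟩ |
    ⟨n₁, n₂, e, P, f₁, f₂, h1, h2, hnn, hf₁, hf₂, hs, he⟩ | hres
  · exact Or.inl h
  · exact Or.inr (Or.inl h)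
  · obtain ⟨rfl, rfl⟩ | ⟨rfl, rfl⟩ | ⟨rfl, rfl⟩ : (t = 6 ∧ k = 1) ∨ (t = 3 ∧ k = 2) ∨ (t = 2 ∧ k = 3) := by
      have : t ≤ 6 := by nlinarith
      interval_cases t <;> omega
    · by_cases hq3 : 3 ≤ q
      · iterate 2 right
        exact Or.inl ⟨hq3, D, hD, he⟩
      · obtain rfl : q = 2 := by omega
        exact absurd (he ▸ hH) (frame_not_maximal_six hF hD)
    · by_cases hq3 : 3 ≤ q
      · iterate 3 right
        exact Or.inl ⟨hq3, D, hD, he⟩
      · obtain rfl : q = 2 := by omega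
        obtain ⟨E, hE, hle⟩ := planes_le_frame hF hD
        have hE' : H = decompositionStabilizer E ⊓ suGL 6 F 2 := eq_inf_max hH
          (he.le.trans ((le_inf inf_le_left (inf_le_right.trans inf_le_left)).trans hle))
          (suGL_not_le_frameStabilizer hF (by norm_num) (by norm_num) hE rfl)
        exact absurd (hE' ▸ hH) (frame_not_maximal_six hF hE)
    · iterate 4 right
      exact Or.inl ⟨D, hD, he⟩
  · obtain rfl : k = 3 := by omega
    iterate 5 right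
    exact Or.inl ⟨D, hD, hts, he⟩
  · iterate 8 right
    exact Or.inl h
  · iterate 10 right
    exact Or.inl h
  · iterate 9 right
    exact Or.inl ⟨F₀, P, ζ, h⟩
  · exfalso
    have hr2 := hR.prime.two_le
    have hr6 : r ∣ 6 := hdeg ▸ dvd_pow_self r (by omega)
    have := Nat.le_of_dvd (by norm_num) hr6
    have hk3 : k ≤ 3 := by
      by_contra hc
      have := Nat.pow_le_pow_left hr2 k
      have := Nat.pow_le_pow_right (show 2 > 0 by norm_num) (show 4 ≤ k by omega)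
      omega
    interval_cases r <;> interval_cases k <;> first | (norm_num at hdeg; done) | (exact absurd hR.prime (by norm_num))
  · obtain rfl : r = 3 := by
      have h6 := Nat.le_of_dvd (by norm_num) hrn
      have := hr.two_le
      interval_cases r <;> first | rfl | omega | (exfalso; revert hodd hrn; decide)
    by_cases hq3 : 3 ≤ q
    · iterate 6 right
      exact Or.inl ⟨hq3, K, hK, hac, he⟩
    · obtain rfl : q = 2 := by omega
      obtain ⟨F₀, P, ζ, hcard, hζ, hζq, hrat, hiso, hle⟩ := fieldNormalizer_le_subfield_six hF hK hac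
      rw [Nat.card_eq_fintype_card] at hcard
      iterate 9 right
      exact Or.inl ⟨F₀, P, ζ, hcard, hζ, hζq, hrat, hiso, eq_inf_max hH (he.le.trans hle)
        (suGL_not_le_subfieldSubgroup hF (by norm_num) hperf (MaxSub.subfield_ne_top Nat.prime_two hcard) P)⟩
  · obtain rfl : n₁ = 2 := by nlinarith
    obtain rfl : n₂ = 3 := by omega
    by_cases hq3 : 3 ≤ q
    · iterate 7 right
      exact Or.inl ⟨hq3, e, P, f₁, f₂, hf₁, hf₂, hs, he⟩
    · obtain rfl : q = 2 := by omega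
      obtain ⟨D, hD, hle⟩ := tensor_le_decomposition_of_four hF (by norm_num) e P hf₁ hf₂ hs
      iterate 4 right
      exact Or.inl ⟨D, hD, eq_inf_max hH (he.le.trans ((le_inf inf_le_left (inf_le_right.trans inf_le_left)).trans hle))
        (suGL_not_le_decompositionStabilizer hF hD.decomp (by norm_num))⟩
  · iterate 11 right
    exact hres

end Cfsg.Agent.ClassicalMax
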