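import Cfsg.Agent.ClassicalMax.UnitaryCases
import Cfsg.Agent.ClassicalMax.FieldExceptionFive

/-!
The maximal subgroups of `SU_5(q)`, given the unitary dichotomy.
-/

set_option autoImplicit false
set_option linter.style.haveILetI false

namespace Cfsg.Agent.ClassicalMax

open Matrix Cfsg.Geo
open Cfsg.Agent.Classical.U (SqField sqField_of_fintype)
open scoped MatrixGroups Matrix

variable {F : Type*} [Field F] {q : ℕ}

/-- The maximal subgroups of `SU_5(q)`. -/
theorem su5_cases [Fintype F] (hc : Fintype.card F = q ^ 2) (hdich : UnitaryDichotomy 5 F q)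
    {H : Subgroup (GL (Fin 5) F)} (hH : IsMaximalIn (suGL 5 F q) H) :
    (∃ W : Submodule F (Fin 5 → F), W ≠ ⊥ ∧ IsTotallySingularFor (Cfsg.hermForm 5 F q) W ∧
      H = subspaceStabilizer W ⊓ suGL 5 F q) ∨
    (∃ W : Submodule F (Fin 5 → F), W ≠ ⊥ ∧ IsNondegenerateOn (Cfsg.hermForm 5 F q) W ∧
      2 * Module.finrank F W < 5 ∧ H = subspaceStabilizer W ⊓ suGL 5 F q) ∨
    (∃ D : Fin 5 → Submodule F (Fin 5 → F), IsNondegenerateMDecomposition (Cfsg.hermForm 5 F q) 1 D ∧
      H = decompositionStabilizer D ⊓ suGL 5 F q) ∨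
    (3 ≤ q ∧ ∃ K : Subalgebra F (Matrix (Fin 5) (Fin 5) F), IsFieldSubalgebra 5 K ∧
      IsAdjointClosedFor (Cfsg.hermForm 5 F q) K ∧ H = subalgebraNormalizer K ⊓ suGL 5 F q) ∨
    (∃ (F₀ : Subfield F) (r : ℕ) (P : GL (Fin 5) F), r.Prime ∧ Odd r ∧ Fintype.card F = Nat.card F₀ ^ r ∧
      IsFormRationalStructure (Cfsg.hermForm 5 F q) F₀ 1 P ∧ H = subfieldSubgroup F₀ P ⊓ suGL 5 F q) ∨
    (Odd q ∧ ∃ (F₀ : Subfield F) (P : GL (Fin 5) F), Fintype.card F = Nat.card F₀ ^ 2 ∧
      IsFormRationalStructure (Cfsg.hermForm 5 F q) F₀ 1 P ∧ H = subfieldSubgroup F₀ P ⊓ suGL 5 F q) ∨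
    (∃ (p : ℕ) (R : Subgroup (GL (Fin 5) F)), p.Prime ∧ CharP F p ∧
      ((q = p ∧ p % 5 = 4) ∨ (q = p ^ 2 ∧ (p % 5 = 2 ∨ p % 5 = 3))) ∧ IsSymplecticTypeGroup 5 R ∧
      ActsAbsolutelyIrreducibly (matrixSet R) ∧ R ≤ similarityGroup (Cfsg.hermForm 5 F q) ∧ Nat.card R = 125 ∧
      Nat.card (Subgroup.center R) = 5 ∧ H = subgroupNormalizer R ⊓ suGL 5 F q) ∨
    InUnitaryResidualClass H := by
  have h5 : Nat.Prime 5 := by norm_num
  rcases su_maximal_cases (n := 5) (by norm_num) (by norm_num) (by norm_num) hc hdich hH with h | h |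
    ⟨t, k, D, hD, htk, ht, hk, he⟩ | ⟨k, D, hk, -⟩ | h | h | ⟨F₀, P, ζ, hev, -⟩ |
    ⟨r, R, ⟨hR, hirr, hsim, p, j, k, hp, hch, hq, hj, hdeg, hk, hcase⟩, -, heq⟩ | ⟨r, K, hr, -, hrn, hK, hac, he⟩ |
    ⟨n₁, n₂, e, P, f₁, f₂, h1, h2, hnn, -⟩ | hres
  · exact Or.inl h
  · exact Or.inr (Or.inl h)
  · iterate 2 right
    obtain rfl : k = 1 := by
      have : k ∣ 5 := ⟨t, by rw [← htk, mul_comm]⟩
      rcases (Nat.dvd_prime h5).mp this with h | h <;> [exact h; (subst h; omega)]
    obtain rfl : t = 5 := by omega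
    exact Or.inl ⟨D, hD, he⟩
  · omega
  · iterate 4 right
    exact Or.inl h
  · iterate 5 right
    exact Or.inl h
  · exact absurd hev (by decide)
  · iterate 6 right
    obtain rfl : r = 5 := (Nat.prime_dvd_prime_iff_eq hR.prime h5).mp (hdeg ▸ dvd_pow_self r (by omega))
    obtain rfl : k = 1 := Nat.pow_right_injective (show 2 ≤ 5 by norm_num) (by simpa using hdeg.symm)
    rcases hcase with ⟨-, hZ, hR', hdvd, h1, hmin⟩ | ⟨h, -⟩
    · have hlt := Nat.mod_lt p (show 5 > 0 by norm_num)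
      have hp2 := hp.two_le
      have hcast : (p : ZMod 5) = ((p % 5 : ℕ) : ZMod 5) := (ZMod.natCast_mod p 5).symm
      rw [hcast] at h1
      have hj' : j = 1 ∨ j = 2 := by
        have := Nat.le_of_dvd (by norm_num) hdvd
        have : j ≤ 2 := by omega
        interval_cases j <;> omega
      have hqp : (q = p ∧ p % 5 = 4) ∨ (q = p ^ 2 ∧ (p % 5 = 2 ∨ p % 5 = 3)) := by
        rcases hj' with rfl | rfl
        · have h2 := hmin 1 one_pos (by norm_num)
          rw [pow_one, hcast] at h2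
          refine Or.inl ⟨by simpa using hq, ?_⟩
          generalize p % 5 = a at h1 h2 hlt ⊢
          interval_cases a <;> first | rfl | (exfalso; revert h1 h2; decide)
        · have h2 := hmin 2 (by norm_num) (by norm_num)
          rw [hcast] at h2
          refine Or.inr ⟨hq, ?_⟩
          generalize p % 5 = a at h1 h2 hlt ⊢
          interval_cases a <;> first | omega | (exfalso; revert h1 h2; decide)
      refine Or.inl ⟨p, R, hp, hch, hqp, hR, hirr, hsim, by rw [hR']; norm_num, hZ, heq ?_⟩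
      rcases hqp with ⟨rfl, h⟩ | ⟨rfl, -⟩
      · omega
      · have := Nat.pow_le_pow_left hp2 2
        omega
    · omega
  · iterate 3 right
    obtain rfl := (Nat.prime_dvd_prime_iff_eq hr h5).mp hrn
    refine Or.inl ⟨?_, K, hK, hac, he⟩
    by_contra hq3
    have hF := sqField_of_fintype hc
    obtain rfl : q = 2 := by have := hF.one_lt; omega
    exact fieldNormalizer_not_maximal_five hF hK hac hH he
  · exfalso
    have : n₁ = 2 := by nlinarith
    subst this
    omega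
  · iterate 7 right
    exact hres

end Cfsg.Agent.ClassicalMax
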