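import Cfsg.Agent.ClassicalMax.MonomialFive
import Cfsg.Agent.ClassicalMax.UnitaryExceptions
import Cfsg.Agent.ClassicalMax.SymplecticTypeConj
import Cfsg.Agent.MaxSub.Proper

/-!
In `SU_4(3)` the stabiliser of an orthogonal frame lies in the normaliser of a group of symplectic type
of order 64.
-/

set_option autoImplicit false
set_option linter.style.haveILetI false

namespace Cfsg.Agent.ClassicalMax

open Matrix Cfsg.Geo Module MonomialFive
open Cfsg.Agent.Classical.U (SqField sqField_of_fintype)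
open scoped MatrixGroups Matrix

namespace MonomialFour

variable {F : Type*} [Field F]

lemma det_dZ_tZ : ∀ l k, (dZ l * tZ k).det = 1 := by decide +kernel

lemma det_el (l k : Fin 4) : (el F l k).det = 1 := by
  have h : (Int.castRingHom F) (dZ l * tZ k).det = 1 := by rw [det_dZ_tZ, map_one]
  rwa [RingHom.map_det] at h

variable (F) in
/-- The symplectic-type group of scalar order four. -/
def R₁ : Subgroup (GL (Fin 4) F) := R₀ F ⊓ specialLinear (Fin 4) F

lemma det_smul_el (u : Fˣ) (l k : Fin 4) : ((u : F) • el F l k).det = (u : F) ^ 4 := by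
  rw [Matrix.det_smul, Fintype.card_fin, det_el, mul_one]

lemma mem_R₁ {u : Fˣ} (hu : u ^ 4 = 1) (l k : Fin 4) : mkEl u l k ∈ R₁ F := by
  refine ⟨MonomialFive.mkEl_mem _ _ _, ?_⟩
  show mkEl u l k ∈ specialLinear (Fin 4) F
  rw [GeoClasses.mem_specialLinear_iff]
  show ((u : F) • el F l k).det = 1
  rw [det_smul_el, ← Units.val_pow_eq_pow_val, hu, Units.val_one]

lemma exists_form (x : R₁ F) : ∃ (u : Fˣ) (l k : Fin 4),
    ((x : GL (Fin 4) F) : Matrix (Fin 4) (Fin 4) F) = (u : F) • el F l k ∧ u ^ 4 = 1 := by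
  obtain ⟨u, l, k, hx⟩ := x.2.1
  have hd := GeoClasses.mem_specialLinear_iff.mp x.2.2
  rw [hx, det_smul_el] at hd
  exact ⟨u, l, k, hx, Units.ext (by rw [Units.val_pow_eq_pow_val, hd, Units.val_one])⟩

variable (F) in
/-- The scalars of `R₁`. -/
def toR₁ : rootsOfUnity 4 F →* R₁ F where
  toFun u := ⟨mkEl (u : Fˣ) 0 0, mem_R₁ ((mem_rootsOfUnity 4 (u : Fˣ)).mp u.2) _ _⟩
  map_one' := Subtype.ext (Units.ext (by simp [mkEl, el_zero]))
  map_mul' a b := Subtype.ext (Units.ext (by simp [mkEl, el_zero, smul_smul, mul_comm]))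

lemma map_R₁ [Fintype F] {g : GL (Fin 4) F} (h : (R₀ F).map (MulAut.conj g).toMonoidHom = R₀ F) :
    (R₁ F).map (MulAut.conj g).toMonoidHom = R₁ F := by
  rw [R₁, Subgroup.map_inf _ _ _ (MulAut.conj g).injective, h]
  congr 1
  haveI := MaxSub.specialLinear_normal (ι := Fin 4) (F := F)
  ext x
  constructor
  · rintro ⟨y, hy, rfl⟩
    exact Subgroup.Normal.conj_mem inferInstance y hy g
  · intro hx
    refine ⟨g⁻¹ * x * g, ?_, by simp [mul_assoc]⟩
    have := Subgroup.Normal.conj_mem inferInstance x hx g⁻¹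
    rwa [inv_inv] at this

variable [Fintype F] {z : Fˣ}

lemma pow_four_z (hz : z ^ 4 = 1) (a : ℕ) : (z ^ a) ^ 4 = 1 := by
  rw [← pow_mul, mul_comm, pow_mul, hz, one_pow]

/-- The data of the group. -/
theorem data [NeZero (2 : F)] (hz : z ^ 4 = 1) (hz2 : (z : F) ^ 2 = -1)
    (hlog : ∀ u : Fˣ, u ^ 4 = 1 → ∃ e : Fin 4, u = z ^ (e : ℕ)) :
    IsSymplecticTypeGroup 2 (R₁ F) ∧ ActsAbsolutelyIrreducibly (matrixSet (R₁ F)) ∧
      Nat.card (R₁ F) = 64 ∧ Nat.card (Subgroup.center (R₁ F)) = 4 := by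
  classical
  have h4 : (4 : F) ≠ 0 := by
    rw [show (4 : F) = 2 * 2 by norm_num]
    exact mul_ne_zero (NeZero.ne 2) (NeZero.ne 2)
  have h11 : (1 : F) ≠ -1 := fun h => NeZero.ne (2 : F) (by linear_combination h)
  have hzo : orderOf z = 4 := by
    refine (orderOf_eq_iff (by norm_num)).mpr ⟨hz, fun m hm h0 h => ?_⟩
    have h2 : z ^ 2 = 1 := by
      interval_cases m
      · rw [pow_one] at h; rw [h, one_pow]
      · exact h
      · have : z = 1 := by rw [← hz, pow_succ, h, one_mul]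
        rw [this, one_pow]
    have := congrArg (fun u : Fˣ => (u : F)) h2
    simp only [Units.val_pow_eq_pow_val, hz2, Units.val_one] at this
    exact h11 this.symm
  let par : Fin 4 × Fin 4 × Fin 4 → R₁ F := fun q =>
    ⟨mkEl (z ^ (q.1 : ℕ)) q.2.1 q.2.2, mem_R₁ (pow_four_z hz _) _ _⟩
  have hzinj : ∀ a b : Fin 4, z ^ (a : ℕ) = z ^ (b : ℕ) → a = b := fun a b h => Fin.ext
    (pow_injOn_Iio_orderOf (by simpa [hzo] using a.isLt) (by simpa [hzo] using b.isLt) h)
  have hpar : Function.Bijective par := by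
    refine ⟨fun q q' h => ?_, fun x => ?_⟩
    · obtain ⟨h1, h2, h3⟩ := param_inj (congrArg (fun x : R₁ F => ((x : GL (Fin 4) F) : Matrix (Fin 4) (Fin 4) F)) h)
      exact Prod.ext (hzinj _ _ h1) (Prod.ext h2 h3)
    · obtain ⟨u, l, k, hx, hu⟩ := exists_form x
      obtain ⟨e, rfl⟩ := hlog u hu
      exact ⟨(e, l, k), Subtype.ext (Units.ext hx.symm)⟩
  have hcard : Nat.card (R₁ F) = 64 := by
    rw [← Nat.card_congr (Equiv.ofBijective par hpar)]
    simp
  have hcenter : ∀ x : R₁ F, x ∈ Subgroup.center (R₁ F) ↔ ∃ u, x = toR₁ F u := by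
    intro x
    obtain ⟨u, l, k, hx, hu⟩ := exists_form x
    constructor
    · intro h
      have hcomm : ∀ m j, el F l k * el F m j = el F m j * el F l k := by
        intro m j
        have h' := congrArg (fun y : R₁ F => ((y : GL (Fin 4) F) : Matrix (Fin 4) (Fin 4) F))
          (Subgroup.mem_center_iff.mp h ⟨mkEl 1 m j, mem_R₁ (one_pow 4) _ _⟩)
        simp only [Subgroup.coe_mul, Units.val_mul, hx, mkEl, Units.val_one, one_smul, mul_smul_comm,
          smul_mul_assoc] at h'
        exact (smul_right_injective _ u.ne_zero h').symm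
      obtain ⟨rfl, rfl⟩ := eq_zero_of_commute (u := u) hcomm rfl
      exact ⟨⟨u, (mem_rootsOfUnity 4 u).mpr hu⟩, Subtype.ext (Units.ext hx)⟩
    · rintro ⟨v, rfl⟩
      rw [Subgroup.mem_center_iff]
      intro y
      refine Subtype.ext (Units.ext ?_)
      simp [toR₁, mkEl, el_zero]
  have hcard_center : Nat.card (Subgroup.center (R₁ F)) = 4 := by
    let φ : Fin 4 → Subgroup.center (R₁ F) := fun e =>
      ⟨toR₁ F ⟨z ^ (e : ℕ), (mem_rootsOfUnity 4 _).mpr (pow_four_z hz _)⟩, (hcenter _).mpr ⟨_, rfl⟩⟩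
    have hφ : Function.Bijective φ := by
      refine ⟨fun a b h => hzinj a b (param_inj (congrArg
        (fun y : Subgroup.center (R₁ F) => (((y : R₁ F) : GL (Fin 4) F) : Matrix (Fin 4) (Fin 4) F)) h)).1, fun x => ?_⟩
      obtain ⟨⟨u, hu⟩, hx⟩ := (hcenter _).mp x.2
      obtain ⟨e, rfl⟩ := hlog u ((mem_rootsOfUnity 4 u).mp hu)
      exact ⟨e, Subtype.ext hx.symm⟩
    rw [← Nat.card_congr (Equiv.ofBijective φ hφ), Nat.card_fin]
  refine ⟨⟨Nat.prime_two, IsPGroup.of_card (n := 6) (by rw [hcard]; norm_num), ?_, ?_⟩, ⟨?_, ?_⟩, hcard, hcard_center⟩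
  · intro A hA hAc
    haveI := hAc
    suffices hle : A ≤ Subgroup.center (R₁ F) by
      haveI : IsCyclic (Subgroup.center (R₁ F)) :=
        isCyclic_of_surjective ((toR₁ F).codRestrict _ fun u => (hcenter _).mpr ⟨u, rfl⟩) fun x => by
          obtain ⟨u, hu⟩ := (hcenter _).mp x.2
          exact ⟨u, Subtype.ext hu.symm⟩
      exact Subgroup.isCyclic_of_le hle
    intro x hxA
    obtain ⟨u, l, k, hx, hu4⟩ := exists_form x
    by_contra hnc
    -- an element of A moving the frame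
    obtain ⟨y, hyA, v, m, j, hy, hj⟩ : ∃ y ∈ A, ∃ (v : Fˣ) (m j : Fin 4),
        ((y : GL (Fin 4) F) : Matrix (Fin 4) (Fin 4) F) = (v : F) • el F m j ∧ j ≠ 0 := by
      by_cases hk : k = 0
      · subst hk
        have hl : l ≠ 0 := by
          rintro rfl
          exact hnc ((hcenter x).mpr ⟨⟨u, (mem_rootsOfUnity 4 u).mpr hu4⟩, Subtype.ext (Units.ext hx)⟩)
        have hn : (R₁ F).map (MulAut.conj (hGL h4)).toMonoidHom = R₁ F := map_R₁ <| normalizer_of_forall fun a b =>
          ⟨Units.mk0 (chi b a : F) (fun h0 => by simpa [h0] using chi_sq (F := F) b a), b, a, h_mul_el a b⟩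
        refine ⟨autOf hn x, ?_, u * Units.mk0 (chi 0 l : F) (fun h0 => by simpa [h0] using chi_sq (F := F) 0 l), 0, l, ?_, hl⟩
        · exact (SetLike.ext_iff.mp (hA.fixed (autOf hn)) x).mpr hxA
        · rw [autOf_apply, Units.val_mul, Units.val_mul, hx, mul_smul_comm]
          change ((u : F) • (toF F hZ * el F l 0)) * _ = _
          rw [h_mul_el, smul_mul_assoc, mul_assoc]
          change (u : F) • (((chi 0 l : F) • el F 0 l) * ((hGL h4 : Matrix (Fin 4) (Fin 4) F) * ((hGL h4)⁻¹ : GL (Fin 4) F))) = _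
          rw [Units.mul_inv, mul_one, smul_smul]
          rfl
      · exact ⟨x, hxA, u, l, k, hx, hk⟩
    obtain ⟨e, he, hbad⟩ := diag_exponent_exists j hj
    have hn : (R₁ F).map (MulAut.conj (dg z e)).toMonoidHom = R₁ F := map_R₁ <| normalizer_of_forall fun a b => by
      obtain ⟨w, c, hc⟩ := diag_exponent e he b
      exact ⟨z ^ (w : ℕ), tr c a, b, dg_mul_el hz hz2 hc a⟩
    obtain ⟨w, c, hc⟩ := diag_exponent e he j
    have hc1 := hbad w c hc
    have hy' : autOf hn y ∈ A := by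
      exact (SetLike.ext_iff.mp (hA.fixed (autOf hn)) y).mpr hyA
    have hval : ((autOf hn y : GL (Fin 4) F) : Matrix (Fin 4) (Fin 4) F) =
        ((v : F) * ((z ^ (w : ℕ) : Fˣ) : F)) • el F (tr c m) j := by
      rw [autOf_apply, Units.val_mul, Units.val_mul, hy, mul_smul_comm, dg_mul_el hz hz2 hc,
        smul_mul_assoc, mul_assoc, Units.mul_inv, mul_one, smul_smul]
    have hcomm := congrArg (fun g : A => (((g : R₁ F) : GL (Fin 4) F) : Matrix (Fin 4) (Fin 4) F))
      (mul_comm' (⟨y, hyA⟩ : A) ⟨autOf hn y, hy'⟩)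
    simp only [Subgroup.coe_mul, Units.val_mul, hy, hval, smul_mul_smul_comm, el_mul, tr_self, smul_smul] at hcomm
    have hc2 : ∀ a b : Fin 4, tr a b = tr b a := by decide
    have hc3 : ∀ a b i : Fin 4, chi (tr a b) i = chi a i * chi b i := by decide
    rw [hc2 m (tr c m), hc3 c m j, Int.cast_mul] at hcomm
    have h0 := congrFun (congrFun hcomm 0) 0
    rw [Matrix.smul_apply, Matrix.smul_apply, el_apply, tr_zero_right, if_pos rfl, chi_eq (tr (tr c m) m), bit_zero_right,
      if_pos rfl, smul_eq_mul, smul_eq_mul, mul_one, mul_one] at h0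
    have hcj : (chi c j : F) = -1 := by rw [chi_eq, hc1]; simp
    rw [hcj] at h0
    have hne : (v : F) * (v : F) * ((z ^ (w : ℕ) : Fˣ) : F) * (chi m j : F) * 2 = 0 := by linear_combination -h0
    have : (chi m j : F) ≠ 0 := fun h0 => by simpa [h0] using chi_sq (F := F) m j
    simp [NeZero.ne (2 : F), this] at hne
  · refine Nat.dvd_antisymm ?_ ?_
    · show _ ∣ 4
      rw [Monoid.exponent_dvd_iff_forall_pow_eq_one]
      intro x
      obtain ⟨u, l, k, hx, hu⟩ := exists_form x
      refine Subtype.ext (Units.ext ?_)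
      simp only [SubmonoidClass.coe_pow, Units.val_pow_eq_pow_val, hx, smul_pow, OneMemClass.coe_one, Units.val_one]
      rw [show el F l k ^ 4 = (el F l k * el F l k) * (el F l k * el F l k) by simp [pow_succ, mul_assoc],
        el_mul, tr_self, tr_self, el_zero, smul_mul_smul_comm, chi_sq, one_mul, one_smul,
        ← Units.val_pow_eq_pow_val, hu, Units.val_one, one_smul]
    · have hinj : Function.Injective (toR₁ F) := fun a b h =>
        Subtype.ext (param_inj (congrArg (fun y : R₁ F => ((y : GL (Fin 4) F) : Matrix (Fin 4) (Fin 4) F)) h)).1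
      have h := Monoid.order_dvd_exponent (toR₁ F ⟨z, (mem_rootsOfUnity 4 z).mpr hz⟩)
      rwa [orderOf_injective _ hinj, ← Subgroup.orderOf_coe, hzo] at h
  · -- irreducible
    intro W hW
    have hel : ∀ l k, ∀ v ∈ W, el F l k *ᵥ v ∈ W := by
      intro l k v hv
      refine hW (el F l k) ⟨mkEl 1 l k, mem_R₁ (one_pow 4) _ _, ?_⟩ ⟨v, hv, Matrix.toLin'_apply _ _⟩
      simp [mkEl]
    have hproj : ∀ v ∈ W, ∀ i, Pi.single i ((4 : F) * v i) ∈ W := by
      intro v hv i
      have hmem : ∑ l, (chi l i : F) • (el F l 0 *ᵥ v) ∈ W :=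
        Submodule.sum_mem _ fun l _ => W.smul_mem _ (hel l 0 v hv)
      convert hmem using 1
      funext j
      have htr : ∀ a : Fin 4, tr 0 a = a := by decide
      simp only [Finset.sum_apply, Pi.smul_apply, smul_eq_mul, Matrix.mulVec, dotProduct, el_apply, htr,
        ite_mul, zero_mul, Finset.sum_ite_eq, Finset.mem_univ, if_true, ← mul_assoc, ← Finset.sum_mul]
      have h := congrArg (fun t : ℤ => (t : F)) (chi_sum i j)
      push_cast at h
      rw [h]
      rcases eq_or_ne i j with rfl | hne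
      · simp
      · simp [hne, hne.symm]
    by_cases hbot : W = ⊥
    · exact Or.inl hbot
    obtain ⟨v, hv, hv0⟩ := Submodule.exists_mem_ne_zero_of_ne_bot hbot
    obtain ⟨i, hi⟩ := Function.ne_iff.mp hv0
    have hei : Pi.single i (1 : F) ∈ W := by
      have := W.smul_mem ((4 : F) * v i)⁻¹ (hproj v hv i)
      rwa [← Pi.single_smul', smul_eq_mul, inv_mul_cancel₀ (mul_ne_zero h4 hi)] at this
    refine Or.inr (eq_top_iff.mpr ?_)
    rw [← (Pi.basisFun F (Fin 4)).span_eq, Submodule.span_le]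
    rintro _ ⟨j, rfl⟩
    have htr : ∀ i j : Fin 4, ∃ k, tr k i = j := by decide
    obtain ⟨k, hk⟩ := htr i j
    have := hel 0 k _ hei
    show (Pi.basisFun F (Fin 4)) j ∈ W
    suffices heq : (Pi.basisFun F (Fin 4)) j = el F 0 k *ᵥ Pi.single i 1 by rw [heq]; exact this
    funext a
    rw [Pi.basisFun_apply, Matrix.mulVec_single_one, Matrix.col_apply, el_apply, hk, chi_eq]
    have hb : ∀ a, bit 0 a = 0 := by decide
    simp [Pi.single_apply, hb]
  · -- commutant
    intro M hM
    have hcomm : ∀ l k, M * el F l k = el F l k * M := fun l k => by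
      simpa [mkEl] using hM _ ⟨mkEl 1 l k, mem_R₁ (one_pow 4) _ _, rfl⟩
    have hoff : ∀ i j, i ≠ j → M i j = 0 := by
      intro i j hij
      obtain ⟨l, hl⟩ : ∃ l, bit l i ≠ bit l j := by
        revert i j; decide
      have h := congrFun (congrFun (hcomm l 0) i) j
      have htr : ∀ a : Fin 4, tr 0 a = a := by decide
      simp only [Matrix.mul_apply, el_apply, htr, mul_ite, ite_mul, mul_zero, zero_mul, Finset.sum_ite_eq',
        Finset.sum_ite_eq, Finset.mem_univ, if_true] at h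
      rw [chi_eq, chi_eq] at h
      have h11 : (1 : F) ≠ -1 := fun h => NeZero.ne (2 : F) (by linear_combination h)
      have h2 : (2 : F) ≠ 0 := NeZero.ne _
      rcases Fin.exists_fin_two.mp ⟨bit l i, rfl⟩ with a | a <;>
        rcases Fin.exists_fin_two.mp ⟨bit l j, rfl⟩ with c | c <;> simp [a, c] at h hl ⊢
      · exact ((mul_eq_zero.mp (by linear_combination -h : (2 : F) * M i j = 0)).resolve_left h2)
      · exact ((mul_eq_zero.mp (by linear_combination h : (2 : F) * M i j = 0)).resolve_left h2)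
    refine ⟨M 0 0, ?_⟩
    ext i j
    by_cases hij : i = j
    · subst hij
      have h := congrFun (congrFun (hcomm 0 i) i) 0
      have hb : ∀ a, bit 0 a = 0 := by decide
      simp only [Matrix.mul_apply, el_apply, tr_zero_right, chi_eq, hb, if_true, mul_ite, ite_mul, mul_zero,
        zero_mul, mul_one, one_mul] at h
      rw [Finset.sum_ite_eq' Finset.univ i, if_pos (Finset.mem_univ _)] at h
      rw [Finset.sum_eq_single (0 : Fin 4) (fun a _ ha => by
        rw [if_neg]
        intro h'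
        exact ha ((congrArg (tr i) h').symm.trans (tr_self i) |> (tr_self_apply i a ▸ ·))) (by simp)] at h
      rw [if_pos (tr_zero_right i).symm] at h
      simp [h]
    · simp [hij, hoff i j hij]

/-- The group preserves the unitary form up to scalars. -/
theorem le_similarity {q : ℕ} (hq : Odd q) : R₁ F ≤ similarityGroup (Cfsg.hermForm 4 F q) := by
  rintro g ⟨⟨u, l, k, hg⟩, -⟩
  refine ⟨u ^ (q + 1), fun x y => ?_⟩
  have htr2 : ∀ k i j : Fin 4, i = tr k j ↔ j = tr k i := by decide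
  have hel : ∀ (x : Fin 4 → F) i, (el F l k *ᵥ x) i = (chi l i : F) * x (tr k i) := fun x i => by
    simp only [Matrix.mulVec, dotProduct, el_apply, htr2 k i, ite_mul, zero_mul, Finset.sum_ite_eq',
      Finset.mem_univ, if_true]
  rw [hg, Matrix.smul_mulVec, Matrix.smul_mulVec]
  show ∑ i, (u : F) * (el F l k *ᵥ x) i * ((u : F) * (el F l k *ᵥ y) i) ^ q = _
  simp only [hel, mul_pow]
  rw [Units.val_pow_eq_pow_val, pow_succ (u : F) q, Cfsg.hermForm, Finset.mul_sum]
  refine Fintype.sum_equiv ⟨tr k, tr k, tr_self_apply k, tr_self_apply k⟩ _ _ fun i => ?_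
  have hc : (chi l i : F) * (chi l i : F) ^ q = 1 := by
    rw [chi_eq]
    split
    · simp
    · rw [hq.neg_one_pow]; ring
  simp only [Equiv.coe_fn_mk]
  linear_combination ((u : F) * x (tr k i) * (u : F) ^ q * y (tr k i) ^ q) * hc

end MonomialFour

open MonomialFour

set_option maxHeartbeats 1000000 in
/-- The exception `q = 3` for the frame stabilisers of `SU_4(q)`. -/
theorem frame_le_symplecticType_four {F' : Type*} [Field F'] [Fintype F'] (hF : SqField F' 3)
    {D : Fin 4 → Submodule F' (Fin 4 → F')} (hD : IsNondegenerateMDecomposition (Cfsg.hermForm 4 F' 3) 1 D) :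
    ∃ R : Subgroup (GL (Fin 4) F'), IsSymplecticTypeGroup 2 R ∧ ActsAbsolutelyIrreducibly (matrixSet R) ∧
      R ≤ similarityGroup (Cfsg.hermForm 4 F' 3) ∧ Nat.card R = 64 ∧ Nat.card (Subgroup.center R) = 4 ∧
      decompositionStabilizer D ⊓ suGL 4 F' 3 ≤ subgroupNormalizer R := by
  classical
  obtain ⟨p, k, hp, hch, hpk⟩ := hF.exists_char
  obtain rfl : p = 3 := ((Nat.prime_dvd_prime_iff_eq hp Nat.prime_three).mp
    (hpk ▸ dvd_pow_self p (fun h => by rw [h, pow_zero] at hpk; omega)))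
  haveI : NeZero (2 : F') := ⟨fun h => by
    have := (CharP.cast_eq_zero_iff F' 3 2).mp h
    norm_num at this⟩
  have hc9 : Fintype.card F'ˣ = 8 := by
    have := hF.2
    rw [Nat.card_eq_fintype_card] at this
    rw [Fintype.card_units, this]
    rfl
  obtain ⟨g₀, hg₀⟩ := IsCyclic.exists_ofOrder_eq_natCard (α := F'ˣ)
  rw [Nat.card_eq_fintype_card, hc9] at hg₀
  set z := g₀ ^ 2 with hzdef
  have hz : z ^ 4 = 1 := by rw [hzdef, ← pow_mul, show 2 * 4 = 8 from rfl, ← hg₀]; exact pow_orderOf_eq_one _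
  have hz2 : (z : F') ^ 2 = -1 := by
    have h1 : ((z : F') ^ 2) * ((z : F') ^ 2) = 1 := by
      rw [← pow_add, ← Units.val_pow_eq_pow_val, hz, Units.val_one]
    rcases mul_self_eq_one_iff.mp h1 with h | h
    · exfalso
      have : g₀ ^ 4 = 1 := Units.ext (by
        rw [show (4 : ℕ) = 2 * 2 from rfl, pow_mul, ← hzdef, Units.val_pow_eq_pow_val, h, Units.val_one])
      have := orderOf_dvd_of_pow_eq_one this
      rw [hg₀] at this
      norm_num at this
    · exact h
  have hlog : ∀ u : F'ˣ, u ^ 4 = 1 → ∃ e : Fin 4, u = z ^ (e : ℕ) := by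
    intro u hu
    obtain ⟨a, ha⟩ : ∃ a : ℕ, g₀ ^ a = u := by
      have hmem : u ∈ Subgroup.zpowers g₀ := by
        have : Subgroup.zpowers g₀ = ⊤ := by
          rw [← Subgroup.card_eq_iff_eq_top, Nat.card_zpowers, hg₀, Nat.card_eq_fintype_card, hc9]
        rw [this]; trivial
      exact mem_powers_iff_mem_zpowers.mpr hmem
    have h8 : 8 ∣ a * 4 := hg₀ ▸ orderOf_dvd_of_pow_eq_one (by rw [pow_mul, ha, hu])
    refine ⟨⟨(a / 2) % 4, Nat.mod_lt _ (by norm_num)⟩, ?_⟩
    rw [← ha, ← pow_eq_pow_mod _ hz, hzdef, ← pow_mul]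
    congr 1
    omega
  obtain ⟨hsymp, hirr, hcard, hcen⟩ := data (F := F') hz hz2 hlog
  have hf := hermForm_isUnitaryFormPow (n := 4) hF
  have hv : ∀ i, ∃ v, v ∈ D i ∧ Cfsg.hermForm 4 F' 3 v v = 1 ∧ ∀ x ∈ D i, ∃ c : F', x = c • v := fun i => by
    obtain ⟨v, hv, hv0⟩ := Submodule.exists_mem_ne_zero_of_ne_bot (p := D i) fun h => by
      have := hD.decomp.finrank_eq i
      rw [h, finrank_bot] at this
      exact zero_ne_one this
    have hline : ∀ x ∈ D i, ∃ c : F', x = c • v := fun x hx => by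
      obtain ⟨c, hc⟩ := exists_smul_eq_of_finrank_eq_one (hD.decomp.finrank_eq i) (x := ⟨v, hv⟩)
        (fun h => hv0 (congrArg Subtype.val h)) ⟨x, hx⟩
      exact ⟨c, (congrArg Subtype.val hc).symm⟩
    have hd0 : Cfsg.hermForm 4 F' 3 v v ≠ 0 := fun h0 => by
      obtain ⟨⟨x, hx, hne⟩, -⟩ := hD.nondegenerate i v hv hv0
      obtain ⟨c, rfl⟩ := hline x hx
      exact hne (by rw [hf.smul_left, h0, mul_zero])
    obtain ⟨a, ha⟩ := hF.exists_norm (c := (Cfsg.hermForm 4 F' 3 v v)⁻¹) (by rw [inv_pow, ← hf.herm])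
    have ha0 : a ≠ 0 := fun h => by
      rw [h, zero_pow (by norm_num), eq_comm, inv_eq_zero] at ha
      exact hd0 ha
    refine ⟨a • v, (D i).smul_mem a hv, ?_, fun x hx => ?_⟩
    · rw [hf.smul_left, hf.smul_right', ← mul_assoc, ← pow_succ', ha, inv_mul_cancel₀ hd0]
    · obtain ⟨c, rfl⟩ := hline x hx
      exact ⟨c * a⁻¹, by rw [smul_smul, mul_assoc, inv_mul_cancel₀ ha0, mul_one]⟩
  choose v hvD hvv hline using hv
  have hvo : ∀ i j, i ≠ j → Cfsg.hermForm 4 F' 3 (v i) (v j) = 0 := fun i j h =>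
    hD.orthogonal i j h _ (hvD i) _ (hvD j)
  have hcomb : ∀ (c : Fin 4 → F') j, Cfsg.hermForm 4 F' 3 (∑ i, c i • v i) (v j) = c j := by
    intro c j
    simp only [hf.sum_left, hf.smul_left]
    rw [Finset.sum_eq_single j (fun i _ hi => by rw [hvo i j hi, mul_zero]) (by simp), hvv, mul_one]
  have hli : LinearIndependent F' v := by
    rw [Fintype.linearIndependent_iff]
    intro c hc j
    rw [← hcomb c j, hc, hf.zero_left']
  let b4 := basisOfLinearIndependentOfCardEqFinrank hli (by simp)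
  have hb4 : ⇑b4 = v := coe_basisOfLinearIndependentOfCardEqFinrank hli _
  let P : GL (Fin 4) F' := GeoClasses.glOfEquiv b4.equivFun.symm
  have hP : ∀ x, (P : Matrix (Fin 4) (Fin 4) F') *ᵥ x = ∑ i, x i • v i := fun x => by
    simp [P, GeoClasses.glOfEquiv_mulVec, Basis.equivFun_symm_apply, hb4]
  have hPU : ∀ x y, Cfsg.hermForm 4 F' 3 ((P : Matrix (Fin 4) (Fin 4) F') *ᵥ x) ((P : Matrix (Fin 4) (Fin 4) F') *ᵥ y) =
      Cfsg.hermForm 4 F' 3 x y := fun x y => by
    rw [hP, hP, hf.sum_right hF]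
    exact Finset.sum_congr rfl fun j _ => by rw [hf.smul_right', hcomb, mul_comm]
  let e : R₁ F' ≃* ((R₁ F').map (MulAut.conj P).toMonoidHom : Subgroup (GL (Fin 4) F')) :=
    (R₁ F').equivMapOfInjective _ (MulAut.conj P).injective
  refine ⟨(R₁ F').map (MulAut.conj P).toMonoidHom, isSymplecticTypeGroup_congr e hsymp,
    actsAbsolutelyIrreducibly_conj P hirr, ?_, by rw [← Nat.card_congr e.toEquiv, hcard],
    by rw [← Nat.card_congr (Subgroup.centerCongr e).toEquiv, hcen], ?_⟩
  · rintro _ ⟨r, hr, rfl⟩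
    obtain ⟨c, hc⟩ := le_similarity (by decide : Odd 3) hr
    refine ⟨c, fun x y => ?_⟩
    have hPi : ∀ x y, Cfsg.hermForm 4 F' 3 (((P⁻¹ : GL (Fin 4) F') : Matrix (Fin 4) (Fin 4) F') *ᵥ x)
        (((P⁻¹ : GL (Fin 4) F') : Matrix (Fin 4) (Fin 4) F') *ᵥ y) = Cfsg.hermForm 4 F' 3 x y := fun x y => by
      rw [← hPU, Matrix.mulVec_mulVec, Matrix.mulVec_mulVec, Units.mul_inv, Matrix.one_mulVec, Matrix.one_mulVec]
    simp only [MulEquiv.coe_toMonoidHom, MulAut.conj_apply, Units.val_mul, ← Matrix.mulVec_mulVec]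
    rw [hPU, hc, hPi]
  rintro g ⟨⟨σ, hσ⟩, hgU, hgdet⟩
  have hco : ∀ i, ∃ c : F', (g : Matrix (Fin 4) (Fin 4) F') *ᵥ v i = c • v (σ i) := fun i =>
    hline _ _ (by rw [← hσ]; exact ⟨v i, hvD i, Matrix.toLin'_apply _ _⟩)
  choose lam hlam using hco
  have hnorm : ∀ i, lam i ^ 4 = 1 := by
    intro i
    have h := hgU (v i) (v i)
    simp only [Units.coeHom_apply] at h
    rw [hlam, hf.smul_left, hf.smul_right', hvv, hvv, mul_one, ← pow_succ'] at h
    exact h
  have hlam0 : ∀ i, lam i ≠ 0 := fun i h => by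
    have := hnorm i
    rw [h, zero_pow (by norm_num)] at this
    exact zero_ne_one this
  choose ee hee using fun i => hlog (Units.mk0 _ (hlam0 i)) (Units.ext (by simpa using hnorm i))
  have he' : ∀ i, lam i = ((z ^ (ee i : ℕ) : F'ˣ) : F') := fun i => congrArg Units.val (hee i)
  let f : Fin 4 → Fin 4 := σ
  let M : Matrix (Fin 4) (Fin 4) F' := Matrix.of fun i j => if i = f j then ((z ^ (ee j : ℕ) : F'ˣ) : F') else 0
  have hgP : (g : Matrix (Fin 4) (Fin 4) F') * (P : Matrix (Fin 4) (Fin 4) F') = (P : Matrix (Fin 4) (Fin 4) F') * M := by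
    refine Matrix.toLin'.injective ((Pi.basisFun F' (Fin 4)).ext fun j => ?_)
    simp only [Pi.basisFun_apply, Matrix.toLin'_apply, ← Matrix.mulVec_mulVec, hP]
    have hMj : M *ᵥ Pi.single j 1 = ((z ^ (ee j : ℕ) : F'ˣ) : F') • Pi.single (f j) 1 := by
      funext i
      simp [M, Matrix.mulVec_single_one, Pi.single_apply]
    simp [hMj, Pi.single_apply, hlam, he', f]
  set m : GL (Fin 4) F' := P⁻¹ * g * P with hm
  have hmM : (m : Matrix (Fin 4) (Fin 4) F') = M := by
    simp only [hm, Units.val_mul, mul_assoc, hgP, Units.inv_mul_cancel_left]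
  have hd : (ee 0 + ee 1 + ee 2 + ee 3) + (ee 0 + ee 1 + ee 2 + ee 3) = 0 := by
    have hdetM : M.det = 1 := by
      have h := congrArg Matrix.det hgP
      rw [Matrix.det_mul, Matrix.det_mul, GeoClasses.mem_specialLinear_iff.mp hgdet, one_mul] at h
      exact mul_left_cancel₀ (Matrix.GeneralLinearGroup.det_ne_zero P) (by rw [mul_one]; exact h.symm)
    have hMs : M = (Matrix.diagonal fun j => ((z ^ (ee j : ℕ) : F'ˣ) : F')).submatrix σ.symm id := by
      ext i j
      simp only [M, f, Matrix.of_apply, Matrix.submatrix_apply, id, Matrix.diagonal_apply]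
      by_cases h : i = σ j
      · subst h; simp
      · rw [if_neg h, if_neg fun h' => h (by rw [← h', Equiv.apply_symm_apply])]
    rw [hMs, Matrix.det_permute, Matrix.det_diagonal, Fin.prod_univ_four] at hdetM
    have hsq : (z ^ ((ee 0 + ee 1 + ee 2 + ee 3 + (ee 0 + ee 1 + ee 2 + ee 3) : Fin 4) : ℕ) : F'ˣ) = 1 := by
      refine Units.ext ?_
      simp only [pow_fin_add hz, Units.val_mul, Units.val_one]
      rcases Int.units_eq_one_or (Equiv.Perm.sign σ.symm) with h | h <;> rw [h] at hdetM <;> push_cast at hdetM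
      · rw [one_mul] at hdetM
        push_cast
        rw [hdetM, one_mul]
      · rw [neg_one_mul, neg_eq_iff_eq_neg] at hdetM
        push_cast
        rw [hdetM]; ring
    have h4 := orderOf_dvd_of_pow_eq_one hsq
    have hzo : orderOf z = 4 := by rw [hzdef, orderOf_pow, hg₀]; rfl
    rw [hzo] at h4
    apply Fin.ext
    have h3 : ((ee 0 + ee 1 + ee 2 + ee 3 + (ee 0 + ee 1 + ee 2 + ee 3) : Fin 4) : ℕ) < 4 := Fin.isLt _
    obtain ⟨t, ht⟩ := h4
    simp only [Fin.val_zero]
    omega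
  have hnormR : (R₁ F').map (MulAut.conj m).toMonoidHom = R₁ F' := by
    refine map_R₁ (normalizer_of_forall fun l k => ?_)
    rw [hmM]
    obtain ⟨w, c, hc⟩ := diag_exponent ee hd k
    obtain ⟨l', s, hl⟩ := perm_bit f σ.injective (tr c l)
    obtain ⟨k', hk⟩ := perm_tr f σ.injective k
    refine ⟨z ^ (w : ℕ) * (if s = 0 then 1 else -1), l', k', ?_⟩
    ext i j
    have hperm : ∀ a, f a = tr k' (f j) ↔ a = tr k j := fun a => by
      rw [← hk j]; exact σ.injective.eq_iff
    rw [Matrix.smul_mul, Matrix.smul_apply, smul_eq_mul]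
    simp only [Matrix.mul_apply, M, Matrix.of_apply, el_apply, mul_ite, mul_zero, ite_mul, zero_mul,
      Finset.sum_ite_eq', Finset.sum_ite_eq, Finset.mem_univ, if_true]
    rw [← hk j]
    by_cases hi : i = f (tr k j)
    · subst hi
      simp only [if_true]
      rw [hc j, pow_fin_add hz, pow_fin_add hz, chi_eq, chi_eq]
      have hl' : bit (tr c l) (tr k j) = s + bit l' (f (tr k j)) := hl _
      have hbit : ∀ c l i : Fin 4, bit (tr c l) i = bit c i + bit l i := by decide
      rw [hbit] at hl'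
      have h2 : z ^ (((2 : Fin 4)) : ℕ) = -1 := Units.ext (by simpa using hz2)
      rcases Fin.exists_fin_two.mp ⟨bit c (tr k j), rfl⟩ with a | a <;>
        rcases Fin.exists_fin_two.mp ⟨bit l (tr k j), rfl⟩ with a' | a' <;>
        rcases Fin.exists_fin_two.mp ⟨bit l' (f (tr k j)), rfl⟩ with a'' | a'' <;>
        rcases Fin.exists_fin_two.mp ⟨s, rfl⟩ with a''' | a''' <;>
        simp [a, a', a'', a''', hz2, h2, Units.val_mul] at hl' ⊢ <;> ring
    · simp [hi]
  rw [subgroupNormalizer, Subgroup.mem_normalizer_iff_map_conj_eq, Subgroup.map_map]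
  have hcomp : ((MulAut.conj g : MulAut (GL (Fin 4) F')) : GL (Fin 4) F' →* GL (Fin 4) F').comp (MulAut.conj P).toMonoidHom
      = (MulAut.conj P).toMonoidHom.comp (MulAut.conj m).toMonoidHom := by
    ext x : 1
    simp [hm, mul_assoc]
  rw [hcomp, ← Subgroup.map_map, hnormR]


end Cfsg.Agent.ClassicalMax
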