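import Cfsg.Agent.ClassicalMax.UnitaryCases
import Cfsg.Agent.ClassicalMax.UnitaryExceptions
import Cfsg.Agent.ClassicalMax.PairExceptionFour
import Cfsg.Agent.ClassicalMax.SymplecticFour
import Cfsg.Agent.ClassicalMax.OrderNine

/-!
Maximal subgroups of `SU_4`, given the dichotomy.
-/

set_option autoImplicit false
set_option linter.style.haveILetI false

namespace Cfsg.Agent.ClassicalMax

open Matrix Cfsg.Geo
open Cfsg.Agent.Classical.U (SqField sqField_of_fintype)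
open scoped MatrixGroups Matrix

variable {F : Type*} [Field F] [Fintype F] {q : ℕ}

/-- `SU_4(3)` normalises no group of symplectic type of order 64. -/
theorem suGL_four_not_le_normalizer (hF : SqField F 3) {R : Subgroup (GL (Fin 4) F)}
    (hirr : ActsAbsolutelyIrreducibly (matrixSet R)) (hcard : Nat.card R = 64)
    (hZ : Nat.card (Subgroup.center R) = 4) : ¬ suGL 4 F 3 ≤ subgroupNormalizer R := by
  intro hle
  obtain ⟨p, k, hp, hch, hpk⟩ := hF.exists_char
  obtain rfl : p = 3 := ((Nat.prime_dvd_prime_iff_eq hp Nat.prime_three).mp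
    (hpk ▸ dvd_pow_self p (fun h => by rw [h, pow_zero] at hpk; omega)))
  obtain ⟨δ, hδ0, hδ⟩ := hF.exists_skew
  have hi : δ ^ 2 = -1 := mul_right_cancel₀ hδ0 (by rw [← pow_succ, hδ, neg_one_mul])
  obtain ⟨g, hg, h9, hne⟩ := exists_nine_SU hi hδ
  have hidx : (Subgroup.center R).index = 16 := by
    have := (Subgroup.center R).card_mul_index
    rw [hZ, hcard] at this
    omega
  obtain ⟨c, hc⟩ := scalar_cube_of_normalizes hirr (by rw [hZ]; norm_num) hidx (hle hg) h9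
  exact hne c hc

/-- `SU_4`. -/
theorem su4_cases (hc : Fintype.card F = q ^ 2) (hdich : UnitaryDichotomy 4 F q)
    {H : Subgroup (GL (Fin 4) F)} (hH : IsMaximalIn (suGL 4 F q) H) :
    (∃ W : Submodule F (Fin 4 → F), W ≠ ⊥ ∧ IsTotallySingularFor (Cfsg.hermForm 4 F q) W ∧
      H = subspaceStabilizer W ⊓ suGL 4 F q) ∨
    (∃ W : Submodule F (Fin 4 → F), W ≠ ⊥ ∧ IsNondegenerateOn (Cfsg.hermForm 4 F q) W ∧
      2 * Module.finrank F W < 4 ∧ H = subspaceStabilizer W ⊓ suGL 4 F q) ∨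
    (q ≠ 3 ∧ ∃ D : Fin 4 → Submodule F (Fin 4 → F), IsNondegenerateMDecomposition (Cfsg.hermForm 4 F q) 1 D ∧
      H = decompositionStabilizer D ⊓ suGL 4 F q) ∨
    (3 ≤ q ∧ ∃ D : Fin 2 → Submodule F (Fin 4 → F), IsNondegenerateMDecomposition (Cfsg.hermForm 4 F q) 2 D ∧
      H = decompositionStabilizer D ⊓ suGL 4 F q) ∨
    (4 ≤ q ∧ ∃ D : Fin 2 → Submodule F (Fin 4 → F), IsMDecomposition 2 D ∧
      (∀ i, IsTotallySingularFor (Cfsg.hermForm 4 F q) (D i)) ∧ H = decompositionStabilizer D ⊓ suGL 4 F q) ∨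
    (∃ (F₀ : Subfield F) (r : ℕ) (P : GL (Fin 4) F), r.Prime ∧ Odd r ∧ Fintype.card F = Nat.card F₀ ^ r ∧
      IsFormRationalStructure (Cfsg.hermForm 4 F q) F₀ 1 P ∧ H = subfieldSubgroup F₀ P ⊓ suGL 4 F q) ∨
    (∃ (F₀ : Subfield F) (P : GL (Fin 4) F) (ζ : F), Fintype.card F = Nat.card F₀ ^ 2 ∧ ζ ≠ 0 ∧
      ζ + ζ ^ q = 0 ∧ IsFormRationalStructure (Cfsg.hermForm 4 F q) F₀ ζ P ∧
      (∀ u : Fin 4 → F, (∀ i, u i ∈ F₀) →
        Cfsg.hermForm 4 F q ((P : Matrix (Fin 4) (Fin 4) F) *ᵥ u) ((P : Matrix (Fin 4) (Fin 4) F) *ᵥ u) = 0) ∧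
      H = subfieldSubgroup F₀ P ⊓ suGL 4 F q) ∨
    (Odd q ∧ ∃ (F₀ : Subfield F) (P : GL (Fin 4) F), Fintype.card F = Nat.card F₀ ^ 2 ∧
      IsFormRationalStructure (Cfsg.hermForm 4 F q) F₀ 1 P ∧ H = subfieldSubgroup F₀ P ⊓ suGL 4 F q) ∨
    (∃ (p : ℕ) (R : Subgroup (GL (Fin 4) F)), p.Prime ∧ q = p ∧ p % 4 = 3 ∧ IsSymplecticTypeGroup 2 R ∧
      ActsAbsolutelyIrreducibly (matrixSet R) ∧ R ≤ similarityGroup (Cfsg.hermForm 4 F q) ∧ Nat.card R = 64 ∧
      Nat.card (Subgroup.center R) = 4 ∧ H = subgroupNormalizer R ⊓ suGL 4 F q) ∨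
    InUnitaryResidualClass H := by
  have hF : SqField F q := sqField_of_fintype hc
  have hq := hF.one_lt
  have hperf := suGL_commutator hF (n := 4) (by norm_num) (by norm_num)
  rcases su_maximal_cases (by norm_num) (by norm_num) (by norm_num) hc hdich hH with h | h |
    ⟨t, k, D, hD, htk, ht, hk, he⟩ | ⟨k, D, hk, hD, hts, he⟩ | h | h | ⟨F₀, P, ζ, -, h⟩ |
    ⟨r, R, ⟨hR, hirr, hsim, p, j, k, hp, -, hqp, -, hdeg, hk, hcase⟩, hle, heq⟩ | ⟨r, K, hr, hodd, hrn, -⟩ |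
    ⟨n₁, n₂, e, P, f₁, f₂, h1, h2, hnn, -⟩ | hres
  · exact Or.inl h
  · exact Or.inr (Or.inl h)
  · obtain ⟨rfl, rfl⟩ | ⟨rfl, rfl⟩ : (t = 4 ∧ k = 1) ∨ (t = 2 ∧ k = 2) := by
      have : t ≤ 4 := by nlinarith
      interval_cases t <;> omega
    · by_cases hq3 : q ≠ 3
      · iterate 2 right
        exact Or.inl ⟨hq3, D, hD, he⟩
      · push Not at hq3
        subst hq3
        obtain ⟨R, hR, hirr, hsim, hcard, hZ, hle⟩ := frame_le_symplecticType_four hF hD
        iterate 8 right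
        exact Or.inl ⟨3, R, Nat.prime_three, rfl, rfl, hR, hirr, hsim, hcard, hZ,
          eq_inf_max hH (he.le.trans hle) (suGL_four_not_le_normalizer hF hirr hcard hZ)⟩
    · by_cases hq3 : 3 ≤ q
      · iterate 3 right
        exact Or.inl ⟨hq3, D, hD, he⟩
      · obtain rfl : q = 2 := by omega
        obtain ⟨E, hE, hle⟩ := planes_le_frame hF hD
        iterate 2 right
        exact Or.inl ⟨by norm_num, E, hE, eq_inf_max hH
          (he.le.trans ((le_inf inf_le_left (inf_le_right.trans inf_le_left)).trans hle))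
          (suGL_not_le_frameStabilizer hF (by norm_num) (by norm_num) hE rfl)⟩
  · obtain rfl : k = 2 := by omega
    by_cases hq4 : 4 ≤ q
    · iterate 4 right
      exact Or.inl ⟨hq4, D, hD, hts, he⟩
    · obtain ⟨F₀, P, ζ, hcard, hζ, hζq, hrat, hiso, hle⟩ := pair_le_subfield_four hF (by omega) hD hts
      rw [Nat.card_eq_fintype_card] at hcard
      iterate 6 right
      exact Or.inl ⟨F₀, P, ζ, hcard, hζ, hζq, hrat, hiso, eq_inf_max hH (he.le.trans hle)
        (suGL_not_le_subfieldSubgroup hF (by norm_num) hperf (MaxSub.subfield_ne_top Nat.prime_two hcard) P)⟩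
  · iterate 5 right
    exact Or.inl h
  · iterate 7 right
    exact Or.inl h
  · iterate 6 right
    exact Or.inl ⟨F₀, P, ζ, h⟩
  · obtain rfl : r = 2 := (Nat.prime_dvd_prime_iff_eq hR.prime Nat.prime_two).mp
      (hR.prime.dvd_of_dvd_pow (show r ∣ 2 ^ 2 by norm_num; exact hdeg ▸ dvd_pow_self r (by omega)))
    obtain rfl : k = 2 := Nat.pow_right_injective le_rfl (show 2 ^ k = 2 ^ 2 by omega)
    rcases hcase with ⟨h, -⟩ | ⟨-, hZ, hcard, rfl, hp4⟩
    · exact absurd h (by decide)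
    rw [pow_one] at hqp
    subst hqp
    iterate 8 right
    refine Or.inl ⟨q, R, hp, rfl, hp4, hR, hirr, hsim, by rw [hcard]; norm_num, hZ, ?_⟩
    by_cases hq4 : 4 ≤ q
    · exact heq hq4
    · obtain rfl : q = 3 := by omega
      exact eq_inf_max hH hle (suGL_four_not_le_normalizer hF hirr (by rw [hcard]; norm_num) hZ)
  · exfalso
    have := Nat.le_of_dvd (by norm_num) hrn
    have := hr.two_le
    interval_cases r <;> first | omega | (revert hodd hrn; decide)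
  · exfalso; nlinarith
  · iterate 9 right
    exact hres

end Cfsg.Agent.ClassicalMax
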