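import Cfsg.Agent.ClassicalMax.UnitaryExceptions
import Cfsg.Agent.ClassicalMax.UnitaryProper
import Cfsg.Agent.GeoClasses.FieldFacts
import Cfsg.Agent.MaxSub.Proper

/-!
Normalisers of adjoint-closed cubic fields in `SU_3(p)` when their norm-one elements have order `7` or `21`.
-/

set_option autoImplicit false
set_option linter.style.haveILetI false

namespace Cfsg.Agent.ClassicalMax

open Matrix Cfsg.Geo Module
open Cfsg.Agent.Classical.U (SqField sqField_of_fintype)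
open scoped MatrixGroups Matrix

variable {F : Type*} [Field F] {p : ℕ} [Fact p.Prime] [CharP F p]

/-- In a cubic field over `p ²` elements, closed under adjoints, the adjoint is `x ↦ x ^ (p ³)`. -/
theorem adjoint_eq_pow_three (hF : SqField F p) {K : Subalgebra F (Matrix (Fin 3) (Fin 3) F)}
    (hK : IsFieldSubalgebra 3 K) (hac : IsAdjointClosedFor (Cfsg.hermForm 3 F p) K) :
    ∀ k ∈ K, ∀ u v : Fin 3 → F,
      Cfsg.hermForm 3 F p (k *ᵥ u) v = Cfsg.hermForm 3 F p u ((k ^ (p ^ 3)) *ᵥ v) := by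
  classical
  obtain ⟨hfin, hcardF⟩ := id hF
  letI : Fintype F := Fintype.ofFinite F
  rw [Nat.card_eq_fintype_card] at hcardF
  have hp : p.Prime := Fact.out
  have hf := hermForm_isUnitaryFormPow (n := 3) hF
  letI : Field K := (MaxSub.isField_of_isFieldSubalgebra hK).toField
  haveI : Finite K := Finite.of_injective (fun x : K => (x : Matrix (Fin 3) (Fin 3) F)) Subtype.val_injective
  haveI : Fintype K := Fintype.ofFinite K
  haveI : CharP K p := charP_of_injective_algebraMap (algebraMap F K).injective p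
  have hcardK : Fintype.card K = p ^ 6 := by
    have := Module.natCard_eq_pow_finrank (K := F) (V := K)
    rw [hK.finrank_eq, Nat.card_eq_fintype_card, Nat.card_eq_fintype_card, hcardF] at this
    rw [this, ← pow_mul]
  have h6 : ∀ x : K, x ^ p ^ 6 = x := fun x => hcardK ▸ FiniteField.pow_card x
  have hpp : ∀ a : F, (a ^ p) ^ p = a := hF.pow_pow
  choose ad hadK had using hac
  let φ : K → K := fun k => ⟨ad k k.2, hadK k k.2⟩
  have hφ : ∀ (k : K) u v, Cfsg.hermForm 3 F p ((k : Matrix (Fin 3) (Fin 3) F) *ᵥ u) v =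
      Cfsg.hermForm 3 F p u ((φ k : Matrix (Fin 3) (Fin 3) F) *ᵥ v) := fun k => had k k.2
  have huniq : ∀ (k m : K), (∀ u v, Cfsg.hermForm 3 F p ((k : Matrix (Fin 3) (Fin 3) F) *ᵥ u) v =
      Cfsg.hermForm 3 F p u ((m : Matrix (Fin 3) (Fin 3) F) *ᵥ v)) → φ k = m := by
    intro k m h
    apply Subtype.ext
    apply Matrix.toLin'.injective
    refine LinearMap.ext fun v => ?_
    rw [Matrix.toLin'_apply, Matrix.toLin'_apply]
    by_contra hne
    obtain ⟨⟨x, hx⟩, -⟩ := hf.nondegenerate _ (sub_ne_zero.mpr hne)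
    apply hx
    rw [sub_eq_add_neg, hf.add_right' hF, ← neg_one_smul F, hf.smul_right', ← hφ, ← h, hF.neg_pow, one_pow]
    ring
  have hsymm : ∀ k : K, φ (φ k) = k := fun k => huniq _ _ fun u v => by
    rw [hf.herm, ← hφ, ← hf.herm]
  have hadd : ∀ x y : K, φ (x + y) = φ x + φ y := fun x y => huniq _ _ fun u v => by
    push_cast
    rw [Matrix.add_mulVec, Matrix.add_mulVec, hf.add_left, hf.add_right' hF, hφ, hφ]
  have hmul : ∀ x y : K, φ (x * y) = φ x * φ y := fun x y => huniq _ _ fun u v => by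
    rw [mul_comm (φ x)]
    push_cast
    rw [← Matrix.mulVec_mulVec, ← Matrix.mulVec_mulVec, hφ, hφ]
  have hscal : ∀ a : F, φ (algebraMap F K a) = algebraMap F K (a ^ p) := fun a => huniq _ _ fun u v => by
    rw [show ((algebraMap F K a : K) : Matrix (Fin 3) (Fin 3) F) = a • 1 from Algebra.algebraMap_eq_smul_one a,
      show ((algebraMap F K (a ^ p) : K) : Matrix (Fin 3) (Fin 3) F) = (a ^ p) • 1 from Algebra.algebraMap_eq_smul_one _,
      Matrix.smul_mulVec, Matrix.smul_mulVec, Matrix.one_mulVec, Matrix.one_mulVec, hf.smul_left, hf.smul_right',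
      hpp]
  let ψ : K →ₐ[F] K :=
    { toFun := fun k => φ k ^ p
      map_one' := by
        have := hscal 1
        rw [map_one, one_pow, map_one] at this
        rw [this, one_pow]
      map_mul' := fun x y => by rw [hmul, mul_pow]
      map_zero' := by
        have := hscal 0
        rw [map_zero, zero_pow hp.ne_zero, map_zero] at this
        rw [this, zero_pow hp.ne_zero]
      map_add' := fun x y => by rw [hadd, add_pow_char]
      commutes' := fun a => by rw [hscal, ← map_pow, hpp] }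
  haveI : FiniteDimensional F K := Module.Finite.of_finite
  obtain ⟨⟨i, hi⟩, hψ⟩ := (FiniteField.bijective_frobeniusAlgHom_pow F K).2 ψ
  have hfrob : ∀ (j : ℕ) (x : K), (FiniteField.frobeniusAlgHom F K ^ j) x = x ^ ((p ^ 2) ^ j) := by
    intro j
    induction j with
    | zero => simp
    | succ j ih =>
      intro x
      rw [pow_succ', AlgHom.mul_apply, ih, FiniteField.coe_frobeniusAlgHom]
      show (x ^ (p ^ 2) ^ j) ^ Fintype.card F = _
      rw [hcardF, ← _root_.pow_mul, ← pow_succ (p ^ 2) j]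
  have hψx : ∀ x : K, φ x = x ^ (p ^ (5 + 2 * i)) := fun x => by
    have : ψ x = x ^ ((p ^ 2) ^ i) := by rw [← hψ]; exact hfrob i x
    calc φ x = (φ x) ^ p ^ 6 := (h6 _).symm
      _ = (ψ x) ^ p ^ 5 := by show _ = (φ x ^ p) ^ p ^ 5; rw [← _root_.pow_mul, ← pow_succ']
      _ = x ^ (p ^ (5 + 2 * i)) := by
        rw [this, ← _root_.pow_mul]
        congr 1
        rw [← _root_.pow_mul p 2 i, ← pow_add, add_comm]
  have hinv : ∀ x : K, x ^ p ^ (2 * (5 + 2 * i)) = x := fun x => by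
    have := hsymm x
    rwa [hψx, hψx, ← _root_.pow_mul, ← pow_add, ← two_mul] at this
  rw [hK.finrank_eq] at hi
  intro k hk u v
  rw [show k = ((⟨k, hk⟩ : K) : Matrix (Fin 3) (Fin 3) F) from rfl, hφ, ← SubmonoidClass.coe_pow]
  congr 3
  rw [hψx]
  have hsmall : ∀ e, e < 6 → 0 < e → ¬ ∀ x : K, x ^ p ^ e = x := fun e he he0 h => by
    have h1 := GeoClasses.card_le_of_forall_pow_eq (Nat.one_lt_pow he0.ne' hp.one_lt) h
    rw [hcardK] at h1
    have := (Nat.pow_le_pow_iff_right hp.one_lt).mp h1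
    omega
  interval_cases i
  · exfalso
    refine hsmall 4 (by norm_num) (by norm_num) fun x => ?_
    have := hinv x
    rwa [show 2 * (5 + 2 * 0) = 6 + 4 from rfl, pow_add, _root_.pow_mul, h6] at this
  · exfalso
    refine hsmall 2 (by norm_num) (by norm_num) fun x => ?_
    have := hinv x
    rwa [show 2 * (5 + 2 * 1) = 6 + (6 + 2) from rfl, pow_add, _root_.pow_mul, h6, pow_add, _root_.pow_mul, h6] at this
  · show (⟨k, hk⟩ : K) ^ p ^ (5 + 2 * 2) = _
    rw [show 5 + 2 * 2 = 6 + 3 from rfl, pow_add, _root_.pow_mul, h6]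

set_option maxHeartbeats 1000000 in
/-- The normaliser of such a field is conjugate into any group containing a given Frobenius pair. -/
theorem field_conj_three (hF : SqField F p) {K : Subalgebra F (Matrix (Fin 3) (Fin 3) F)}
    (hK : IsFieldSubalgebra 3 K) (hac : IsAdjointClosedFor (Cfsg.hermForm 3 F p) K)
    (hGL : ¬ 7 ^ 2 ∣ Nat.card (GL (Fin 3) F)) (hd7 : 7 ∣ p ^ 3 + 1) (hd7' : 7 ∣ p ^ 4 + p ^ 2 + 1)
    (hgcd : Nat.gcd (p ^ 3 + 1) (p ^ 4 + p ^ 2 + 1) ∣ 21) (hω : ∃ ω : F, ω ^ 2 + ω + 1 = 0)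
    {G Hh : GL (Fin 3) F} (hG : G ∈ suGL 3 F p) (hHh : Hh ∈ suGL 3 F p) (hG7 : G ^ 7 = 1) (hG1 : G ≠ 1)
    (htr : ∀ i : Fin 7,
      ((G ^ (i : ℕ) : GL (Fin 3) F) : Matrix (Fin 3) (Fin 3) F).trace = (G : Matrix (Fin 3) (Fin 3) F).trace →
      ∃ j : ℕ, Hh ^ j * G = G ^ (i : ℕ) * Hh ^ j)
    {N : Matrix (Fin 3) (Fin 3) F}
    (hN : (Matrix.of fun i (j : Fin 3) => ((G ^ (j : ℕ) : GL (Fin 3) F) : Matrix (Fin 3) (Fin 3) F) i 0) * N = 1) :
    ∃ x ∈ suGL 3 F p,
      (∀ m ∈ subalgebraNormalizer K ⊓ suGL 3 F p,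
        ∃ i : Fin 7, (x⁻¹ * m * x) * G = G ^ (i : ℕ) * (x⁻¹ * m * x)) ∧
      ∀ L : Subgroup (GL (Fin 3) F), G ∈ L → Hh ∈ L →
        (∀ a : GL (Fin 3) F, (∃ c : F, (a : Matrix (Fin 3) (Fin 3) F) = c • 1) → a ∈ L) →
        ∀ m ∈ subalgebraNormalizer K ⊓ suGL 3 F p, x⁻¹ * m * x ∈ L := by
  classical
  obtain ⟨hfin, hcardF⟩ := id hF
  letI : Fintype F := Fintype.ofFinite F
  rw [Nat.card_eq_fintype_card] at hcardF
  have hp : p.Prime := Fact.out
  have hadj := adjoint_eq_pow_three hF hK hac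
  have hf := hermForm_isUnitaryFormPow (n := 3) hF
  haveI : Fact (Nat.Prime 7) := ⟨by norm_num⟩
  have hGord : orderOf G = 7 := orderOf_eq_prime hG7 hG1
  letI : Field K := (MaxSub.isField_of_isFieldSubalgebra hK).toField
  haveI : Finite K := Finite.of_injective (fun x : K => (x : Matrix (Fin 3) (Fin 3) F)) Subtype.val_injective
  haveI : Fintype K := Fintype.ofFinite K
  haveI : FiniteDimensional F K := Module.Finite.of_finite
  have hcardK : Fintype.card K = p ^ 6 := by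
    have := Module.natCard_eq_pow_finrank (K := F) (V := K)
    rw [hK.finrank_eq, Nat.card_eq_fintype_card, Nat.card_eq_fintype_card, hcardF] at this
    rw [this, ← pow_mul]
  obtain ⟨k0, hk0⟩ := exists_prime_orderOf_dvd_card (G := Kˣ) 7 (by
    rw [Fintype.card_units, hcardK]
    refine hd7.trans ⟨p ^ 3 - 1, ?_⟩
    have := Nat.one_le_pow 3 p hp.pos
    zify [this, Nat.one_le_pow 6 p hp.pos]
    ring)
  have hk7 : (k0 : K) ^ 7 = 1 := by
    rw [← Units.val_pow_eq_pow_val, ← hk0, pow_orderOf_eq_one, Units.val_one]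
  have hprim : IsPrimitiveRoot (k0 : K) 7 := by
    have := IsPrimitiveRoot.orderOf k0
    rw [hk0] at this
    exact this.map_of_injective (f := Units.coeHom K) Units.val_injective
  -- the determinant is the norm
  let e0 : Fin 3 → F := Pi.single 0 1
  let Ev : K →ₗ[F] (Fin 3 → F) :=
    { toFun := fun k => (k : Matrix (Fin 3) (Fin 3) F) *ᵥ e0
      map_add' := fun a b => by push_cast; rw [Matrix.add_mulVec]
      map_smul' := fun a k => by simp only [SetLike.val_smul, Matrix.smul_mulVec, RingHom.id_apply] }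
  have hEvinj : Function.Injective Ev := by
    rw [injective_iff_map_eq_zero]
    intro k hk
    by_contra hk0'
    have h1 : ((k⁻¹ * k : K) : Matrix (Fin 3) (Fin 3) F) *ᵥ e0 = 0 := by
      rw [MulMemClass.coe_mul, ← Matrix.mulVec_mulVec, show (k : Matrix (Fin 3) (Fin 3) F) *ᵥ e0 = 0 from hk,
        Matrix.mulVec_zero]
    rw [inv_mul_cancel₀ hk0', OneMemClass.coe_one, Matrix.one_mulVec] at h1
    exact one_ne_zero (α := F) (by simpa [e0] using congrFun h1 0)
  let E : K ≃ₗ[F] (Fin 3 → F) := LinearMap.linearEquivOfInjective Ev hEvinj (by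
    rw [hK.finrank_eq, Module.finrank_fin_fun])
  have hdet : ∀ k : K, algebraMap F K (k : Matrix (Fin 3) (Fin 3) F).det = k ^ (p ^ 4 + p ^ 2 + 1) := by
    intro k
    have hlin : Matrix.toLin' (k : Matrix (Fin 3) (Fin 3) F) =
        (E : K →ₗ[F] (Fin 3 → F)) ∘ₗ LinearMap.mulLeft F k ∘ₗ (E.symm : (Fin 3 → F) →ₗ[F] K) := by
      refine LinearMap.ext fun v => ?_
      obtain ⟨x, rfl⟩ := E.surjective v
      simp only [LinearMap.comp_apply, LinearEquiv.coe_coe, LinearEquiv.symm_apply_apply, LinearMap.mulLeft_apply,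
        Matrix.toLin'_apply]
      show (k : Matrix (Fin 3) (Fin 3) F) *ᵥ ((x : Matrix (Fin 3) (Fin 3) F) *ᵥ e0) =
        ((k * x : K) : Matrix (Fin 3) (Fin 3) F) *ᵥ e0
      rw [Matrix.mulVec_mulVec, MulMemClass.coe_mul]
    have h1 := congrArg LinearMap.det hlin
    rw [LinearMap.det_toLin', LinearMap.det_conj] at h1
    have h2 := FiniteField.algebraMap_norm_eq_pow_sum F K k
    rw [hK.finrank_eq, Nat.card_eq_fintype_card, hcardF] at h2
    rw [h1, show LinearMap.det (LinearMap.mulLeft F k) = Algebra.norm F k from (Algebra.norm_apply F k).symm, h2]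
    congr 1
    simp [Finset.sum_range_succ]
    ring
  -- unitary elements of the field
  have hnorm : ∀ c : K, (∀ u v, Cfsg.hermForm 3 F p ((c : Matrix (Fin 3) (Fin 3) F) *ᵥ u)
      ((c : Matrix (Fin 3) (Fin 3) F) *ᵥ v) = Cfsg.hermForm 3 F p u v) → c ^ (p ^ 3 + 1) = 1 := by
    intro c hc
    apply Subtype.ext
    apply Matrix.toLin'.injective
    refine LinearMap.ext fun v => ?_
    rw [Matrix.toLin'_apply, Matrix.toLin'_apply]
    by_contra hne
    obtain ⟨⟨x, hx⟩, -⟩ := hf.nondegenerate _ (sub_ne_zero.mpr hne)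
    apply hx
    have e : Cfsg.hermForm 3 F p x (((c ^ (p ^ 3 + 1) : K) : Matrix (Fin 3) (Fin 3) F) *ᵥ v) =
        Cfsg.hermForm 3 F p x v := by
      rw [SubmonoidClass.coe_pow, pow_succ, ← Matrix.mulVec_mulVec, ← hadj _ c.2]
      exact hc x v
    rw [sub_eq_add_neg, hf.add_right' hF, ← neg_one_smul F, hf.smul_right', e, OneMemClass.coe_one, Matrix.one_mulVec,
      hF.neg_pow, one_pow]
    ring
  let km : Matrix (Fin 3) (Fin 3) F := ((k0 : K) : Matrix (Fin 3) (Fin 3) F)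
  have hkm7 : km ^ 7 = 1 := by
    rw [← SubmonoidClass.coe_pow, hk7, OneMemClass.coe_one]
  let g : GL (Fin 3) F := ⟨km, km ^ 6, by rw [← pow_succ']; exact hkm7, by rw [← pow_succ]; exact hkm7⟩
  have hgsu : g ∈ suGL 3 F p := by
    refine ⟨fun u v => ?_, ?_⟩
    · show Cfsg.hermForm 3 F p (km *ᵥ u) (km *ᵥ v) = Cfsg.hermForm 3 F p u v
      obtain ⟨t, ht⟩ := hd7
      rw [hadj km (k0 : K).2, Matrix.mulVec_mulVec, ← pow_succ, ht, pow_mul, hkm7, one_pow, Matrix.one_mulVec]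
    · show g ∈ specialLinear (Fin 3) F
      rw [GeoClasses.mem_specialLinear_iff]
      show km.det = 1
      apply (algebraMap F K).injective
      rw [hdet (k0 : K), map_one]
      obtain ⟨t, ht⟩ := hd7'
      rw [ht, _root_.pow_mul, hk7, one_pow]
  -- Sylow
  set S := suGL 3 F p
  have hfac : (Nat.card S).factorization 7 = 1 := by
    have hdvd : 7 ∣ Nat.card S := by
      have := Subgroup.orderOf_dvd_natCard (s := S) hG
      rwa [hGord] at this
    have h0 : Nat.card S ≠ 0 := Nat.card_pos.ne'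
    refine le_antisymm ?_ ((Nat.Prime.dvd_iff_one_le_factorization (by norm_num) h0).mp hdvd)
    by_contra hc
    push Not at hc
    exact hGL (((Nat.Prime.pow_dvd_iff_le_factorization (by norm_num) h0).mpr hc).trans (Subgroup.card_subgroup_dvd_card S))
  have hsyl : ∀ (a : GL (Fin 3) F) (ha : a ∈ S), orderOf a = 7 →
      Nat.card (Subgroup.zpowers (⟨a, ha⟩ : S)) = 7 ^ (Nat.card S).factorization 7 := by
    intro a ha hord
    rw [hfac, pow_one, Nat.card_zpowers, Subgroup.orderOf_mk, hord]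
  have hgord : orderOf g = 7 := by
    refine orderOf_eq_prime (Units.ext ?_) fun h => ?_
    · rw [Units.val_pow_eq_pow_val]; exact hkm7
    · exact hprim.ne_one (by norm_num) (Subtype.ext (congrArg Units.val h))
  obtain ⟨x, hx⟩ := MulAction.exists_smul_eq S (Sylow.ofCard _ (hsyl G hG hGord)) (Sylow.ofCard _ (hsyl g hgsu hgord))
  have hGg : MulAut.conj x (⟨G, hG⟩ : S) ∈ Subgroup.zpowers (⟨g, hgsu⟩ : S) := by
    have := congrArg (fun P : Sylow 7 S => (P : Subgroup S)) hx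
    simp only [Sylow.coe_subgroup_smul, Sylow.coe_ofCard] at this
    rw [← this]
    exact Subgroup.smul_mem_pointwise_smul _ _ _ (Subgroup.mem_zpowers _)
  obtain ⟨r, hr⟩ := (isOfFinOrder_of_finite _).mem_powers_iff_mem_zpowers.mpr hGg
  have hxG : (x : GL (Fin 3) F) * G * (x : GL (Fin 3) F)⁻¹ = g ^ r := by
    have := congrArg Subtype.val hr
    simpa using this.symm
  have hgK : ∀ n : ℕ, ((g ^ n : GL (Fin 3) F) : Matrix (Fin 3) (Fin 3) F) = ((k0 : K) ^ n : K) := fun n => by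
    rw [Units.val_pow_eq_pow_val, SubmonoidClass.coe_pow]
  have hr0 : Subgroup.zpowers (g ^ r) = Subgroup.zpowers g := by
    refine Subgroup.eq_of_le_of_card_ge (Subgroup.zpowers_le.mpr (Subgroup.pow_mem _ (Subgroup.mem_zpowers g) r)) ?_
    rw [Nat.card_zpowers, Nat.card_zpowers, hgord, ← hxG]
    exact le_of_eq ((MulEquiv.orderOf_eq (MulAut.conj (x : GL (Fin 3) F)) G).trans hGord).symm
  have hconj : ∀ m ∈ subalgebraNormalizer K ⊓ S,
      ∃ i : Fin 7, ((x : GL (Fin 3) F)⁻¹ * m * x) * G = G ^ (i : ℕ) * ((x : GL (Fin 3) F)⁻¹ * m * x) := by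
    intro m hm
    have hmem := (hm.1 (((g ^ r : GL (Fin 3) F)) : Matrix (Fin 3) (Fin 3) F)).mp (by rw [hgK]; exact ((k0 : K) ^ r).2)
    rw [← Units.val_mul, ← Units.val_mul] at hmem
    have h7 : (⟨_, hmem⟩ : K) ^ 7 = 1 := by
      apply Subtype.ext
      rw [SubmonoidClass.coe_pow, OneMemClass.coe_one]
      show ((m * g ^ r * m⁻¹ : GL (Fin 3) F) : Matrix (Fin 3) (Fin 3) F) ^ 7 = 1
      rw [← Units.val_pow_eq_pow_val, conj_pow, ← pow_mul, mul_comm r, pow_mul, ← hgord, pow_orderOf_eq_one, one_pow,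
        mul_one, mul_inv_cancel, Units.val_one]
    obtain ⟨s, hs, hseq⟩ := hprim.eq_pow_of_pow_eq_one h7
    have hms : m * g ^ r * m⁻¹ = g ^ s := Units.ext (by rw [hgK, hseq])
    obtain ⟨s', hs'⟩ := (isOfFinOrder_of_finite _).mem_powers_iff_mem_zpowers.mpr
      (hr0 ▸ Subgroup.pow_mem _ (Subgroup.mem_zpowers g) s : g ^ s ∈ Subgroup.zpowers (g ^ r))
    refine ⟨⟨s' % 7, Nat.mod_lt _ (by norm_num)⟩, ?_⟩
    show _ = G ^ (s' % 7) * _
    rw [← hGord, pow_mod_orderOf]
    have hG' : G = (x : GL (Fin 3) F)⁻¹ * g ^ r * x := by rw [← hxG]; group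
    have hGs : G ^ s' = (x : GL (Fin 3) F)⁻¹ * g ^ s * x := by
      rw [← hs', hG']
      have := map_pow (MulAut.conj (x : GL (Fin 3) F)⁻¹) (g ^ r) s'
      simp only [MulAut.conj_apply, inv_inv] at this
      exact this.symm
    rw [hGs, hG', ← hms]
    group
  have hcent : ∀ c : GL (Fin 3) F, c * G = G * c → ∃ a : Fin 3 → F,
      (c : Matrix (Fin 3) (Fin 3) F) = ∑ j : Fin 3, a j • ((G ^ (j : ℕ) : GL (Fin 3) F) : Matrix (Fin 3) (Fin 3) F) := by
    intro c hc
    let Kr : Matrix (Fin 3) (Fin 3) F := Matrix.of fun i j => ((G ^ (j : ℕ) : GL (Fin 3) F) : Matrix (Fin 3) (Fin 3) F) i 0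
    set a := N *ᵥ fun i => (c : Matrix (Fin 3) (Fin 3) F) i 0
    refine ⟨a, ?_⟩
    set P := ∑ j : Fin 3, a j • ((G ^ (j : ℕ) : GL (Fin 3) F) : Matrix (Fin 3) (Fin 3) F)
    have hcol : ∀ i, P i 0 = (c : Matrix (Fin 3) (Fin 3) F) i 0 := fun i => by
      have h := congrFun (show Kr *ᵥ a = fun i => (c : Matrix (Fin 3) (Fin 3) F) i 0 by
        rw [Matrix.mulVec_mulVec, hN, Matrix.one_mulVec]) i
      rw [← h]
      simp [P, Kr, Matrix.sum_apply, Matrix.mulVec, dotProduct, mul_comm]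
    have hcm : ∀ n : ℕ, ((c : Matrix (Fin 3) (Fin 3) F) - P) * ((G ^ n : GL (Fin 3) F) : Matrix (Fin 3) (Fin 3) F) =
        ((G ^ n : GL (Fin 3) F) : Matrix (Fin 3) (Fin 3) F) * ((c : Matrix (Fin 3) (Fin 3) F) - P) := by
      intro n
      rw [sub_mul, mul_sub]
      congr 1
      · rw [← Units.val_mul, ← Units.val_mul, (Commute.pow_right hc n).eq]
      · simp only [P, Finset.sum_mul, Finset.mul_sum, smul_mul_assoc, mul_smul_comm, ← Units.val_mul, ← pow_add,
          add_comm n]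
    have hz : ((c : Matrix (Fin 3) (Fin 3) F) - P) * Kr = 0 := by
      ext i j
      have h := congrFun (congrFun (hcm j) i) 0
      simp only [Matrix.mul_apply, Matrix.sub_apply, hcol, sub_self, mul_zero, Finset.sum_const_zero] at h
      simpa [Matrix.mul_apply, Kr] using h
    have := congrArg (· * N) hz
    simp only [mul_assoc, Kr, hN, mul_one, zero_mul] at this
    exact sub_eq_zero.mp this
  refine ⟨x, x.2, hconj, fun L hGL' hHL' hscal m hm => ?_⟩
  obtain ⟨i, hi⟩ := hconj m hm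
  set m' := (x : GL (Fin 3) F)⁻¹ * m * x
  have hm'S : m' ∈ S := Subgroup.mul_mem _ (Subgroup.mul_mem _ (Subgroup.inv_mem _ x.2) hm.2) x.2
  obtain ⟨j, hjG⟩ := htr i (by
    rw [show G ^ (i : ℕ) = m' * G * m'⁻¹ by rw [hi]; group, Units.val_mul, Units.val_mul, Matrix.trace_units_conj])
  set c := (Hh ^ j)⁻¹ * m' with hcdef
  have hcc : c * G = G * c := by
    calc c * G = (Hh ^ j)⁻¹ * (m' * G) := mul_assoc _ _ _
      _ = (Hh ^ j)⁻¹ * (G ^ (i : ℕ) * Hh ^ j) * c := by rw [hi, hcdef]; group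
      _ = G * c := by rw [← hjG]; group
  obtain ⟨a, ha⟩ := hcent c hcc
  have hc'K : ((x : GL (Fin 3) F) : Matrix (Fin 3) (Fin 3) F) * (c : Matrix (Fin 3) (Fin 3) F) *
      (((x : GL (Fin 3) F)⁻¹ : GL (Fin 3) F) : Matrix (Fin 3) (Fin 3) F) ∈ K := by
    rw [ha, Finset.mul_sum, Finset.sum_mul]
    refine Subalgebra.sum_mem _ fun l _ => ?_
    rw [mul_smul_comm, smul_mul_assoc, ← Units.val_mul, ← Units.val_mul]
    refine Subalgebra.smul_mem _ ?_ _
    rw [show (x : GL (Fin 3) F) * G ^ (l : ℕ) * (x : GL (Fin 3) F)⁻¹ = (g ^ r) ^ (l : ℕ) by rw [← hxG, conj_pow],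
      ← pow_mul, hgK]
    exact ((k0 : K) ^ _).2
  rw [← Units.val_mul, ← Units.val_mul] at hc'K
  set c' := (x : GL (Fin 3) F) * c * (x : GL (Fin 3) F)⁻¹ with hc'def
  have hcS : c ∈ S := Subgroup.mul_mem _ (Subgroup.inv_mem _ (Subgroup.pow_mem _ hHh _)) hm'S
  have hc'S : c' ∈ S := Subgroup.mul_mem _ (Subgroup.mul_mem _ x.2 hcS) (Subgroup.inv_mem _ x.2)
  set z : K := ⟨_, hc'K⟩
  have h21 : z ^ 21 = 1 := by
    have h1 := hnorm z fun u v => hc'S.1 u v
    have h2 : z ^ (p ^ 4 + p ^ 2 + 1) = 1 := by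
      rw [← hdet z, show (z : Matrix (Fin 3) (Fin 3) F).det = 1 from GeoClasses.mem_specialLinear_iff.mp hc'S.2, map_one]
    obtain ⟨t, ht⟩ := hgcd
    rw [ht, _root_.pow_mul, pow_gcd_eq_one.mpr ⟨h1, h2⟩, one_pow]
  obtain ⟨ω, hω⟩ := hω
  obtain ⟨b, hb⟩ : ∃ b : F, z ^ 7 = algebraMap F K b := by
    have e1 : algebraMap F K ω + algebraMap F K (ω ^ 2) = -1 := by
      rw [← map_add, show ω + ω ^ 2 = -1 by linear_combination hω, map_neg, map_one]
    have e2 : algebraMap F K ω * algebraMap F K (ω ^ 2) = 1 := by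
      rw [← map_mul, ← pow_succ', show ω ^ (2 + 1) = 1 by linear_combination (ω - 1) * hω, map_one]
    have hy3 : (z ^ 7) ^ 3 = 1 := by rw [← pow_mul]; exact h21
    have hsp : (z ^ 7 - 1) * ((z ^ 7 - algebraMap F K ω) * (z ^ 7 - algebraMap F K (ω ^ 2))) = 0 := by
      linear_combination hy3 + (-(z ^ 7) ^ 2 + z ^ 7) * e1 + (z ^ 7 - 1) * e2
    rcases mul_eq_zero.mp hsp with h | h
    · exact ⟨1, by rw [map_one]; exact sub_eq_zero.mp h⟩
    rcases mul_eq_zero.mp h with h | h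
    · exact ⟨_, sub_eq_zero.mp h⟩
    · exact ⟨_, sub_eq_zero.mp h⟩
  obtain ⟨s, -, hs⟩ := hprim.eq_pow_of_pow_eq_one (show (z ^ 15) ^ 7 = 1 by
    rw [← pow_mul, show 15 * 7 = 21 * 5 from rfl, pow_mul, h21, one_pow])
  have hc's : (c' : Matrix (Fin 3) (Fin 3) F) = b • ((g ^ s : GL (Fin 3) F) : Matrix (Fin 3) (Fin 3) F) := by
    have : z = algebraMap F K b * (k0 : K) ^ s := by
      rw [hs, ← hb, ← pow_add, show 7 + 15 = 21 + 1 from rfl, pow_succ, h21, one_mul]
    show (z : Matrix (Fin 3) (Fin 3) F) = _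
    rw [this, hgK, MulMemClass.coe_mul, Subalgebra.coe_algebraMap, ← Algebra.smul_def]
  obtain ⟨e, he⟩ : g ^ s ∈ Subgroup.zpowers (g ^ r) := hr0 ▸ Subgroup.pow_mem _ (Subgroup.mem_zpowers g) s
  change (g ^ r) ^ e = g ^ s at he
  show m' ∈ L
  rw [show m' = Hh ^ j * c by rw [hcdef]; group]
  refine Subgroup.mul_mem _ (Subgroup.pow_mem _ hHL' _) ?_
  have hce : c * (G ^ e)⁻¹ ∈ L := hscal _ ⟨b, by
    have hxe : (x : GL (Fin 3) F) * G ^ e * (x : GL (Fin 3) F)⁻¹ = g ^ s := by rw [← conj_zpow, hxG, he]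
    have h1 : c * (G ^ e)⁻¹ = (x : GL (Fin 3) F)⁻¹ * (c' * (g ^ s)⁻¹) * x := by rw [← hxe, hc'def]; group
    rw [h1, Units.val_mul, Units.val_mul, Units.val_mul c', hc's, Matrix.smul_mul, Units.mul_inv, Matrix.mul_smul,
      Matrix.smul_mul, mul_one, Units.inv_mul]⟩
  have := Subgroup.mul_mem _ hce (Subgroup.zpow_mem _ hGL' e)
  rwa [mul_assoc, inv_mul_cancel, mul_one] at this

end Cfsg.Agent.ClassicalMax
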