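import Cfsg.Agent.ClassicalMax.UnitaryProper
import Cfsg.Agent.MaxSub.LinearClasses

/-!
The possible shapes of a maximal subgroup of a special unitary group of small degree, given the
dichotomy "inside a member of a geometric class, or residual".
-/

set_option autoImplicit false
set_option linter.style.haveILetI false

namespace Cfsg.Agent.ClassicalMax

open Matrix Cfsg.Geo
open Cfsg.Agent.Classical.U (SqField sqField_of_fintype)
open scoped MatrixGroups Matrix commutatorElement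

variable {F : Type*} [Field F] {n q : ℕ}

/-- The unitary dichotomy. -/
def UnitaryDichotomy (n : ℕ) (F : Type*) [Field F] [Fintype F] (q : ℕ) : Prop :=
  ∀ H : Subgroup (GL (Fin n) F), H ≤ suGL n F q →
    H ⊔ (scalars (Fin n) F ⊓ suGL n F q) ≠ suGL n F q →
    (∃ M, InUnitaryClass n F q M ∧ H ≤ M) ∨ InUnitaryResidualClass H

/-- The data of a member of class 6. -/
def UnitaryTypeData (n q r : ℕ) (R : Subgroup (GL (Fin n) F)) : Prop :=
  IsSymplecticTypeGroup r R ∧ ActsAbsolutelyIrreducibly (matrixSet R) ∧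
    R ≤ similarityGroup (Cfsg.hermForm n F q) ∧
    ∃ p j k : ℕ, p.Prime ∧ CharP F p ∧ q = p ^ j ∧ 1 ≤ j ∧ n = r ^ k ∧ 1 ≤ k ∧
      ((Odd r ∧ Nat.card (Subgroup.center R) = r ∧ Nat.card R = r ^ (1 + 2 * k) ∧ 2 * j ∣ r - 1 ∧
          (p : ZMod r) ^ (2 * j) = 1 ∧ ∀ d, 0 < d → d < 2 * j → (p : ZMod r) ^ d ≠ 1) ∨
        (r = 2 ∧ Nat.card (Subgroup.center R) = 4 ∧ Nat.card R = 2 ^ (2 + 2 * k) ∧ j = 1 ∧ p % 4 = 3))

theorem eq_of_pow_eq_pow {p e j : ℕ} (hp : 2 ≤ p) (h : p ^ e = (p ^ j) ^ 2) : e = 2 * j := by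
  rw [← pow_mul] at h
  have := Nat.pow_right_injective hp h
  omega

/-- The arithmetic of the field of a member of class 6 and its degree. -/
theorem unitaryTypeData_of_class [Fintype F] (hn : 2 ≤ n) (hc : Fintype.card F = q ^ 2) {r p e k : ℕ}
    {R : Subgroup (GL (Fin n) F)} (hR : IsSymplecticTypeGroup r R)
    (hirr : ActsAbsolutelyIrreducibly (matrixSet R)) (hsim : R ≤ similarityGroup (Cfsg.hermForm n F q))
    (hrp : r ≠ p) (hmin : IsMinimalFieldFor (Nat.card (Subgroup.center R)) p e F)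
    (hcase : (Odd r ∧ Nat.card (Subgroup.center R) = r ∧ 1 ≤ k ∧ Nat.card R = r ^ (1 + 2 * k)) ∨
       (r = 2 ∧ e = 2 ∧ Nat.card (Subgroup.center R) = 4 ∧ Nat.card R = 2 ^ (2 + 2 * k))) :
    UnitaryTypeData n q r R ∧ (n : F) ≠ 0 ∧ commutator R ≤ Subgroup.center R ∧
      ∀ z ∈ Subgroup.center R, ∃ c : F, ((z : GL (Fin n) F) : Matrix (Fin n) (Fin n) F) = c • 1 := by
  obtain ⟨hp, hch, hcard, hdiv, hmin'⟩ := hmin
  haveI : Nonempty (Fin n) := ⟨⟨0, by omega⟩⟩
  haveI : Fact r.Prime := ⟨hR.prime⟩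
  haveI : Group.IsNilpotent R := hR.pGroup.isNilpotent
  have hexp : Monoid.exponent R = Nat.card (Subgroup.center R) := by
    rcases hcase with ⟨hodd, hZ, -, -⟩ | ⟨rfl, -, hZ, -⟩
    · rw [hR.exponent_eq, hZ, Nat.Coprime.gcd_eq_one (Nat.coprime_two_left.mpr hodd), mul_one]
    · rw [hR.exponent_eq, hZ]; rfl
  have hcl := MaxSub.commutator_le_center_of_cyclic_char hR.cyclic_of_characteristic hexp
  have hsq := MaxSub.sq_card_eq_index_center hirr hcl
  rw [Fintype.card_fin] at hsq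
  have hmul := (Subgroup.center R).card_mul_index
  have hdeg : n = r ^ k := by
    have hn2 : n ^ 2 = (r ^ k) ^ 2 := by
      rw [hsq, ← pow_mul, mul_comm k 2]
      rcases hcase with ⟨-, hZ, -, hR'⟩ | ⟨rfl, -, hZ, hR'⟩
      · rw [hZ, hR', pow_add, pow_one] at hmul
        exact Nat.eq_of_mul_eq_mul_left hR.prime.pos hmul
      · rw [hZ, hR', pow_add] at hmul
        exact Nat.eq_of_mul_eq_mul_left (by norm_num) hmul
    exact Nat.pow_left_injective two_ne_zero hn2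
  have hk : 1 ≤ k := Nat.one_le_iff_ne_zero.mpr fun h => by rw [h, pow_zero] at hdeg; omega
  obtain ⟨p', j, hp', hch', hq⟩ := (sqField_of_fintype hc).exists_char
  obtain rfl : p' = p := CharP.eq F hch' hch
  have he : e = 2 * j := eq_of_pow_eq_pow hp.two_le (by rw [← hcard, hc, hq])
  have hj : 1 ≤ j := Nat.one_le_iff_ne_zero.mpr fun h => by
    have := (sqField_of_fintype hc).one_lt
    rw [hq, h, pow_zero] at this
    omega
  have hrp' : ¬ r ∣ p' := fun h => hrp ((Nat.prime_dvd_prime_iff_eq hR.prime hp).mp h)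
  refine ⟨⟨hR, hirr, hsim, p', j, k, hp, hch, hq, hj, hdeg, hk, ?_⟩, ?_, hcl,
    fun z hz => MaxSub.exists_scalar_of_mem_center hirr hz⟩
  · rcases hcase with ⟨hodd, hZ, -, hR'⟩ | ⟨rfl, rfl, hZ, hR'⟩
    · rw [hZ] at hdiv hmin'
      have cast_iff : ∀ d, r ∣ p' ^ d - 1 ↔ (p' : ZMod r) ^ d = 1 := by
        intro d
        rw [← Nat.modEq_iff_dvd' (Nat.one_le_pow _ _ hp.pos), ← ZMod.natCast_eq_natCast_iff, Nat.cast_one,
          Nat.cast_pow]
        exact eq_comm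
      have h1 : (p' : ZMod r) ^ (2 * j) = 1 := by rw [← he]; exact (cast_iff e).mp hdiv
      have h2 : ∀ d, 0 < d → d < 2 * j → (p' : ZMod r) ^ d ≠ 1 := fun d h0 h1 h =>
        hmin' d h0 (he ▸ h1) ((cast_iff d).mpr h)
      have hord : orderOf (p' : ZMod r) = 2 * j := by
        rw [orderOf_eq_iff (by omega)]
        exact ⟨h1, fun m hm h0 => h2 m h0 hm⟩
      have hp0 : (p' : ZMod r) ≠ 0 := fun h => hrp' ((CharP.cast_eq_zero_iff (ZMod r) r p').mp h)
      exact Or.inl ⟨hodd, hZ, hR', hord ▸ orderOf_dvd_of_pow_eq_one (ZMod.pow_card_sub_one_eq_one hp0), h1, h2⟩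
    · refine Or.inr ⟨rfl, hZ, hR', by omega, ?_⟩
      rw [hZ] at hdiv hmin'
      have h1 := hmin' 1 one_pos (by norm_num)
      rw [pow_one] at h1
      have h2 := Nat.odd_iff.mp (hp.odd_of_ne_two fun h => hrp h.symm)
      omega
  · rw [hdeg, Nat.cast_pow]
    exact pow_ne_zero _ fun h => hrp ((Nat.prime_dvd_prime_iff_eq hp hR.prime).mp
      ((CharP.cast_eq_zero_iff F p' r).mp h)).symm

/-- The possible shapes of a maximal subgroup of `SU_n`, `3 ≤ n ≤ 7`, given the dichotomy. -/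
theorem su_maximal_cases [Fintype F] (hn : 3 ≤ n) (hn7 : n ≤ 7) (hex : ¬ (n = 3 ∧ q = 2))
    (hc : Fintype.card F = q ^ 2) (hdich : UnitaryDichotomy n F q)
    {H : Subgroup (GL (Fin n) F)} (hH : IsMaximalIn (suGL n F q) H) :
    (∃ W : Submodule F (Fin n → F), W ≠ ⊥ ∧ IsTotallySingularFor (Cfsg.hermForm n F q) W ∧
      H = subspaceStabilizer W ⊓ suGL n F q) ∨
    (∃ W : Submodule F (Fin n → F), W ≠ ⊥ ∧ IsNondegenerateOn (Cfsg.hermForm n F q) W ∧
      2 * Module.finrank F W < n ∧ H = subspaceStabilizer W ⊓ suGL n F q) ∨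
    (∃ (t k : ℕ) (D : Fin t → Submodule F (Fin n → F)),
      IsNondegenerateMDecomposition (Cfsg.hermForm n F q) k D ∧ t * k = n ∧ 2 ≤ t ∧ 1 ≤ k ∧
      H = decompositionStabilizer D ⊓ suGL n F q) ∨
    (∃ (k : ℕ) (D : Fin 2 → Submodule F (Fin n → F)), 2 * k = n ∧ IsMDecomposition k D ∧
      (∀ i, IsTotallySingularFor (Cfsg.hermForm n F q) (D i)) ∧ H = decompositionStabilizer D ⊓ suGL n F q) ∨
    (∃ (F₀ : Subfield F) (r : ℕ) (P : GL (Fin n) F), r.Prime ∧ Odd r ∧ Fintype.card F = Nat.card F₀ ^ r ∧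
      IsFormRationalStructure (Cfsg.hermForm n F q) F₀ 1 P ∧ H = subfieldSubgroup F₀ P ⊓ suGL n F q) ∨
    (Odd q ∧ ∃ (F₀ : Subfield F) (P : GL (Fin n) F), Fintype.card F = Nat.card F₀ ^ 2 ∧
      IsFormRationalStructure (Cfsg.hermForm n F q) F₀ 1 P ∧ H = subfieldSubgroup F₀ P ⊓ suGL n F q) ∨
    (∃ (F₀ : Subfield F) (P : GL (Fin n) F) (ζ : F), Even n ∧ Fintype.card F = Nat.card F₀ ^ 2 ∧ ζ ≠ 0 ∧
      ζ + ζ ^ q = 0 ∧ IsFormRationalStructure (Cfsg.hermForm n F q) F₀ ζ P ∧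
      (∀ u : Fin n → F, (∀ i, u i ∈ F₀) →
        Cfsg.hermForm n F q ((P : Matrix (Fin n) (Fin n) F) *ᵥ u) ((P : Matrix (Fin n) (Fin n) F) *ᵥ u) = 0) ∧
      H = subfieldSubgroup F₀ P ⊓ suGL n F q) ∨
    (∃ (r : ℕ) (R : Subgroup (GL (Fin n) F)), UnitaryTypeData n q r R ∧ H ≤ subgroupNormalizer R ∧
      (4 ≤ q → H = subgroupNormalizer R ⊓ suGL n F q)) ∨
    (∃ (r : ℕ) (K : Subalgebra F (Matrix (Fin n) (Fin n) F)), r.Prime ∧ Odd r ∧ r ∣ n ∧ IsFieldSubalgebra r K ∧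
      IsAdjointClosedFor (Cfsg.hermForm n F q) K ∧ H = subalgebraNormalizer K ⊓ suGL n F q) ∨
    (∃ (n₁ n₂ : ℕ) (e : Fin n ≃ Fin n₁ × Fin n₂) (P : GL (Fin n) F)
      (f₁ : (Fin n₁ → F) → (Fin n₁ → F) → F) (f₂ : (Fin n₂ → F) → (Fin n₂ → F) → F),
      2 ≤ n₁ ∧ n₁ < n₂ ∧ n₁ * n₂ = n ∧ IsUnitaryFormPow q f₁ ∧ IsUnitaryFormPow q f₂ ∧
      IsTensorFormStructure (fun x : F => x ^ q) (Cfsg.hermForm n F q) f₁ f₂ e P ∧
      H = tensorProductSubgroup n₁ n₂ e P ⊓ suGL n F q) ∨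
    InUnitaryResidualClass H := by
  have hF : SqField F q := sqField_of_fintype hc
  have hperf := suGL_commutator hF hn hex
  haveI : Nonempty (Fin n) := ⟨⟨0, by omega⟩⟩
  rcases hdich H hH.1.le (sup_scalars_ne_of_perfect hperf hH) with ⟨M, hM, hle⟩ | hres
  swap
  · iterate 10 right
    exact hres
  rcases hM with hM | ⟨r, K, hr, hodd, hK, hac, rfl⟩ | ⟨n₁, n₂, e, P, f₁, f₂, h1, h2, hf₁, hf₂, hs, rfl⟩ |
    ⟨k, t, e, P, f₁, hk, ht, -, -, -, rfl⟩
  · rcases hM with ⟨W, hb, hts, rfl⟩ | ⟨W, hb, hnd, hdim, rfl⟩ | ⟨t, k, D, hD, rfl⟩ | ⟨k, D, hk, hD, hts, rfl⟩ |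
      ⟨F₀, r, P, hr, hodd, hcard, hrat, rfl⟩ | ⟨F₀, P, hodd, hcard, hrat, rfl⟩ |
      ⟨F₀, P, ζ, hev, hcard, hζ, hζq, hrat, hiso, rfl⟩ | ⟨r, R, p, e, k, hR, hirr, hsim, hrp, hmin, hcase, rfl⟩
    · left
      refine ⟨W, hb, hts, eq_inf_max hH (hle.trans inf_le_left) (suGL_not_le_stabilizer hF (by omega) hb fun h => ?_)⟩
      have h1 : Cfsg.hermForm n F q (Pi.single ⟨0, by omega⟩ 1) (Pi.single ⟨0, by omega⟩ 1) = 1 := by
        show Classical.U.herm q _ _ = 1
        rw [Classical.U.herm_single_one _ hF.q_ne_zero]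
        simp
      rw [hts _ (h ▸ Submodule.mem_top) _ (h ▸ Submodule.mem_top)] at h1
      exact zero_ne_one h1
    · iterate 1 right
      refine Or.inl ⟨W, hb, hnd, hdim,
        eq_inf_max hH (hle.trans inf_le_left) (suGL_not_le_stabilizer hF (by omega) hb fun h => ?_)⟩
      rw [h, finrank_top, Module.finrank_fintype_fun_eq_card, Fintype.card_fin] at hdim
      omega
    · iterate 2 right
      have htk : t * k = n := by rw [MaxSub.mul_eq_card_of_isMDecomposition hD.decomp, Fintype.card_fin]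
      refine Or.inl ⟨t, k, D, hD, htk, hD.decomp.two_le, hD.decomp.pos, eq_inf_max hH (hle.trans inf_le_left) ?_⟩
      rcases Nat.lt_or_ge k 2 with hk | hk
      · have hk1 : k = 1 := by have := hD.decomp.pos; omega
        subst hk1
        exact suGL_not_le_frameStabilizer hF hn hex hD (by omega)
      · exact suGL_not_le_decompositionStabilizer hF hD.decomp hk
    · iterate 3 right
      exact Or.inl ⟨k, D, hk, hD, hts,
        eq_inf_max hH (hle.trans inf_le_left) (suGL_not_le_decompositionStabilizer hF hD (by omega))⟩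
    · iterate 4 right
      exact Or.inl ⟨F₀, r, P, hr, hodd, hcard, hrat, eq_inf_max hH (hle.trans inf_le_left)
        (suGL_not_le_subfieldSubgroup hF hn hperf (MaxSub.subfield_ne_top hr hcard) P)⟩
    · iterate 5 right
      exact Or.inl ⟨hodd, F₀, P, hcard, hrat, eq_inf_max hH (hle.trans inf_le_left)
        (suGL_not_le_subfieldSubgroup hF hn hperf (MaxSub.subfield_ne_top Nat.prime_two hcard) P)⟩
    · iterate 6 right
      exact Or.inl ⟨F₀, P, ζ, hev, hcard, hζ, hζq, hrat, hiso, eq_inf_max hH (hle.trans inf_le_left)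
        (suGL_not_le_subfieldSubgroup hF hn hperf (MaxSub.subfield_ne_top Nat.prime_two hcard) P)⟩
    · iterate 7 right
      obtain ⟨hdata, hnF, hcl, hscal⟩ := unitaryTypeData_of_class (by omega) hc hR hirr hsim hrp hmin hcase
      exact Or.inl ⟨r, R, hdata, hle.trans inf_le_left, fun hq => eq_inf_max hH (hle.trans inf_le_left)
        (suGL_not_le_subgroupNormalizer hF hn hnF hirr hcl hscal hq)⟩
  · iterate 8 right
    refine Or.inl ⟨r, K, hr, hodd, ?_, hK, hac,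
      eq_inf_max hH (hle.trans inf_le_left) (suGL_not_le_subalgebraNormalizer hF hn hr.one_lt hK)⟩
    simpa using MaxSub.degree_dvd_card hK
  · iterate 9 right
    have hnn : n₁ * n₂ = n := by simpa using (Fintype.card_congr e).symm
    exact Or.inl ⟨n₁, n₂, e, P, f₁, f₂, h1, h2, hnn, hf₁, hf₂, hs,
      eq_inf_max hH (hle.trans inf_le_left) (suGL_not_le_tensorProductSubgroup hF (by omega) h1 (by omega) e P)⟩
  · exfalso
    have hkt : n = k ^ t := by simpa using Fintype.card_congr e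
    have : 3 ^ 2 ≤ k ^ t := (Nat.pow_le_pow_left hk 2).trans (Nat.pow_le_pow_right (by omega) ht)
    omega

/-- `SU_7`. -/
theorem su7_cases [Fintype F] (hc : Fintype.card F = q ^ 2) (hdich : UnitaryDichotomy 7 F q)
    {H : Subgroup (GL (Fin 7) F)} (hH : IsMaximalIn (suGL 7 F q) H) :
    (∃ W : Submodule F (Fin 7 → F), W ≠ ⊥ ∧ IsTotallySingularFor (Cfsg.hermForm 7 F q) W ∧
      H = subspaceStabilizer W ⊓ suGL 7 F q) ∨
    (∃ W : Submodule F (Fin 7 → F), W ≠ ⊥ ∧ IsNondegenerateOn (Cfsg.hermForm 7 F q) W ∧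
      2 * Module.finrank F W < 7 ∧ H = subspaceStabilizer W ⊓ suGL 7 F q) ∨
    (∃ D : Fin 7 → Submodule F (Fin 7 → F), IsNondegenerateMDecomposition (Cfsg.hermForm 7 F q) 1 D ∧
      H = decompositionStabilizer D ⊓ suGL 7 F q) ∨
    (∃ K : Subalgebra F (Matrix (Fin 7) (Fin 7) F), IsFieldSubalgebra 7 K ∧
      IsAdjointClosedFor (Cfsg.hermForm 7 F q) K ∧ H = subalgebraNormalizer K ⊓ suGL 7 F q) ∨
    (∃ (F₀ : Subfield F) (r : ℕ) (P : GL (Fin 7) F), r.Prime ∧ Odd r ∧ Fintype.card F = Nat.card F₀ ^ r ∧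
      IsFormRationalStructure (Cfsg.hermForm 7 F q) F₀ 1 P ∧ H = subfieldSubgroup F₀ P ⊓ suGL 7 F q) ∨
    (Odd q ∧ ∃ (F₀ : Subfield F) (P : GL (Fin 7) F), Fintype.card F = Nat.card F₀ ^ 2 ∧
      IsFormRationalStructure (Cfsg.hermForm 7 F q) F₀ 1 P ∧ H = subfieldSubgroup F₀ P ⊓ suGL 7 F q) ∨
    (∃ (p : ℕ) (R : Subgroup (GL (Fin 7) F)), p.Prime ∧ CharP F p ∧
      ((q = p ∧ p % 7 = 6) ∨ (q = p ^ 3 ∧ (p % 7 = 3 ∨ p % 7 = 5))) ∧ IsSymplecticTypeGroup 7 R ∧
      ActsAbsolutelyIrreducibly (matrixSet R) ∧ R ≤ similarityGroup (Cfsg.hermForm 7 F q) ∧ Nat.card R = 343 ∧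
      Nat.card (Subgroup.center R) = 7 ∧ H = subgroupNormalizer R ⊓ suGL 7 F q) ∨
    InUnitaryResidualClass H := by
  have h7 : Nat.Prime 7 := by norm_num
  rcases su_maximal_cases (by norm_num) le_rfl (by norm_num) hc hdich hH with h | h |
    ⟨t, k, D, hD, htk, ht, hk, he⟩ | ⟨k, D, hk, -⟩ | h | h | ⟨F₀, P, ζ, hev, -⟩ |
    ⟨r, R, ⟨hR, hirr, hsim, p, j, k, hp, hch, hq, hj, hdeg, hk, hcase⟩, -, heq⟩ | ⟨r, K, hr, -, hrn, hK, hac, he⟩ |
    ⟨n₁, n₂, e, P, f₁, f₂, h1, h2, hnn, -⟩ | hres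
  · exact Or.inl h
  · exact Or.inr (Or.inl h)
  · iterate 2 right
    obtain rfl : k = 1 := by
      have : k ∣ 7 := ⟨t, by rw [← htk, mul_comm]⟩
      rcases (Nat.dvd_prime h7).mp this with h | h <;> [exact h; (subst h; omega)]
    obtain rfl : t = 7 := by omega
    exact Or.inl ⟨D, hD, he⟩
  · omega
  · iterate 4 right
    exact Or.inl h
  · iterate 5 right
    exact Or.inl h
  · exact absurd hev (by decide)
  · iterate 6 right
    obtain rfl : r = 7 := (Nat.prime_dvd_prime_iff_eq hR.prime h7).mp (hdeg ▸ dvd_pow_self r (by omega))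
    obtain rfl : k = 1 := Nat.pow_right_injective (show 2 ≤ 7 by norm_num) (by simpa using hdeg.symm)
    rcases hcase with ⟨-, hZ, hR', hdvd, h1, hmin⟩ | ⟨h, -⟩
    · have hlt := Nat.mod_lt p (show 7 > 0 by norm_num)
      have hp2 := hp.two_le
      have hcast : (p : ZMod 7) = ((p % 7 : ℕ) : ZMod 7) := (ZMod.natCast_mod p 7).symm
      rw [hcast] at h1
      have hj' : j = 1 ∨ j = 3 := by
        have := Nat.le_of_dvd (by norm_num) hdvd
        have : j ≤ 3 := by omega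
        interval_cases j <;> omega
      have hqp : (q = p ∧ p % 7 = 6) ∨ (q = p ^ 3 ∧ (p % 7 = 3 ∨ p % 7 = 5)) := by
        rcases hj' with rfl | rfl
        · have h2 := hmin 1 one_pos (by norm_num)
          rw [pow_one, hcast] at h2
          refine Or.inl ⟨by simpa using hq, ?_⟩
          generalize p % 7 = a at h1 h2 hlt ⊢
          interval_cases a <;> first | rfl | (exfalso; revert h1 h2; decide)
        · have h2 := hmin 3 (by norm_num) (by norm_num)
          have h3 := hmin 2 (by norm_num) (by norm_num)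
          rw [hcast] at h2 h3
          refine Or.inr ⟨hq, ?_⟩
          generalize p % 7 = a at h1 h2 h3 hlt ⊢
          interval_cases a <;> first | omega | (exfalso; revert h1 h2 h3; decide)
      refine Or.inl ⟨p, R, hp, hch, hqp, hR, hirr, hsim, by rw [hR']; norm_num, hZ, heq ?_⟩
      rcases hqp with ⟨rfl, h⟩ | ⟨rfl, -⟩
      · omega
      · have := Nat.pow_le_pow_left hp2 3
        omega
    · omega
  · iterate 3 right
    obtain rfl := (Nat.prime_dvd_prime_iff_eq hr h7).mp hrn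
    exact Or.inl ⟨K, hK, hac, he⟩
  · exfalso
    have : n₁ = 2 := by nlinarith
    subst this
    omega
  · iterate 7 right
    exact hres

end Cfsg.Agent.ClassicalMax
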