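import Cfsg.Agent.ClassicalMax.ThreeCommon
import Cfsg.Agent.ClassicalMax.ThreeField
import Cfsg.Agent.ClassicalMax.ThreeHeisenberg
import Cfsg.Agent.ClassicalMax.ThreeDiag
import Cfsg.Agent.ClassicalMax.ThreeFiveClasses
import Cfsg.Agent.ClassicalMax.ThreeThreeData

/-!
The geometric subgroups of `SU_3(3)` and `SU_3(5)` which are not maximal.
-/

set_option autoImplicit false
set_option linter.style.haveILetI false

namespace Cfsg.Agent.ClassicalMax

open Matrix Cfsg.Geo Module
open Cfsg.Agent.Classical.U (SqField sqField_of_fintype)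
open scoped MatrixGroups Matrix

variable {F : Type*} [Field F]

theorem charP_of_sqField {p : ℕ} (hp : p.Prime) (hF : SqField F p) : CharP F p := by
  obtain ⟨q, k, hq, hch, he⟩ := hF.exists_char
  have hk : k ≠ 0 := fun h => by
    rw [h, pow_zero] at he
    exact hp.one_lt.ne' he
  obtain rfl : q = p := (Nat.prime_dvd_prime_iff_eq hq hp).mp (he ▸ dvd_pow_self q hk)
  exact hch

/-- A field with `p ²` elements written over the prime field. -/
theorem exists_coordinates {p : ℕ} [Fact p.Prime] [CharP F p] (hp2 : p ≠ 2) (hF : SqField F p) (d : ZMod p)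
    (hleg : d ^ (p / 2) = -1) :
    ∃ π : QuadraticAlgebra (ZMod p) d 0 →+* F, Function.Injective π ∧
      (∀ z, π ⟨z.re, -z.im⟩ = π z ^ p) ∧ ∀ a : ZMod p, π ⟨a, 0⟩ = ZMod.castHom (dvd_refl p) F a := by
  classical
  obtain ⟨hfin, hcardF⟩ := id hF
  letI : Fintype F := Fintype.ofFinite F
  rw [Nat.card_eq_fintype_card] at hcardF
  have hp : p.Prime := Fact.out
  set ι₀ := ZMod.castHom (dvd_refl p) F
  have hι : Function.Injective ι₀ := ι₀.injective
  have hk0 : p / 2 ≠ 0 := by have := hp.two_le; omega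
  have hd0 : d ≠ 0 := fun h => by
    rw [h, zero_pow hk0] at hleg
    exact one_ne_zero (α := ZMod p) (neg_eq_zero.mp hleg.symm)
  have h2F : ringChar F ≠ 2 := by
    rw [ringChar.eq F p]; exact hp2
  obtain ⟨ω, hω⟩ : IsSquare (ι₀ d) := by
    rw [FiniteField.isSquare_iff h2F ((map_ne_zero ι₀).mpr hd0), hcardF]
    have hodd : Odd p := hp.odd_of_ne_two hp2
    obtain ⟨k, hk⟩ := hodd
    rw [← map_pow, show p ^ 2 / 2 = (p - 1) * (k + 1) by
      rw [hk, show (2 * k + 1) ^ 2 = 2 * (2 * k * (k + 1)) + 1 by ring, Nat.add_sub_cancel]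
      omega, pow_mul, ZMod.pow_card_sub_one_eq_one hd0, one_pow, map_one]
  have hωp : ω ^ p = -ω := by
    have hk : p = 2 * (p / 2) + 1 := by
      have := Nat.odd_iff.mp (hp.odd_of_ne_two hp2); omega
    rw [hk, pow_succ, pow_mul, pow_two, ← hω, ← map_pow, hleg, map_neg, map_one, neg_one_mul]
  have hω0 : ω ≠ 0 := fun h0 => hd0 (hι (by rw [hω, h0, mul_zero, map_zero]))
  letI := ZMod.algebra F p
  have halg : ∀ a : ZMod p, algebraMap (ZMod p) F a = ι₀ a := fun a => rfl
  let π : QuadraticAlgebra (ZMod p) d 0 →ₐ[ZMod p] F := QuadraticAlgebra.lift ⟨ω, by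
    simp [Algebra.smul_def, halg, ← hω]⟩
  have hπv : ∀ z : QuadraticAlgebra (ZMod p) d 0, π z = ι₀ z.re + ι₀ z.im * ω := fun z => by
    show z.re • (1 : F) + z.im • ω = _
    rw [Algebra.smul_def, Algebra.smul_def, mul_one, halg, halg]
  have hfix : ∀ a : ZMod p, ι₀ a ^ p = ι₀ a := fun a => by rw [← map_pow, ZMod.pow_card]
  have hconj : ∀ z : QuadraticAlgebra (ZMod p) d 0, π ⟨z.re, -z.im⟩ = π z ^ p := fun z => by
    rw [hπv, hπv, add_pow_char, mul_pow, hfix, hfix, hωp, map_neg]
    ring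
  refine ⟨π.toRingHom, ?_, hconj, fun a => ?_⟩
  · rw [injective_iff_map_eq_zero]
    intro z hz
    have h2 : (2 : F) ≠ 0 := Ring.two_ne_zero h2F
    have e1 : π z = 0 := hz
    have e2 : π ⟨z.re, -z.im⟩ = 0 := by rw [hconj, e1, zero_pow hp.ne_zero]
    rw [hπv] at e1 e2
    simp only [map_neg] at e2
    have hre : ι₀ z.re = 0 := (mul_eq_zero.mp (show (2 : F) * ι₀ z.re = 0 by linear_combination e1 + e2)).resolve_left h2
    have him : ι₀ z.im = 0 := (mul_eq_zero.mp (show ι₀ z.im * ω = 0 by linear_combination e1 - hre)).resolve_right hω0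
    exact QuadraticAlgebra.ext (hι (by rw [hre, QuadraticAlgebra.re_zero, map_zero]))
      (hι (by rw [him, QuadraticAlgebra.im_zero, map_zero]))
  · show π ⟨a, 0⟩ = _
    rw [hπv]
    simp

section Five

/-- The group `Sp` data shared by the exceptions with `q = 5`. -/
theorem exists_five_data (hF : SqField F 5) :
    ∃ (π : SUThreeFive.E →+* F) (_ : CharP F 5), Function.Injective π ∧ (∀ z, π (SUThreeFive.cj z) = π z ^ 5) ∧
      (∀ a : ZMod 5, π ⟨a, 0⟩ = ZMod.castHom (dvd_refl 5) F a) := by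
  haveI := charP_of_sqField Nat.prime_five hF
  haveI : Fact (Nat.Prime 5) := ⟨Nat.prime_five⟩
  obtain ⟨π, h1, h2, h3⟩ := exists_coordinates (p := 5) (by norm_num) hF 2 (by rfl)
  exact ⟨π, inferInstance, h1, h2, h3⟩

theorem map_mul_ring {E : Type*} [CommRing E] (π : E →+* F) (A B : Matrix (Fin 3) (Fin 3) E) :
    (A * B).map π = A.map π * B.map π := Matrix.map_mul

theorem map_inj_ring {E : Type*} [CommRing E] {π : E →+* F} (hπ : Function.Injective π)
    {A B : Matrix (Fin 3) (Fin 3) E} (h : A.map π = B.map π) : A = B :=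
  Matrix.map_injective hπ h

variable [Finite F]

/-- The lines invariant under the first overgroup. -/
def groupA (π : SUThreeFive.E →+* F) : Subgroup (GL (Fin 3) F) :=
  lineStab fun k => π ∘ SUThreeFive.vv (SUThreeFive.aOrb k)

/-- The lines invariant under the second overgroup. -/
def groupB (π : SUThreeFive.E →+* F) : Subgroup (GL (Fin 3) F) :=
  lineStab fun k => π ∘ SUThreeFive.vv (SUThreeFive.bOrb k)

theorem genA_lift (hF : SqField F 5) (π : SUThreeFive.E →+* F) (hπc : ∀ z, π (SUThreeFive.cj z) = π z ^ 5) (k : Fin 38) :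
    ∃ g : GL (Fin 3) F, g ∈ suGL 3 F 5 ⊓ groupA π ∧ (g : Matrix (Fin 3) (Fin 3) F) = (SUThreeFive.genA k).map π := by
  obtain ⟨g, hg, he⟩ := exists_suGL_of_ring hF π hπc (SUThreeFive.genA_su k).1 (SUThreeFive.genA_su k).2
  exact ⟨g, ⟨hg, mem_lineStab_of_ring π he _ _ (SUThreeFive.a_orb k)⟩, he⟩

theorem genB_lift (hF : SqField F 5) (π : SUThreeFive.E →+* F) (hπc : ∀ z, π (SUThreeFive.cj z) = π z ^ 5) (k : Fin 11) :
    ∃ g : GL (Fin 3) F, g ∈ suGL 3 F 5 ⊓ groupB π ∧ (g : Matrix (Fin 3) (Fin 3) F) = (SUThreeFive.genB k).map π := by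
  obtain ⟨g, hg, he⟩ := exists_suGL_of_ring hF π hπc (SUThreeFive.genB_su k).1 (SUThreeFive.genB_su k).2
  exact ⟨g, ⟨hg, mem_lineStab_of_ring π he _ _ (SUThreeFive.b_orb k)⟩, he⟩

theorem outA_lift (hF : SqField F 5) (π : SUThreeFive.E →+* F) (hπ : Function.Injective π)
    (hπc : ∀ z, π (SUThreeFive.cj z) = π z ^ 5) : ∃ T ∈ suGL 3 F 5, T ∉ groupA π := by
  obtain ⟨g, hg, he⟩ := exists_suGL_of_ring hF π hπc SUThreeFive.out_su.1 SUThreeFive.out_su.2.1
  exact ⟨g, hg, not_mem_lineStab_of_ring π hπ he SUThreeFive.a_moves⟩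

theorem outB_lift (hF : SqField F 5) (π : SUThreeFive.E →+* F) (hπ : Function.Injective π)
    (hπc : ∀ z, π (SUThreeFive.cj z) = π z ^ 5) : ∃ T ∈ suGL 3 F 5, T ∉ groupB π := by
  obtain ⟨g, hg, he⟩ := exists_suGL_of_ring hF π hπc SUThreeFive.out_su.2.2.1 SUThreeFive.out_su.2.2.2
  exact ⟨g, hg, not_mem_lineStab_of_ring π hπ he SUThreeFive.b_moves⟩

set_option maxHeartbeats 1000000 in
/-- The exception `q = 5` for frames. -/
theorem frame_not_maximal_three_five (hF : SqField F 5) {D : Fin 3 → Submodule F (Fin 3 → F)}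
    (hD : IsNondegenerateMDecomposition (Cfsg.hermForm 3 F 5) 1 D) {H : Subgroup (GL (Fin 3) F)}
    (hH : IsMaximalIn (suGL 3 F 5) H) : H ≠ decompositionStabilizer D ⊓ suGL 3 F 5 := by
  classical
  intro he
  obtain ⟨π, hch, hπ, hπc, -⟩ := exists_five_data hF
  obtain ⟨P, hP, hmono⟩ := frame_conj hF hD
  choose g hg hgv using genA_lift hF π hπc
  obtain ⟨T, hT, hTL⟩ := outA_lift hF π hπ hπc
  refine not_maximal_of_conj hH hP (fun m hm => ?_) hT hTL (hg 6).1 (hg 6).2 ?_
  · rw [he] at hm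
    set m' := P⁻¹ * m * P
    have hm'S : m' ∈ suGL 3 F 5 := by
      have := suGL_conj_mem (Subgroup.inv_mem _ hP) hm.2
      rwa [inv_inv] at this
    choose σ hσ using hmono m hm.1
    set M : Matrix (Fin 3) (Fin 3) F := (m' : Matrix (Fin 3) (Fin 3) F)
    have hσinj : Function.Injective σ := by
      intro i k hik
      by_contra hne
      let u : Fin 3 → F := Pi.single i (M (σ i) k) - Pi.single k (M (σ i) i)
      have hu : M *ᵥ u = 0 := by
        funext l
        by_cases hl : l = σ i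
        · subst hl
          simp [u, Matrix.mulVec_sub, Matrix.mulVec_single, mul_comm]
        · have h1 : M l i = 0 := hσ i l hl
          have h2 : M l k = 0 := hσ k l (hik ▸ hl)
          simp [u, Matrix.mulVec_sub, Matrix.mulVec_single, h1, h2]
      have hu0 : u = 0 := GeoClasses.mulVec_injective m' (hu.trans (Matrix.mulVec_zero _).symm)
      have hki := congrFun hu0 k
      simp [u, Ne.symm hne] at hki
      have hcol : M *ᵥ Pi.single i 1 = 0 := by
        funext l
        rw [Matrix.mulVec_single_one]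
        show M l i = 0
        by_cases hl : l = σ i
        · subst hl; exact hki
        · exact hσ i l hl
      have := congrFun (GeoClasses.mulVec_injective m' (hcol.trans (Matrix.mulVec_zero _).symm)) i
      simp at this
    obtain ⟨k, hk⟩ := SUThreeFive.diag_cases (Equiv.ofBijective σ hσinj.bijective_of_finite)
    obtain ⟨W, hW, hWv⟩ : ∃ W ∈ suGL 3 F 5 ⊓ groupA π, (W : Matrix (Fin 3) (Fin 3) F) =
        ((![1, SUThreeFive.genA 2, SUThreeFive.genA 2 * SUThreeFive.genA 2, SUThreeFive.genA 3,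
          SUThreeFive.genA 3 * SUThreeFive.genA 2, SUThreeFive.genA 3 * (SUThreeFive.genA 2 * SUThreeFive.genA 2)] :
            Fin 6 → Matrix (Fin 3) (Fin 3) SUThreeFive.E) k).map π := by
      refine ⟨(![1, g 2, g 2 * g 2, g 3, g 3 * g 2, g 3 * (g 2 * g 2)] : Fin 6 → GL (Fin 3) F) k, ?_, ?_⟩
      · fin_cases k
        exacts [one_mem _, hg 2, mul_mem (hg 2) (hg 2), hg 3, mul_mem (hg 3) (hg 2), mul_mem (hg 3) (mul_mem (hg 2) (hg 2))]
      · fin_cases k <;> simp [map_mul_ring, hgv]
    have hWcol : ∀ j l, l ≠ σ j → (W : Matrix (Fin 3) (Fin 3) F) l j = 0 := fun j l hl => by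
      rw [hWv, Matrix.map_apply]
      by_contra h0
      exact hl (hk (l, j) fun h => h0 (by rw [h, map_zero]))
    set d : GL (Fin 3) F := W⁻¹ * m'
    have hdS : d ∈ suGL 3 F 5 := Subgroup.mul_mem _ (Subgroup.inv_mem _ hW.1) hm'S
    have hWa : ∀ j, (W : Matrix (Fin 3) (Fin 3) F) *ᵥ Pi.single j 1 =
        (W : Matrix (Fin 3) (Fin 3) F) (σ j) j • (Pi.single (σ j) 1 : Fin 3 → F) := fun j => by
      funext l
      rw [Matrix.mulVec_single_one]
      show (W : Matrix (Fin 3) (Fin 3) F) l j = _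
      by_cases hl : l = σ j
      · subst hl; simp
      · simp [hWcol j l hl, hl]
    have hdiag : ∀ l j, l ≠ j → (d : Matrix (Fin 3) (Fin 3) F) l j = 0 := by
      intro l j hlj
      have hm1 : M *ᵥ Pi.single j 1 = M (σ j) j • (Pi.single (σ j) 1 : Fin 3 → F) := by
        funext a
        rw [Matrix.mulVec_single_one]
        show M a j = _
        by_cases ha : a = σ j
        · subst ha; simp
        · have : M a j = 0 := hσ j a ha
          simp [this, ha]
      have ha0 : (W : Matrix (Fin 3) (Fin 3) F) (σ j) j ≠ 0 := fun h => by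
        have := hWa j
        rw [h, zero_smul] at this
        have := congrFun (GeoClasses.mulVec_injective W (this.trans (Matrix.mulVec_zero _).symm)) j
        simp at this
      have h1 : (d : Matrix (Fin 3) (Fin 3) F) *ᵥ Pi.single j 1 =
          (M (σ j) j * ((W : Matrix (Fin 3) (Fin 3) F) (σ j) j)⁻¹) • (Pi.single j 1 : Fin 3 → F) := by
        apply GeoClasses.mulVec_injective W
        show (W : Matrix (Fin 3) (Fin 3) F) *ᵥ _ = (W : Matrix (Fin 3) (Fin 3) F) *ᵥ _
        rw [Matrix.mulVec_mulVec, ← Units.val_mul, mul_inv_cancel_left, Matrix.mulVec_smul, hWa, smul_smul, mul_assoc,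
          inv_mul_cancel₀ ha0, mul_one]
        exact hm1
      have := congrFun h1 l
      simpa [Matrix.mulVec_single_one, hlj] using this
    -- diagonal elements
    set z' := π SUThreeFive.z
    have hz6 : z' ^ 6 = 1 := by
      have := congrArg π SUThreeFive.z_pow.1
      simp only [map_mul, map_one] at this
      rw [← this]; ring
    have hz3 : z' ^ 3 ≠ 1 := fun h => SUThreeFive.z_pow.2.1 (hπ (by rw [map_mul, map_mul, map_one, ← h]; ring))
    have hz2 : z' ^ 2 ≠ 1 := fun h => SUThreeFive.z_pow.2.2 (hπ (by rw [map_mul, map_one, ← h]; ring))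
    have hz1 : z' ≠ 1 := fun h => hz2 (by rw [h, one_pow])
    have hprim : IsPrimitiveRoot z' 6 := by
      refine IsPrimitiveRoot.iff (by norm_num) |>.mpr ⟨hz6, fun l hl0 hl6 h => ?_⟩
      interval_cases l
      · exact hz1 (by rwa [pow_one] at h)
      · exact hz2 h
      · exact hz3 h
      · exact hz2 (by linear_combination hz6 - z' ^ 2 * h)
      · exact hz1 (by linear_combination hz6 - z' * h)
    set D' := (d : Matrix (Fin 3) (Fin 3) F)
    have hD6 : ∀ i, D' i i ^ 6 = 1 := fun i => by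
      have h := hdS.1 (Pi.single i 1) (Pi.single i 1)
      simp only [Units.coeHom_apply, Matrix.mulVec_single_one] at h
      change Cfsg.hermForm 3 F 5 (fun l => D' l i) (fun l => D' l i) = Cfsg.hermForm 3 F 5 _ _ at h
      rw [Cfsg.hermForm, Cfsg.hermForm, Finset.sum_eq_single i (fun l _ hl => by show D' l i * _ = 0; rw [hdiag l i hl, zero_mul]) (by simp),
        Finset.sum_eq_single i (fun l _ hl => by rw [Pi.single_eq_of_ne hl, zero_mul]) (by simp)] at h
      simp only [Pi.single_eq_same, one_pow, mul_one] at h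
      rw [← h]; ring
    have hprod : D' 0 0 * D' 1 1 * D' 2 2 = 1 := by
      have h : D'.det = 1 := GeoClasses.mem_specialLinear_iff.mp hdS.2
      rw [Matrix.det_fin_three, hdiag 0 1 (by decide), hdiag 0 2 (by decide), hdiag 1 0 (by decide),
        hdiag 1 2 (by decide), hdiag 2 0 (by decide), hdiag 2 1 (by decide)] at h
      linear_combination h
    obtain ⟨a, -, ha⟩ := hprim.eq_pow_of_pow_eq_one (hD6 0)
    obtain ⟨b, -, hb⟩ := hprim.eq_pow_of_pow_eq_one (hD6 1)
    have hgd : ∀ k' : Fin 2, ∀ (n : ℕ), ((g (Fin.castLE (by norm_num) k') ^ n : GL (Fin 3) F) : Matrix (Fin 3) (Fin 3) F) =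
        Matrix.diagonal (fun i => ((![![z', z' ^ 5, 1], ![1, z', z' ^ 5]] : Fin 2 → Fin 3 → F) k' i) ^ n) := by
      intro k' n
      have hbase : (g (Fin.castLE (by norm_num) k') : Matrix (Fin 3) (Fin 3) F) =
          Matrix.diagonal ((![![z', z' ^ 5, 1], ![1, z', z' ^ 5]] : Fin 2 → Fin 3 → F) k') := by
        ext i j
        rw [hgv, Matrix.map_apply]
        fin_cases k'
        · show π (SUThreeFive.genA 0 i j) = _
          rw [(SUThreeFive.diag_gens (i, j)).1, Matrix.diagonal_apply]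
          split <;> fin_cases i <;> simp [z'] <;> ring
        · show π (SUThreeFive.genA 1 i j) = _
          rw [(SUThreeFive.diag_gens (i, j)).2, Matrix.diagonal_apply]
          split <;> fin_cases i <;> simp [z'] <;> ring
      rw [Units.val_pow_eq_pow_val, hbase, Matrix.diagonal_pow]
      rfl
    have hd : d = g 0 ^ a * g 1 ^ (a + b) := Units.ext (by
      have e0 := hgd 0 a
      have e1 := hgd 1 (a + b)
      refine Eq.trans ?_ (congrArg₂ (· * ·) e0 e1).symm
      rw [Matrix.diagonal_mul_diagonal]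
      ext i j
      rw [Matrix.diagonal_apply]
      by_cases hij : i = j
      · subst hij
        rw [if_pos rfl]
        fin_cases i
        · simpa using ha.symm
        · show D' 1 1 = (z' ^ 5) ^ a * z' ^ (a + b)
          rw [← hb, ← pow_mul, ← pow_add, show 5 * a + (a + b) = 6 * a + b by ring, pow_add, pow_mul, hz6, one_pow,
            one_mul]
        · show D' 2 2 = 1 ^ a * (z' ^ 5) ^ (a + b)
          have e : z' ^ (a + b) * (z' ^ 5) ^ (a + b) = 1 := by rw [← mul_pow, ← pow_succ', hz6, one_pow]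
          rw [one_pow, one_mul]
          rw [← ha, ← hb, ← pow_add] at hprod
          exact mul_left_cancel₀ (pow_ne_zero _ (hprim.ne_zero (by norm_num))) (hprod.trans e.symm)
      · rw [if_neg hij]; exact hdiag i j hij)
    rw [show m' = W * d by simp [d]]
    refine Subgroup.mul_mem _ hW.2 ?_
    rw [hd]
    exact Subgroup.mul_mem _ (Subgroup.pow_mem _ (hg 0).2 _) (Subgroup.pow_mem _ (hg 1).2 _)
  · intro hXH
    rw [he] at hXH
    obtain ⟨⟨i, j, k⟩, hij, hi, hj⟩ := SUThreeFive.witness_frame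
    obtain ⟨c, hc⟩ := hmono _ hXH.1 k
    have key : ∀ l, SUThreeFive.genA 6 l k ≠ 0 → l = c := fun l hl => by
      by_contra hlc
      apply hl
      apply hπ
      have := hc l hlc
      rw [show P⁻¹ * (P * g 6 * P⁻¹) * P = g 6 by group, hgv] at this
      rw [map_zero]; exact this
    exact hij ((key i hi).trans (key j hj).symm)

theorem gp_lift {E : Type*} [CommRing E] (π : E →+* F) {N : ℕ} [NeZero N] {gp : Fin N → Matrix (Fin 3) (Fin 3) E}
    (h0 : gp 0 = 1) (hs : ∀ i, gp 1 * gp i = gp (i + 1)) {G : GL (Fin 3) F}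
    (hG : (G : Matrix (Fin 3) (Fin 3) F) = (gp 1).map π) (n : ℕ) :
    ((G ^ n : GL (Fin 3) F) : Matrix (Fin 3) (Fin 3) F) = (gp (Fin.ofNat N n)).map π := by
  induction n with
  | zero =>
    rw [pow_zero, Units.val_one, show Fin.ofNat N 0 = 0 from Fin.ext (Nat.zero_mod N), h0]
    exact (Matrix.map_one π (map_zero π) (map_one π)).symm
  | succ n ih =>
    rw [pow_succ', Units.val_mul, hG, ih, ← map_mul_ring, hs]
    congr 2
    exact Fin.ext (by simp [Fin.val_add, Fin.ofNat, Nat.add_mod])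

set_option maxHeartbeats 1000000 in
/-- The exception `q = 5` for cubic fields. -/
theorem field_not_maximal_three_five (hF : SqField F 5) {K : Subalgebra F (Matrix (Fin 3) (Fin 3) F)}
    (hK : IsFieldSubalgebra 3 K) (hac : IsAdjointClosedFor (Cfsg.hermForm 3 F 5) K) {H : Subgroup (GL (Fin 3) F)}
    (hH : IsMaximalIn (suGL 3 F 5) H) : H ≠ subalgebraNormalizer K ⊓ suGL 3 F 5 := by
  classical
  intro he
  obtain ⟨π, hch, hπ, hπc, -⟩ := exists_five_data hF
  haveI : Fact (Nat.Prime 5) := ⟨Nat.prime_five⟩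
  letI : Fintype F := Fintype.ofFinite F
  have hc25 : Fintype.card F = 25 := by rw [← Nat.card_eq_fintype_card, hF.2]; norm_num
  choose g hg hgv using genA_lift hF π hπc
  obtain ⟨T, hT, hTL⟩ := outA_lift hF π hπ hπc
  obtain ⟨b0, bh, bg, bh', bne⟩ := SUThreeFive.gp_base
  have hG : (g 4 : Matrix (Fin 3) (Fin 3) F) = (SUThreeFive.gp 1).map π := by rw [bg, hgv]
  have hHh : (g 5 : Matrix (Fin 3) (Fin 3) F) = (SUThreeFive.hp 1).map π := by rw [bh', hgv]
  have hGp := gp_lift π b0 SUThreeFive.gp_succ hG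
  have hHp := gp_lift π bh SUThreeFive.hp_succ hHh
  have hG7 : g 4 ^ 7 = 1 := Units.ext (by
    rw [hGp, Units.val_one, show (Fin.ofNat 7 7 : Fin 7) = 0 from rfl, b0]
    exact Matrix.map_one π (map_zero π) (map_one π))
  have hG1 : g 4 ≠ 1 := fun h => bne (map_inj_ring hπ (by
    rw [← hG, h, Units.val_one]; exact (Matrix.map_one π (map_zero π) (map_one π)).symm))
  obtain ⟨x, hx, hnorm, hle⟩ := field_conj_three (Hh := g 5) hF hK hac
    (by rw [Matrix.card_GL_field, Fin.prod_univ_three, hc25]; norm_num) (by norm_num) (by norm_num) (by norm_num)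
    ⟨π SUThreeFive.w, by
      have := congrArg π SUThreeFive.w_pow.2.2
      simp only [map_add, map_mul, map_one, map_zero] at this
      linear_combination this⟩
    (hg 4).1 (hg 5).1 hG7 hG1
    (fun i h => by
      obtain ⟨j, hj⟩ := SUThreeFive.trace_cases i (hπ (by
        rw [hGp, hG] at h
        rw [Fin.ofNat_val_eq_self] at h
        simpa [Matrix.trace] using h))
      refine ⟨j, Units.ext ?_⟩
      rw [Units.val_mul, Units.val_mul, hGp, hHp, hG, Fin.ofNat_val_eq_self, Fin.ofNat_val_eq_self, ← map_mul_ring,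
        ← map_mul_ring, hj])
    (N := SUThreeFive.kinv.map π) (by
      rw [show (Matrix.of fun i (j : Fin 3) => ((g 4 ^ (j : ℕ) : GL (Fin 3) F) : Matrix (Fin 3) (Fin 3) F) i 0) =
        (Matrix.of fun i (j : Fin 3) => SUThreeFive.gp (Fin.castLE (by norm_num) j) i 0).map π from by
          ext i j
          rw [Matrix.of_apply, Matrix.map_apply, Matrix.of_apply, hGp]
          fin_cases j <;> rfl]
      rw [← map_mul_ring, SUThreeFive.krylov]
      exact Matrix.map_one π (map_zero π) (map_one π))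
  refine not_maximal_of_conj hH hx.1 (fun m hm => ?_) hT hTL (hg 6).1 (hg 6).2 ?_
  · exact hle _ (hg 4).2 (hg 5).2 (fun a ⟨c, hc⟩ => scalar_mem_lineStab _ hc) m (he ▸ hm)
  · intro hXH
    obtain ⟨i, hi⟩ := hnorm _ (he ▸ hXH)
    rw [show x⁻¹ * (x * g 6 * x⁻¹) * x = g 6 by group] at hi
    apply SUThreeFive.witness_normal i
    apply map_inj_ring hπ
    have := congrArg Units.val hi
    rw [Units.val_mul, Units.val_mul, hGp, hG, hgv, Fin.ofNat_val_eq_self, ← map_mul_ring, ← map_mul_ring] at this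
    exact this

set_option maxHeartbeats 1000000 in
/-- The exception `q = 5` for real structures. -/
theorem real_not_maximal_three_five (hF : SqField F 5) {F₀ : Subfield F} (hc : Nat.card F₀ = 5) {P₀ : GL (Fin 3) F}
    (hrat : IsFormRationalStructure (Cfsg.hermForm 3 F 5) F₀ 1 P₀) {H : Subgroup (GL (Fin 3) F)}
    (hH : IsMaximalIn (suGL 3 F 5) H) : H ≠ subfieldSubgroup F₀ P₀ ⊓ suGL 3 F 5 := by
  classical
  intro he
  obtain ⟨π, hch, hπ, hπc, hπre⟩ := exists_five_data hF
  haveI : Fact (Nat.Prime 5) := ⟨Nat.prime_five⟩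
  obtain ⟨P, hP, hreal⟩ := real_conj (by norm_num) hF hc hrat fun d₀ d₁ d₂ h0 h1 h2 =>
    ⟨_, (ThreeDiag.frame_five d₀ d₁ d₂ h0 h1 h2).1, _, fun i j => (ThreeDiag.frame_five d₀ d₁ d₂ h0 h1 h2).2 (i, j)⟩
  choose g hg hgv using genA_lift hF π hπc
  obtain ⟨T, hT, hTL⟩ := outA_lift hF π hπ hπc
  refine not_maximal_of_conj hH hP (fun m hm => ?_) hT hTL (hg 6).1 (hg 6).2 ?_
  · rw [he] at hm
    obtain ⟨s, A, -, hAA, hdA, hm'⟩ := hreal m hm
    let inc : ZMod 5 →+* SUThreeFive.E := algebraMap (ZMod 5) SUThreeFive.E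
    have hinc : ∀ a, inc a = ⟨a, 0⟩ := fun a => rfl
    have hincinj : Function.Injective inc := fun a b h => congrArg QuadraticAlgebra.re h
    have hcol : A 0 0 * A 0 0 + A 1 0 * A 1 0 + A 2 0 * A 2 0 = 1 := by
      have := congrFun (congrFun hAA 0) 0
      simpa [Matrix.mul_apply, Fin.sum_univ_three] using this
    obtain ⟨k, hk0, hk1, hk2⟩ := SUThreeFive.transversal _ _ _ hcol
    set kk : Fin 38 := ⟨8 + k, by omega⟩
    let Wr : Matrix (Fin 3) (Fin 3) (ZMod 5) := Matrix.of fun i j => (SUThreeFive.genA kk i j).re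
    have hWr : SUThreeFive.genA kk = Wr.map inc := by
      ext i j
      · rfl
      · exact SUThreeFive.transversal_real k i j
    have hcjm : (Wr.map inc).map SUThreeFive.cj = Wr.map inc := by
      ext i j
      · rfl
      · simp [SUThreeFive.cj, hinc]
    have hWorth : Wrᵀ * Wr = 1 := by
      apply Matrix.map_injective hincinj
      have h := (SUThreeFive.genA_su kk).1
      rw [hWr, hcjm, ← Matrix.transpose_map] at h
      show (Wrᵀ * Wr).map inc = (1 : Matrix (Fin 3) (Fin 3) (ZMod 5)).map inc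
      rw [Matrix.map_mul, h, Matrix.map_one inc (map_zero inc) (map_one inc)]
    have hWdet : Wr.det = 1 := hincinj (by
      rw [RingHom.map_det, map_one]
      show (Wr.map inc).det = 1
      rw [← hWr]; exact (SUThreeFive.genA_su kk).2)
    set B := Wrᵀ * A with hB
    have hWW : Wr * Wrᵀ = 1 := mul_eq_one_comm.mp hWorth
    have hBB : Bᵀ * B = 1 := by
      rw [hB, Matrix.transpose_mul, Matrix.transpose_transpose, mul_assoc, ← mul_assoc Wr, hWW, one_mul, hAA]
    have hBdet : B.det = 1 := by rw [hB, Matrix.det_mul, Matrix.det_transpose, hWdet, hdA, one_mul]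
    have hW0 : ∀ l, Wr l 0 = A l 0 := fun l => by
      fin_cases l
      exacts [congrArg QuadraticAlgebra.re hk0, congrArg QuadraticAlgebra.re hk1, congrArg QuadraticAlgebra.re hk2]
    have hB0 : ∀ l, B l 0 = if l = 0 then 1 else 0 := fun l => by
      rw [hB, Matrix.mul_apply]
      simp only [← hW0]
      have := congrFun (congrFun hWorth l) 0
      rw [Matrix.mul_apply, Matrix.one_apply] at this
      exact this
    have hr : ∀ i j, (∑ l, B l i * B l j) = if i = j then 1 else 0 := fun i j => by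
      have := congrFun (congrFun hBB i) j
      rwa [Matrix.mul_apply, Matrix.one_apply] at this
    have h01 : B 0 1 = 0 := by simpa [Fin.sum_univ_three, hB0] using hr 0 1
    have h02 : B 0 2 = 0 := by simpa [Fin.sum_univ_three, hB0] using hr 0 2
    have h11 : B 1 1 * B 1 1 + B 2 1 * B 2 1 = 1 := by simpa [Fin.sum_univ_three, h01] using hr 1 1
    have h12 : B 1 1 * B 1 2 + B 2 1 * B 2 2 = 0 := by simpa [Fin.sum_univ_three, h01, h02] using hr 1 2
    have hdet2 : B 1 1 * B 2 2 - B 1 2 * B 2 1 = 1 := by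
      have := hBdet
      rw [Matrix.det_fin_three] at this
      simp [hB0, h01, h02] at this
      linear_combination this
    have e12 : B 1 2 = -B 2 1 := by linear_combination -(B 1 2) * h11 + B 1 1 * h12 - B 2 1 * hdet2
    have e22 : B 2 2 = B 1 1 := by linear_combination -(B 2 2) * h11 + B 2 1 * h12 + B 1 1 * hdet2
    obtain ⟨r, hr'⟩ := SUThreeFive.rot_cases _ _ h11
    obtain ⟨R, hR, hRv⟩ : ∃ R ∈ groupA π, (R : Matrix (Fin 3) (Fin 3) F) = (B.map inc).map π := by
      refine ⟨(![1, g 7, g 7 * g 7, g 7 * (g 7 * g 7)] : Fin 4 → GL (Fin 3) F) r, ?_, ?_⟩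
      · fin_cases r
        exacts [one_mem _, (hg 7).2, mul_mem (hg 7).2 (hg 7).2, mul_mem (hg 7).2 (mul_mem (hg 7).2 (hg 7).2)]
      · have hBv : B.map inc = (![1, SUThreeFive.genA 7, SUThreeFive.genA 7 * SUThreeFive.genA 7,
            SUThreeFive.genA 7 * (SUThreeFive.genA 7 * SUThreeFive.genA 7)] :
              Fin 4 → Matrix (Fin 3) (Fin 3) SUThreeFive.E) r := Matrix.ext fun i j => by
          rw [hr' (i, j), Matrix.map_apply, hinc]
          congr 1
          fin_cases i <;> fin_cases j <;> simp [hB0, h01, h02, e12, e22]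
        rw [hBv]
        fin_cases r <;> simp [map_mul_ring, hgv]
    set m' := P⁻¹ * m * P
    have hWR : ((g kk * R : GL (Fin 3) F) : Matrix (Fin 3) (Fin 3) F) = A.map (ZMod.castHom (dvd_refl 5) F) := by
      rw [Units.val_mul, hgv, hRv, ← map_mul_ring, hWr, ← Matrix.map_mul, hB, ← mul_assoc, hWW, one_mul]
      ext i j
      exact hπre (A i j)
    have hsc : m' * (g kk * R)⁻¹ ∈ groupA π := scalar_mem_lineStab _ (c := s) (by
      rw [Units.val_mul, hm', ← hWR, Matrix.smul_mul, Units.mul_inv])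
    have := Subgroup.mul_mem _ hsc (Subgroup.mul_mem _ (hg kk).2 hR)
    rwa [mul_assoc, inv_mul_cancel, mul_one] at this
  · intro hXH
    obtain ⟨s, A, -, -, -, hA⟩ := hreal _ (he ▸ hXH)
    rw [show P⁻¹ * (P * g 6 * P⁻¹) * P = g 6 by group, hgv] at hA
    obtain ⟨⟨⟨i, j⟩, k, l⟩, hne⟩ := SUThreeFive.witness_real
    apply hne
    apply hπ
    have e : ∀ a b, π (SUThreeFive.genA 6 a b) = s * ZMod.castHom (dvd_refl 5) F (A a b) := fun a b =>
      congrFun (congrFun hA a) b
    simp only [map_mul, hπc, e, mul_pow]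
    rw [← map_pow, ← map_pow, ZMod.pow_card, ZMod.pow_card]
    ring

set_option maxHeartbeats 1000000 in
/-- The exception `q = 5` for groups of symplectic type. -/
theorem heisenberg_not_maximal_three_five (hF : SqField F 5) {R : Subgroup (GL (Fin 3) F)}
    (hR : IsSymplecticTypeGroup 3 R) (hirr : ActsAbsolutelyIrreducibly (matrixSet R))
    (hsim : R ≤ similarityGroup (Cfsg.hermForm 3 F 5)) (h27 : Nat.card R = 27)
    (hZ : Nat.card (Subgroup.center R) = 3) {H : Subgroup (GL (Fin 3) F)} (hH : IsMaximalIn (suGL 3 F 5) H) :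
    H ≠ subgroupNormalizer R ⊓ suGL 3 F 5 := by
  classical
  intro he
  obtain ⟨π, hch, hπ, hπc, -⟩ := exists_five_data hF
  choose g hg hgv using genB_lift hF π hπc
  obtain ⟨T, hT, hTL⟩ := outB_lift hF π hπ hπc
  set ω := π SUThreeFive.w with hωdef
  have hω : ω ^ 2 + ω + 1 = 0 := by
    have := congrArg π SUThreeFive.w_pow.2.2
    simp only [map_add, map_mul, map_one, map_zero] at this
    linear_combination this
  have hX : ∀ i j, (g 0 : Matrix (Fin 3) (Fin 3) F) i j = if i = j then ω ^ (i : ℕ) else 0 := fun i j => by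
    rw [hgv]
    show π (SUThreeFive.xm i j) = _
    rw [SUThreeFive.xm_eq (i, j)]
    fin_cases i <;> fin_cases j <;> simp [SUThreeFive.w3, ω, pow_two]
  have hY : ∀ i j, (g 1 : Matrix (Fin 3) (Fin 3) F) i j = if i = j + 1 then 1 else 0 := fun i j => by
    rw [hgv]
    show π (SUThreeFive.ym i j) = _
    rw [SUThreeFive.ym_eq (i, j)]
    split <;> simp
  have hword : ∀ a b c : Fin 3, (SUThreeFive.word a b c).map π =
      ω ^ (a : ℕ) • ((g 0 ^ (b : ℕ) * g 1 ^ (c : ℕ) : GL (Fin 3) F) : Matrix (Fin 3) (Fin 3) F) := by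
    intro a b c
    have hp3 : ∀ (k : Fin 11) (e : Fin 3), (SUThreeFive.p3 (SUThreeFive.genB k) e).map π =
        ((g k ^ (e : ℕ) : GL (Fin 3) F) : Matrix (Fin 3) (Fin 3) F) := by
      intro k e
      fin_cases e
      · simp [SUThreeFive.p3]
      · simp [SUThreeFive.p3, hgv]
      · simp [SUThreeFive.p3, hgv, map_mul_ring, pow_two]
    have hw3 : π (SUThreeFive.w3 a) = ω ^ (a : ℕ) := by
      fin_cases a <;> simp [SUThreeFive.w3, ω, pow_two]
    rw [Units.val_mul, ← hp3 0, ← hp3 1, ← hw3, ← map_mul_ring]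
    ext i j
    simp only [SUThreeFive.word, Matrix.map_apply, Matrix.smul_apply, smul_eq_mul, map_mul]
    rfl
  obtain ⟨P, hP, hnorm⟩ := heisenberg_conj hF hR hirr hsim h27 hZ hω (X := g 0) (Y := g 1) hX hY
    fun a b c a' b' c' h => SUThreeFive.word_inj _ _ _ _ _ _ (map_inj_ring hπ (by rw [hword, hword]; exact h))
  have hω3 : ω ^ 3 = 1 := by linear_combination (ω - 1) * hω
  have hω1 : ω ≠ 1 := fun h => SUThreeFive.w_pow.2.1 (hπ (by rw [map_one]; exact h))
  refine not_maximal_of_conj hH hP (fun m hm => ?_) hT hTL (hg 2).1 (hg 2).2 ?_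
  · rw [he] at hm
    set m' := P⁻¹ * m * P
    have hm'S : m' ∈ suGL 3 F 5 := by
      have := suGL_conj_mem (Subgroup.inv_mem _ hP) hm.2
      rwa [inv_inv] at this
    obtain ⟨a, b, c, h1⟩ := hnorm m hm.1 _ (Or.inl rfl)
    obtain ⟨a', b', c', h2⟩ := hnorm m hm.1 _ (Or.inr rfl)
    rw [← hword] at h1 h2
    have hXY : (g 0 : Matrix (Fin 3) (Fin 3) F) * (g 1 : Matrix (Fin 3) (Fin 3) F) =
        ω • ((g 1 : Matrix (Fin 3) (Fin 3) F) * (g 0 : Matrix (Fin 3) (Fin 3) F)) := by
      ext i j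
      simp only [Matrix.mul_apply, Fin.sum_univ_three, Matrix.smul_apply, smul_eq_mul, hX, hY]
      fin_cases i <;> fin_cases j <;> simp <;> first | ring1 | linear_combination hω3 | linear_combination -hω3
    have hcomm : SUThreeFive.word a b c * SUThreeFive.word a' b' c' =
        SUThreeFive.w • (SUThreeFive.word a' b' c' * SUThreeFive.word a b c) := by
      apply map_inj_ring hπ
      rw [map_mul_ring, show (SUThreeFive.w • (SUThreeFive.word a' b' c' * SUThreeFive.word a b c)).map π =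
          ω • (SUThreeFive.word a' b' c' * SUThreeFive.word a b c).map π from by
            ext i j; simp only [Matrix.map_apply, Matrix.smul_apply, smul_eq_mul, map_mul]; rfl,
        map_mul_ring, ← h1, ← h2, ← Units.val_mul, ← Units.val_mul, conj_mul, conj_mul,
        Units.val_mul, Units.val_mul (m' * (g 1 * g 0)), Units.val_mul m', Units.val_mul m', Units.val_mul (g 0),
        Units.val_mul (g 1), hXY, Matrix.mul_smul, Matrix.smul_mul]
    obtain ⟨hv1, hv2⟩ := SUThreeFive.classes a b c a' b' c' hcomm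
    set t := SUThreeFive.clsTbl.getD ((a : ℕ) + 3 * b + 9 * c + 27 * a' + 81 * b' + 243 * c') 0 - 1
    set k : Fin 24 := Fin.ofNat 24 (t / 9)
    obtain ⟨Nk, hNk, hNkv⟩ := exists_GU_of_ring hF π hπc (SUThreeFive.norms_gu k).1
    set V : GL (Fin 3) F := Nk * (g 0 ^ ((Fin.ofNat 3 (t / 3) : Fin 3) : ℕ) * g 1 ^ ((Fin.ofNat 3 t : Fin 3) : ℕ))
    have hVv : (V : Matrix (Fin 3) (Fin 3) F) = (SUThreeFive.norms k * (SUThreeFive.p3 SUThreeFive.xm (Fin.ofNat 3 (t / 3)) *
        SUThreeFive.p3 SUThreeFive.ym (Fin.ofNat 3 t))).map π := by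
      rw [map_mul_ring, ← hNkv, show SUThreeFive.p3 SUThreeFive.xm (Fin.ofNat 3 (t / 3)) * SUThreeFive.p3 SUThreeFive.ym (Fin.ofNat 3 t) =
        SUThreeFive.word 0 (Fin.ofNat 3 (t / 3)) (Fin.ofNat 3 t) from (one_smul _ _).symm, hword]
      simp [V]
    have hcommut : ∀ (Z : GL (Fin 3) F) (W : Matrix (Fin 3) (Fin 3) SUThreeFive.E),
        ((m' * Z * m'⁻¹ : GL (Fin 3) F) : Matrix (Fin 3) (Fin 3) F) = W.map π →
        (V : Matrix (Fin 3) (Fin 3) F) * (Z : Matrix (Fin 3) (Fin 3) F) = W.map π * (V : Matrix (Fin 3) (Fin 3) F) →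
        (V⁻¹ * m') * Z = Z * (V⁻¹ * m') := by
      intro Z W hW hV
      have e : V * Z = m' * Z * m'⁻¹ * V := Units.ext (by rw [Units.val_mul, hV, Units.val_mul _ V, hW])
      calc (V⁻¹ * m') * Z = V⁻¹ * (m' * Z * m'⁻¹ * V) * (V⁻¹ * m') := by group
        _ = Z * (V⁻¹ * m') := by rw [← e]; group
    have e0 := hcommut (g 0) _ h1 (by
      rw [hVv, hgv, ← map_mul_ring, ← map_mul_ring]; exact congrArg (fun M => M.map π) hv1)
    have e1 := hcommut (g 1) _ h2 (by
      rw [hVv, hgv, ← map_mul_ring, ← map_mul_ring]; exact congrArg (fun M => M.map π) hv2)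
    set Q : Matrix (Fin 3) (Fin 3) F := ((V⁻¹ * m' : GL (Fin 3) F) : Matrix (Fin 3) (Fin 3) F)
    have hne : ∀ i j : Fin 3, i ≠ j → ω ^ (i : ℕ) ≠ ω ^ (j : ℕ) := by
      have hp3 : IsPrimitiveRoot ω 3 := by
        refine (IsPrimitiveRoot.iff (by norm_num)).mpr ⟨hω3, fun l hl0 hl3 h => ?_⟩
        interval_cases l
        · exact hω1 (by rwa [pow_one] at h)
        · exact hω1 (by linear_combination hω3 - ω * h)
      exact fun i j hij h => hij (Fin.ext (hp3.pow_inj i.isLt j.isLt h))
    have e0m : Q * (g 0 : Matrix (Fin 3) (Fin 3) F) = (g 0 : Matrix (Fin 3) (Fin 3) F) * Q := by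
      have h := congrArg Units.val e0
      rwa [Units.val_mul (V⁻¹ * m'), Units.val_mul (g 0)] at h
    have e1m : Q * (g 1 : Matrix (Fin 3) (Fin 3) F) = (g 1 : Matrix (Fin 3) (Fin 3) F) * Q := by
      have h := congrArg Units.val e1
      rwa [Units.val_mul (V⁻¹ * m'), Units.val_mul (g 1)] at h
    have hQd : ∀ i j, i ≠ j → Q i j = 0 := by
      intro i j hij
      have h := congrFun (congrFun e0m i) j
      simp only [Matrix.mul_apply, hX] at h
      rw [Finset.sum_eq_single j (fun l _ hl => by rw [if_neg hl, mul_zero]) (by simp),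
        Finset.sum_eq_single i (fun l _ hl => by rw [if_neg (Ne.symm hl), zero_mul]) (by simp), if_pos rfl, if_pos rfl,
        mul_comm] at h
      by_contra hQ
      exact hne i j hij (mul_right_cancel₀ hQ h).symm
    have hQs : ∀ j, Q (j + 1) (j + 1) = Q j j := by
      intro j
      have h := congrFun (congrFun e1m (j + 1)) j
      simp only [Matrix.mul_apply, hY] at h
      rw [Finset.sum_eq_single (j + 1) (fun l _ hl => by rw [if_neg hl, mul_zero]) (by simp),
        Finset.sum_eq_single j (fun l _ hl => by rw [if_neg (fun h' => hl (add_right_cancel h').symm), zero_mul]) (by simp),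
        if_pos rfl, mul_one, one_mul] at h
      exact h
    have hQ : Q = Q 0 0 • 1 := by
      ext i j
      by_cases hij : i = j
      · subst hij
        rw [Matrix.smul_apply, Matrix.one_apply_eq, smul_eq_mul, mul_one]
        fin_cases i
        · rfl
        · exact hQs 0
        · exact (hQs 1).trans (hQs 0)
      · rw [hQd i j hij, Matrix.smul_apply, Matrix.one_apply_ne hij, smul_zero]
    have hVGU : V ∈ Cfsg.GU 3 F 5 := Subgroup.mul_mem _ hNk
      (Subgroup.mul_mem _ (Subgroup.pow_mem _ (hg 0).1.1 _) (Subgroup.pow_mem _ (hg 1).1.1 _))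
    have hs6 : Q 0 0 ^ 6 = 1 := by
      have h := (Subgroup.mul_mem _ (Subgroup.inv_mem _ hVGU) hm'S.1) (Pi.single 0 1) (Pi.single 0 1)
      simp only [Units.coeHom_apply] at h
      rw [show ((V⁻¹ * m' : GL (Fin 3) F) : Matrix (Fin 3) (Fin 3) F) = Q from rfl, hQ, Matrix.smul_mulVec,
        Matrix.one_mulVec] at h
      simp [Cfsg.hermForm, Pi.single_apply, Fin.sum_univ_three] at h
      rw [← h]; ring
    have hdetsq : (SUThreeFive.norms k).det * (SUThreeFive.norms k).det = 1 := by
      apply hπ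
      rw [map_mul, RingHom.map_det, map_one]
      have hm' : (m' : Matrix (Fin 3) (Fin 3) F) = (V : Matrix (Fin 3) (Fin 3) F) * Q := by
        rw [← Units.val_mul, mul_inv_cancel_left]
      have hd := GeoClasses.mem_specialLinear_iff.mp hm'S.2
      have hdg : ∀ (l : Fin 11) (n : ℕ), ((g l ^ n : GL (Fin 3) F) : Matrix (Fin 3) (Fin 3) F).det = 1 := fun l n =>
        GeoClasses.mem_specialLinear_iff.mp (Subgroup.pow_mem _ (hg l).1.2 n)
      rw [hm', Matrix.det_mul, hQ, Matrix.det_smul, Matrix.det_one, mul_one, Fintype.card_fin,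
        show (V : Matrix (Fin 3) (Fin 3) F).det = (Nk : Matrix (Fin 3) (Fin 3) F).det by
          simp only [V, Units.val_mul, Matrix.det_mul, hdg, mul_one], hNkv] at hd
      show ((SUThreeFive.norms k).map π).det * ((SUThreeFive.norms k).map π).det = 1
      linear_combination ((((SUThreeFive.norms k).map π).det * Q 0 0 ^ 3) + 1) * hd -
        ((SUThreeFive.norms k).map π).det ^ 2 * hs6
    have hk8 := (SUThreeFive.norms_gu k).2.1 hdetsq
    have hNL : Nk ∈ groupB π := by
      have : Nk = g ⟨3 + (k : ℕ) % 8, by omega⟩ := Units.ext (by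
        rw [hNkv, (SUThreeFive.norms_gu k).2.2 hk8, hgv])
      rw [this]; exact (hg _).2
    have hVL : V ∈ groupB π := Subgroup.mul_mem _ hNL
      (Subgroup.mul_mem _ (Subgroup.pow_mem _ (hg 0).2 _) (Subgroup.pow_mem _ (hg 1).2 _))
    rw [show m' = V * (V⁻¹ * m') by group]
    exact Subgroup.mul_mem _ hVL (scalar_mem_lineStab _ hQ)
  · intro hXH
    rw [he] at hXH
    obtain ⟨a, b, c, h⟩ := hnorm _ hXH.1 _ (Or.inl rfl)
    rw [show P⁻¹ * (P * g 2 * P⁻¹) * P = g 2 by group, ← hword] at h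
    apply SUThreeFive.witness_heis a b c
    apply map_inj_ring hπ
    rw [map_mul_ring, map_mul_ring, ← h, ← hgv, show SUThreeFive.xm.map π = (g 0 : Matrix (Fin 3) (Fin 3) F) from (hgv 0).symm,
      ← Units.val_mul, ← Units.val_mul, inv_mul_cancel_right]

end Five

section Three

set_option maxHeartbeats 1000000 in
/-- The exception `q = 3` for cubic fields. -/
theorem field_not_maximal_three_three (hF : SqField F 3) {K : Subalgebra F (Matrix (Fin 3) (Fin 3) F)}
    (hK : IsFieldSubalgebra 3 K) (hac : IsAdjointClosedFor (Cfsg.hermForm 3 F 3) K) {H : Subgroup (GL (Fin 3) F)}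
    (hH : IsMaximalIn (suGL 3 F 3) H) : H ≠ subalgebraNormalizer K ⊓ suGL 3 F 3 := by
  classical
  intro he
  haveI := charP_of_sqField Nat.prime_three hF
  haveI : Fact (Nat.Prime 3) := ⟨Nat.prime_three⟩
  obtain ⟨π, hπ, hπc, -⟩ := exists_coordinates (p := 3) (by norm_num) hF (-1) (by rfl)
  haveI : Finite F := hF.1
  letI : Fintype F := Fintype.ofFinite F
  have hc9 : Fintype.card F = 9 := by rw [← Nat.card_eq_fintype_card, hF.2]; norm_num
  have hlift : ∀ k, ∃ g : GL (Fin 3) F,
      g ∈ suGL 3 F 3 ⊓ lineStab (fun j => π ∘ SUThreeThree.vv (SUThreeThree.orb j)) ∧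
        (g : Matrix (Fin 3) (Fin 3) F) = (SUThreeThree.gen k).map π := fun k => by
    obtain ⟨g, hg, hv⟩ := exists_suGL_of_ring hF π (cj := SUThreeThree.cj) hπc (SUThreeThree.gen_su k).1 (SUThreeThree.gen_su k).2
    exact ⟨g, ⟨hg, mem_lineStab_of_ring π hv _ _ (SUThreeThree.orb_mem k)⟩, hv⟩
  choose g hg hgv using hlift
  obtain ⟨T, hT, hTv⟩ := exists_suGL_of_ring hF π (cj := SUThreeThree.cj) hπc SUThreeThree.out_su.1 SUThreeThree.out_su.2
  have hTL := not_mem_lineStab_of_ring π hπ hTv SUThreeThree.moves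
  obtain ⟨b0, bh, bg, bh', bne⟩ := SUThreeThree.gp_base
  have hG : (g 0 : Matrix (Fin 3) (Fin 3) F) = (SUThreeThree.gp 1).map π := by rw [bg, hgv]
  have hHh : (g 1 : Matrix (Fin 3) (Fin 3) F) = (SUThreeThree.hp 1).map π := by rw [bh', hgv]
  have hGp := gp_lift π b0 SUThreeThree.gp_succ hG
  have hHp := gp_lift π bh SUThreeThree.hp_succ hHh
  have hG7 : g 0 ^ 7 = 1 := Units.ext (by
    rw [hGp, Units.val_one, show (Fin.ofNat 7 7 : Fin 7) = 0 from rfl, b0]
    exact Matrix.map_one π (map_zero π) (map_one π))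
  have hG1 : g 0 ≠ 1 := fun h => bne (map_inj_ring hπ (by
    rw [← hG, h, Units.val_one]; exact (Matrix.map_one π (map_zero π) (map_one π)).symm))
  have h3 : (3 : F) = 0 := by exact_mod_cast CharP.cast_eq_zero F 3
  obtain ⟨x, hx, hnorm, hle⟩ := field_conj_three (Hh := g 1) hF hK hac
    (by rw [Matrix.card_GL_field, Fin.prod_univ_three, hc9]; norm_num) (by norm_num) (by norm_num) (by norm_num)
    ⟨1, by linear_combination h3⟩
    (hg 0).1 (hg 1).1 hG7 hG1
    (fun i h => by
      obtain ⟨j, hj⟩ := SUThreeThree.trace_cases i (hπ (by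
        rw [hGp, hG] at h
        rw [Fin.ofNat_val_eq_self] at h
        simpa [Matrix.trace] using h))
      refine ⟨j, Units.ext ?_⟩
      rw [Units.val_mul, Units.val_mul, hGp, hHp, hG, Fin.ofNat_val_eq_self, Fin.ofNat_val_eq_self, ← map_mul_ring,
        ← map_mul_ring, hj])
    (N := SUThreeThree.kinv.map π) (by
      rw [show (Matrix.of fun i (j : Fin 3) => ((g 0 ^ (j : ℕ) : GL (Fin 3) F) : Matrix (Fin 3) (Fin 3) F) i 0) =
        (Matrix.of fun i (j : Fin 3) => SUThreeThree.gp (Fin.castLE (by norm_num) j) i 0).map π from by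
          ext i j
          rw [Matrix.of_apply, Matrix.map_apply, Matrix.of_apply, hGp]
          fin_cases j <;> rfl]
      rw [← map_mul_ring, SUThreeThree.krylov]
      exact Matrix.map_one π (map_zero π) (map_one π))
  refine not_maximal_of_conj hH hx.1 (fun m hm => ?_) hT hTL (hg 2).1 (hg 2).2 ?_
  · exact hle _ (hg 0).2 (hg 1).2 (fun a ⟨c, hc⟩ => scalar_mem_lineStab _ hc) m (he ▸ hm)
  · intro hXH
    obtain ⟨i, hi⟩ := hnorm _ (he ▸ hXH)
    rw [show x⁻¹ * (x * g 2 * x⁻¹) * x = g 2 by group] at hi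
    apply SUThreeThree.witness i
    apply map_inj_ring hπ
    have := congrArg Units.val hi
    rw [Units.val_mul, Units.val_mul, hGp, hG, hgv, Fin.ofNat_val_eq_self, ← map_mul_ring, ← map_mul_ring] at this
    exact this

/-- The exception `q = 3` for real structures: the orthogonal group is monomial. -/
theorem real_le_frame_three (hF : SqField F 3) {F₀ : Subfield F} (hc : Nat.card F₀ = 3) {P₀ : GL (Fin 3) F}
    (hrat : IsFormRationalStructure (Cfsg.hermForm 3 F 3) F₀ 1 P₀) :
    ∃ D : Fin 3 → Submodule F (Fin 3 → F), IsNondegenerateMDecomposition (Cfsg.hermForm 3 F 3) 1 D ∧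
      subfieldSubgroup F₀ P₀ ⊓ suGL 3 F 3 ≤ decompositionStabilizer D := by
  classical
  haveI := charP_of_sqField Nat.prime_three hF
  haveI : Fact (Nat.Prime 3) := ⟨Nat.prime_three⟩
  obtain ⟨P, hP, hreal⟩ := real_conj (by norm_num) hF hc hrat fun d₀ d₁ d₂ h0 h1 h2 =>
    ⟨_, (ThreeDiag.frame_three d₀ d₁ d₂ h0 h1 h2).1, _, fun i j => (ThreeDiag.frame_three d₀ d₁ d₂ h0 h1 h2).2 (i, j)⟩
  let v : Fin 3 → (Fin 3 → F) := fun i => (P : Matrix (Fin 3) (Fin 3) F) *ᵥ Pi.single i 1
  have hvv : ∀ i j, Cfsg.hermForm 3 F 3 (v i) (v j) = if i = j then 1 else 0 := fun i j => by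
    refine (hP _ _).trans ?_
    fin_cases i <;> fin_cases j <;> simp [Cfsg.hermForm, Pi.single_apply, Fin.sum_univ_three]
  have hfr := frame_of_orth hF (by norm_num) (v := v) (fun i => by rw [hvv, if_pos rfl]; exact one_ne_zero)
    fun i j hij => by rw [hvv, if_neg hij]
  refine ⟨_, hfr, fun m hm => ?_⟩
  obtain ⟨s, A, -, hAA, -, hm'⟩ := hreal m hm
  have hcol : ∀ j, ∃ i, ∀ l, l ≠ i → A l j = 0 := fun j => by
    have := congrFun (congrFun hAA j) j
    simp only [Matrix.mul_apply, Matrix.transpose_apply, Fin.sum_univ_three, Matrix.one_apply_eq] at this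
    rcases ThreeDiag.unit_three _ _ _ this with ⟨h, h'⟩ | ⟨h, h'⟩ | ⟨h, h'⟩
    · exact ⟨2, fun l hl => by fin_cases l <;> simp_all⟩
    · exact ⟨1, fun l hl => by fin_cases l <;> simp_all⟩
    · exact ⟨0, fun l hl => by fin_cases l <;> simp_all⟩
  choose σ hσ using hcol
  have hσinj : Function.Injective σ := by
    intro i j hij
    by_contra hne
    have h := congrFun (congrFun hAA i) j
    rw [Matrix.mul_apply, Finset.sum_eq_single (σ i) (fun l _ hl => by rw [Matrix.transpose_apply, hσ i l hl, zero_mul])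
      (by simp), Matrix.one_apply_ne hne, Matrix.transpose_apply] at h
    rcases mul_eq_zero.mp h with h0 | h0
    · have h1 := congrFun (congrFun hAA i) i
      rw [Matrix.mul_apply, Finset.sum_eq_single (σ i) (fun l _ hl => by rw [Matrix.transpose_apply, hσ i l hl, zero_mul])
        (by simp), Matrix.one_apply_eq, Matrix.transpose_apply, h0, zero_mul] at h1
      exact zero_ne_one h1
    · have h1 := congrFun (congrFun hAA j) j
      rw [Matrix.mul_apply, Finset.sum_eq_single (σ i) (fun l _ hl => by rw [Matrix.transpose_apply, hσ j l (hij ▸ hl), zero_mul])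
        (by simp), Matrix.one_apply_eq, Matrix.transpose_apply, h0, zero_mul] at h1
      exact zero_ne_one h1
  refine mem_decompositionStabilizer_of_maps hfr.decomp hσinj fun j x hx => ?_
  obtain ⟨c, rfl⟩ := Submodule.mem_span_singleton.mp hx
  rw [Matrix.mulVec_smul]
  refine Submodule.smul_mem _ _ (Submodule.mem_span_singleton.mpr
    ⟨s * ZMod.castHom (dvd_refl 3) F (A (σ j) j), ?_⟩)
  have hmP : (m : Matrix (Fin 3) (Fin 3) F) * (P : Matrix (Fin 3) (Fin 3) F) =
      (P : Matrix (Fin 3) (Fin 3) F) * (s • A.map (ZMod.castHom (dvd_refl 3) F)) := by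
    rw [← hm', Units.val_mul, Units.val_mul, ← mul_assoc, ← mul_assoc, Units.mul_inv, one_mul]
  show _ = (m : Matrix (Fin 3) (Fin 3) F) *ᵥ ((P : Matrix (Fin 3) (Fin 3) F) *ᵥ Pi.single j 1)
  rw [Matrix.mulVec_mulVec, hmP, ← Matrix.mulVec_mulVec, show v (σ j) = (P : Matrix (Fin 3) (Fin 3) F) *ᵥ Pi.single (σ j) 1 from rfl,
    ← Matrix.mulVec_smul]
  congr 1
  funext l
  rw [Matrix.mulVec_single_one]
  show _ = s * ZMod.castHom (dvd_refl 3) F (A l j)
  by_cases hl : l = σ j
  · subst hl; simp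
  · simp [hσ j l hl, hl]

end Three

end Cfsg.Agent.ClassicalMax
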