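import Cfsg.Agent.ClassicalMax.UnitaryCases
import Cfsg.Agent.ClassicalMax.UnitaryThreeExceptions

/-!
The maximal subgroups of `SU_3(q)`, given the unitary dichotomy.
-/

set_option autoImplicit false
set_option linter.style.haveILetI false

namespace Cfsg.Agent.ClassicalMax

open Matrix Cfsg.Geo
open Cfsg.Agent.Classical.U (SqField sqField_of_fintype)
open scoped MatrixGroups Matrix

variable {F : Type*} [Field F] {q : ℕ}

/-- The maximal subgroups of `SU_3(q)`. -/
theorem su3_cases [Fintype F] (hc : Fintype.card F = q ^ 2) (hq : 3 ≤ q) (hdich : UnitaryDichotomy 3 F q)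
    {H : Subgroup (GL (Fin 3) F)} (hH : IsMaximalIn (suGL 3 F q) H) :
    (∃ W : Submodule F (Fin 3 → F), W ≠ ⊥ ∧ IsTotallySingularFor (Cfsg.hermForm 3 F q) W ∧
      H = subspaceStabilizer W ⊓ suGL 3 F q) ∨
    (∃ W : Submodule F (Fin 3 → F), W ≠ ⊥ ∧ IsNondegenerateOn (Cfsg.hermForm 3 F q) W ∧
      2 * Module.finrank F W < 3 ∧ H = subspaceStabilizer W ⊓ suGL 3 F q) ∨
    (q ≠ 5 ∧ ∃ D : Fin 3 → Submodule F (Fin 3 → F), IsNondegenerateMDecomposition (Cfsg.hermForm 3 F q) 1 D ∧
      H = decompositionStabilizer D ⊓ suGL 3 F q) ∨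
    (q ≠ 3 ∧ q ≠ 5 ∧ ∃ K : Subalgebra F (Matrix (Fin 3) (Fin 3) F), IsFieldSubalgebra 3 K ∧
      IsAdjointClosedFor (Cfsg.hermForm 3 F q) K ∧ H = subalgebraNormalizer K ⊓ suGL 3 F q) ∨
    (∃ (F₀ : Subfield F) (r : ℕ) (P : GL (Fin 3) F), r.Prime ∧ Odd r ∧ Fintype.card F = Nat.card F₀ ^ r ∧
      IsFormRationalStructure (Cfsg.hermForm 3 F q) F₀ 1 P ∧ H = subfieldSubgroup F₀ P ⊓ suGL 3 F q) ∨
    (Odd q ∧ 7 ≤ q ∧ ∃ (F₀ : Subfield F) (P : GL (Fin 3) F), Fintype.card F = Nat.card F₀ ^ 2 ∧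
      IsFormRationalStructure (Cfsg.hermForm 3 F q) F₀ 1 P ∧ H = subfieldSubgroup F₀ P ⊓ suGL 3 F q) ∨
    (∃ (p : ℕ) (R : Subgroup (GL (Fin 3) F)), p.Prime ∧ q = p ∧ p % 3 = 2 ∧ 11 ≤ p ∧
      IsSymplecticTypeGroup 3 R ∧ ActsAbsolutelyIrreducibly (matrixSet R) ∧
      R ≤ similarityGroup (Cfsg.hermForm 3 F q) ∧ Nat.card R = 27 ∧ Nat.card (Subgroup.center R) = 3 ∧
      H = subgroupNormalizer R ⊓ suGL 3 F q) ∨
    InUnitaryResidualClass H := by
  have h3 : Nat.Prime 3 := Nat.prime_three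
  have hF := sqField_of_fintype hc
  rcases su_maximal_cases (n := 3) le_rfl (by norm_num) (by omega) hc hdich hH with h | h |
    ⟨t, k, D, hD, htk, ht, hk, he⟩ | ⟨k, D, hk, -⟩ | h | ⟨hodd, F₀, P, hc₀, hrat, he⟩ | ⟨F₀, P, ζ, hev, -⟩ |
    ⟨r, R, ⟨hR, hirr, hsim, p, j, k, hp, hch, hqp, hj, hdeg, hk, hcase⟩, -, heq⟩ |
    ⟨r, K, hr, -, hrn, hK, hac, he⟩ | ⟨n₁, n₂, e, P, f₁, f₂, h1, h2, hnn, -⟩ | hres
  · exact Or.inl h
  · exact Or.inr (Or.inl h)
  · iterate 2 right
    obtain rfl : k = 1 := by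
      have : k ∣ 3 := ⟨t, by rw [← htk, mul_comm]⟩
      rcases (Nat.dvd_prime h3).mp this with h | h <;> [exact h; (subst h; omega)]
    obtain rfl : t = 3 := by omega
    refine Or.inl ⟨?_, D, hD, he⟩
    rintro rfl
    exact frame_not_maximal_three_five hF hD hH he
  · omega
  · iterate 4 right
    exact Or.inl h
  · have hc0 : Nat.card F₀ = q := (Nat.pow_left_injective two_ne_zero (hc₀.symm.trans hc))
    by_cases h7 : 7 ≤ q
    · iterate 5 right
      exact Or.inl ⟨hodd, h7, F₀, P, hc₀, hrat, he⟩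
    · obtain rfl | rfl : q = 3 ∨ q = 5 := by
        obtain ⟨l, hl⟩ := hodd
        omega
      · obtain ⟨D, hD, hle⟩ := real_le_frame_three hF hc0 hrat
        iterate 2 right
        exact Or.inl ⟨by norm_num, D, hD, eq_inf_max hH (he.le.trans hle)
          (suGL_not_le_frameStabilizer hF le_rfl (by norm_num) hD rfl)⟩
      · exact absurd he (real_not_maximal_three_five hF hc0 hrat hH)
  · exact absurd hev (by decide)
  · iterate 6 right
    obtain rfl : r = 3 := (Nat.prime_dvd_prime_iff_eq hR.prime h3).mp (hdeg ▸ dvd_pow_self r (by omega))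
    obtain rfl : k = 1 := Nat.pow_right_injective (show 2 ≤ 3 by norm_num) (by simpa using hdeg.symm)
    rcases hcase with ⟨-, hZ, hR', hdvd, h1, hmin⟩ | ⟨h, -⟩
    · obtain rfl : j = 1 := by
        have := Nat.le_of_dvd (by norm_num) hdvd
        omega
      obtain rfl : q = p := by simpa using hqp
      have hlt := Nat.mod_lt q (show 3 > 0 by norm_num)
      have hp3 : q % 3 = 2 := by
        have h2 := hmin 1 one_pos (by norm_num)
        have hcast : (q : ZMod 3) = ((q % 3 : ℕ) : ZMod 3) := (ZMod.natCast_mod q 3).symm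
        rw [pow_one, hcast] at h2
        rw [hcast] at h1
        generalize q % 3 = a at h1 h2 hlt ⊢
        interval_cases a <;> first | rfl | (exfalso; revert h1 h2; decide)
      have h27 : Nat.card R = 27 := by rw [hR']; norm_num
      have heq' := heq (by
        rcases Nat.lt_or_ge q 4 with hlt4 | hge
        · exfalso; interval_cases q; simp at hp3
        · exact hge)
      by_cases h11 : 11 ≤ q
      · exact Or.inl ⟨q, R, hp, rfl, hp3, h11, hR, hirr, hsim, h27, hZ, heq'⟩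
      · obtain rfl : q = 5 := by
          interval_cases q <;> first | rfl | omega | (exfalso; revert hp; decide)
        exact absurd heq' (heisenberg_not_maximal_three_five hF hR hirr hsim h27 hZ hH)
    · omega
  · iterate 3 right
    obtain rfl := (Nat.prime_dvd_prime_iff_eq hr h3).mp hrn
    refine Or.inl ⟨?_, ?_, K, hK, hac, he⟩
    · rintro rfl
      exact field_not_maximal_three_three hF hK hac hH he
    · rintro rfl
      exact field_not_maximal_three_five hF hK hac hH he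
  · exfalso
    nlinarith
  · iterate 7 right
    exact hres

end Cfsg.Agent.ClassicalMax
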