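import Cfsg.Agent.ClassicalMax.SympProper
import Cfsg.Agent.ClassicalMax.ClassTwo
import Cfsg.Agent.MaxSub.LinearClasses

/-!
The possible shapes of a maximal subgroup of a symplectic group, given the dichotomy
"inside a member of a geometric class, or residual".
-/

set_option autoImplicit false
set_option linter.style.haveILetI false

namespace Cfsg.Agent.ClassicalMax

open Matrix Cfsg.Geo Cfsg.Agent.Forms
open scoped MatrixGroups Matrix commutatorElement

variable {F : Type*} [Field F] {m : ℕ}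

/-- The restriction of `sympForm` to a subspace. -/
noncomputable def sympRestrict (W : Submodule F (Fin m ⊕ Fin m → F)) : LinearMap.BilinForm F W :=
  (sympBil m F).compl₁₂ W.subtype W.subtype

theorem sympRestrict_apply (W : Submodule F (Fin m ⊕ Fin m → F)) (u v : W) :
    sympRestrict W u v = Cfsg.sympForm m F u v :=
  sympBil_apply _ _

/-- A non-degenerate subspace has even dimension. -/
theorem even_finrank_of_nondegenerateOn {W : Submodule F (Fin m ⊕ Fin m → F)}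
    (hW : IsNondegenerateOn (Cfsg.sympForm m F) W) : Even (Module.finrank F W) := by
  have hA : (sympRestrict W).IsAlt := fun u => by rw [sympRestrict_apply, sympForm_self]
  have hB : (sympRestrict W).Nondegenerate := by
    constructor
    · intro u hu
      by_contra h0
      obtain ⟨-, x, hx, hne⟩ := hW u u.2 fun h => h0 (Subtype.ext h)
      exact hne (by rw [← sympRestrict_apply W u ⟨x, hx⟩]; exact hu _)
    · intro u hu
      by_contra h0
      obtain ⟨⟨x, hx, hne⟩, -⟩ := hW u u.2 fun h => h0 (Subtype.ext h)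
      exact hne (by rw [← sympRestrict_apply W ⟨x, hx⟩ u]; exact hu _)
  obtain ⟨k, b, -⟩ := Forms.exists_symplectic_basis hA hB
  rw [Module.finrank_eq_card_basis b, Fintype.card_sum, Fintype.card_fin]
  exact ⟨k, rfl⟩

theorem one_lt_of_symplecticForm {n : ℕ} (hn : 0 < n) {f : (Fin n → F) → (Fin n → F) → F}
    (hf : IsSymplecticForm f) : 2 ≤ n := by
  by_contra hc
  obtain rfl : n = 1 := by omega
  have h1 : (Pi.single 0 1 : Fin 1 → F) ≠ 0 := by simp
  obtain ⟨-, x, hx⟩ := hf.nondegenerate _ h1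
  have : x = x 0 • (Pi.single 0 1 : Fin 1 → F) := funext fun i => by fin_cases i; simp
  rw [this, hf.bilinear.smul_right, hf.alternating, mul_zero] at hx
  exact hx rfl

theorem card_fin_sum : Fintype.card (Fin m ⊕ Fin m) = 2 * m := by
  rw [Fintype.card_sum, Fintype.card_fin]; omega

/-- A group of minus type of the symplectic case has class two and scalar centre. -/
theorem sympType_class_two [Finite F] {R : Subgroup (GL (Fin m ⊕ Fin m) F)}
    (hR : IsSymplecticTypeGroup 2 R) (hZ : Nat.card (Subgroup.center R) = 2) :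
    commutator R ≤ Subgroup.center R := by
  haveI : Fact (Nat.Prime 2) := ⟨Nat.prime_two⟩
  haveI : Group.IsNilpotent R := hR.pGroup.isNilpotent
  refine commutator_le_center_of_exponent_four (fun x => ?_) hR.cyclic_of_characteristic hZ
  have h := Monoid.pow_exponent_eq_one x
  rwa [hR.exponent_eq] at h

theorem sympType_degree [Finite F] (hm : 0 < m) {k : ℕ} {R : Subgroup (GL (Fin m ⊕ Fin m) F)}
    (hR : IsSymplecticTypeGroup 2 R) (hirr : ActsAbsolutelyIrreducibly (matrixSet R))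
    (hc : Nat.card R = 2 ^ (1 + 2 * k)) (hZ : Nat.card (Subgroup.center R) = 2) : 2 * m = 2 ^ k := by
  haveI : Nonempty (Fin m ⊕ Fin m) := ⟨.inl ⟨0, hm⟩⟩
  have hsq := MaxSub.sq_card_eq_index_center hirr (sympType_class_two hR hZ)
  have hmul := (Subgroup.center R).card_mul_index
  rw [hc, hZ, pow_add, pow_one, ← hsq, card_fin_sum] at hmul
  have := Nat.eq_of_mul_eq_mul_left two_pos hmul
  rw [mul_comm 2 k, pow_mul] at this
  exact Nat.pow_left_injective two_ne_zero this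

/-- The symplectic dichotomy. -/
def SymplecticDichotomy (m : ℕ) (F : Type*) [Field F] [Fintype F] : Prop :=
  ∀ H : Subgroup (GL (Fin m ⊕ Fin m) F), H ≤ Cfsg.spGL m F →
    H ⊔ (scalars (Fin m ⊕ Fin m) F ⊓ Cfsg.spGL m F) ≠ Cfsg.spGL m F →
    (∃ M, InSymplecticClass m F M ∧ H ≤ M) ∨ InSymplecticResidualClass H

/-- The possible shapes of a maximal subgroup of `Sp_2m`, given the dichotomy. -/
theorem sp_maximal_cases [Fintype F] (hm : 2 ≤ m)
    (hcond : 3 ≤ m ∨ (m = 2 ∧ 3 ≤ Fintype.card F) ∨ 4 ≤ Fintype.card F) (hdich : SymplecticDichotomy m F)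
    {H : Subgroup (GL (Fin m ⊕ Fin m) F)} (hH : IsMaximalIn (Cfsg.spGL m F) H) :
    (∃ W : Submodule F (Fin m ⊕ Fin m → F), W ≠ ⊥ ∧ IsTotallySingularFor (Cfsg.sympForm m F) W ∧
      H = subspaceStabilizer W ⊓ Cfsg.spGL m F) ∨
    (∃ W : Submodule F (Fin m ⊕ Fin m → F), W ≠ ⊥ ∧ IsNondegenerateOn (Cfsg.sympForm m F) W ∧
      Module.finrank F W < m ∧ 2 ≤ Module.finrank F W ∧ H = subspaceStabilizer W ⊓ Cfsg.spGL m F) ∨
    (∃ (t k : ℕ) (D : Fin t → Submodule F (Fin m ⊕ Fin m → F)),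
      IsNondegenerateMDecomposition (Cfsg.sympForm m F) k D ∧ t * k = 2 * m ∧ Even k ∧ 2 ≤ t ∧ 2 ≤ k ∧
      H = decompositionStabilizer D ⊓ Cfsg.spGL m F) ∨
    (Odd (Fintype.card F) ∧ ∃ D : Fin 2 → Submodule F (Fin m ⊕ Fin m → F), IsMDecomposition m D ∧
      (∀ i, IsTotallySingularFor (Cfsg.sympForm m F) (D i)) ∧ H = decompositionStabilizer D ⊓ Cfsg.spGL m F) ∨
    (∃ (F₀ : Subfield F) (r : ℕ) (P : GL (Fin m ⊕ Fin m) F) (ζ : F), r.Prime ∧
      Fintype.card F = Nat.card F₀ ^ r ∧ ζ ≠ 0 ∧ IsFormRationalStructure (Cfsg.sympForm m F) F₀ ζ P ∧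
      H = subfieldSubgroup F₀ P ⊓ Cfsg.spGL m F) ∨
    (∃ (R : Subgroup (GL (Fin m ⊕ Fin m) F)) (p k : ℕ), IsSymplecticTypeGroup 2 R ∧
      ActsAbsolutelyIrreducibly (matrixSet R) ∧ R ≤ similarityGroup (Cfsg.sympForm m F) ∧ p.Prime ∧ Odd p ∧
      Fintype.card F = p ∧ Nat.card R = 2 ^ (1 + 2 * k) ∧ Nat.card (Subgroup.center R) = 2 ∧
      IsOfMinusType k R ∧ 2 * m = 2 ^ k ∧ H ≤ subgroupNormalizer R) ∨
    (¬ Odd (Fintype.card F) ∧ ∃ Q : (Fin m ⊕ Fin m → F) → F, IsNondegenerateQuadraticForm Q ∧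
      (∀ u v, QuadraticMap.polar Q u v = Cfsg.sympForm m F u v) ∧ H = quadSimilarityGroup Q ⊓ Cfsg.spGL m F) ∨
    (∃ (r : ℕ) (K : Subalgebra F (Matrix (Fin m ⊕ Fin m) (Fin m ⊕ Fin m) F)), r.Prime ∧ r ∣ 2 * m ∧
      IsFieldSubalgebra r K ∧ IsSelfAdjointFor (Cfsg.sympForm m F) K ∧
      (∀ k ∈ K, ∀ v, Cfsg.sympForm m F (k *ᵥ v) v = 0) ∧ H = subalgebraNormalizer K ⊓ Cfsg.spGL m F) ∨
    (Odd (Fintype.card F) ∧ ∃ K : Subalgebra F (Matrix (Fin m ⊕ Fin m) (Fin m ⊕ Fin m) F),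
      IsFieldSubalgebra 2 K ∧ IsAdjointClosedFor (Cfsg.sympForm m F) K ∧
      ¬ IsSelfAdjointFor (Cfsg.sympForm m F) K ∧ H = subalgebraNormalizer K ⊓ Cfsg.spGL m F) ∨
    (∃ (n₁ n₂ : ℕ) (e : (Fin m ⊕ Fin m) ≃ Fin n₁ × Fin n₂) (P : GL (Fin m ⊕ Fin m) F)
      (f₁ : (Fin n₁ → F) → (Fin n₁ → F) → F) (f₂ : (Fin n₂ → F) → (Fin n₂ → F) → F),
      Odd (Fintype.card F) ∧ 2 ≤ n₁ ∧ 3 ≤ n₂ ∧ n₁ * n₂ = 2 * m ∧ IsSymplecticForm f₁ ∧ IsSymmetricForm f₂ ∧
      IsTensorFormStructure id (Cfsg.sympForm m F) f₁ f₂ e P ∧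
      H = tensorProductSubgroup n₁ n₂ e P ⊓ Cfsg.spGL m F) ∨
    (∃ (k t : ℕ), 2 ≤ k ∧ 3 ≤ t ∧ k ^ t = 2 * m) ∨
    InSymplecticResidualClass H := by
  have hperf := spGL_commutator hcond
  haveI : Nonempty (Fin m ⊕ Fin m) := ⟨.inl ⟨0, by omega⟩⟩
  rcases hdich H hH.1.le (sup_scalars_ne_of_perfect hperf hH) with ⟨M, hM, hle⟩ | hres
  swap
  · iterate 11 right
    exact hres
  rcases hM with hM | ⟨r, K, hr, hK, hsa, halt, rfl⟩ | ⟨K, hodd, hK, hac, hns, rfl⟩ |
    ⟨n₁, n₂, e, P, f₁, f₂, hodd, h2, hf₁, hf₂, hs, rfl⟩ | ⟨k, t, e, P, f₁, hodd, hto, ht, -, hf₁, -, rfl⟩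
  · rcases hM with ⟨W, hb, hts, rfl⟩ | ⟨W, hb, hnd, hdim, rfl⟩ | ⟨t, k, D, hD, rfl⟩ | ⟨D, hodd, hD, hts, rfl⟩ |
      ⟨F₀, r, P, ζ, hr, hc, hζ, hrat, rfl⟩ | ⟨R, p, k, hR, hirr, hsim, hp, hpodd, hc, hcard, hZ, hminus, rfl⟩ |
      ⟨Q, hev, hQ, hpol, rfl⟩
    · left
      refine ⟨W, hb, hts, eq_inf_max hH (hle.trans inf_le_left) (spGL_not_le_stabilizer hb fun h => ?_)⟩
      obtain ⟨x, hx⟩ := exists_sympForm_ne_zero (F := F) (m := m)
        (v := Pi.single (Sum.inl ⟨0, by omega⟩) 1) (by simp)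
      exact hx (hts _ (h ▸ Submodule.mem_top) _ (h ▸ Submodule.mem_top))
    · iterate 1 right
      have hev := even_finrank_of_nondegenerateOn hnd
      have hpos : Module.finrank F W ≠ 0 := fun h => hb (Submodule.finrank_eq_zero.mp h)
      refine Or.inl ⟨W, hb, hnd, hdim, by obtain ⟨j, hj⟩ := hev; omega,
        eq_inf_max hH (hle.trans inf_le_left) (spGL_not_le_stabilizer hb fun h => ?_)⟩
      rw [h, finrank_top, Module.finrank_fintype_fun_eq_card, card_fin_sum] at hdim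
      omega
    · iterate 2 right
      have hev : Even k := by
        have := even_finrank_of_nondegenerateOn (hD.nondegenerate ⟨0, by have := hD.decomp.two_le; omega⟩)
        rwa [hD.decomp.finrank_eq] at this
      have hk : 2 ≤ k := by obtain ⟨j, hj⟩ := hev; have := hD.decomp.pos; omega
      exact Or.inl ⟨t, k, D, hD, by rw [MaxSub.mul_eq_card_of_isMDecomposition hD.decomp, card_fin_sum], hev,
        hD.decomp.two_le, hk, eq_inf_max hH (hle.trans inf_le_left) (spGL_not_le_decompositionStabilizer hD.decomp hk)⟩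
    · iterate 3 right
      exact Or.inl ⟨hodd, D, hD, hts, eq_inf_max hH (hle.trans inf_le_left) (spGL_not_le_decompositionStabilizer hD hm)⟩
    · iterate 4 right
      exact Or.inl ⟨F₀, r, P, ζ, hr, hc, hζ, hrat, eq_inf_max hH (hle.trans inf_le_left)
        (spGL_not_le_subfieldSubgroup (by omega) hperf (MaxSub.subfield_ne_top hr hc) P)⟩
    · iterate 5 right
      exact Or.inl ⟨R, p, k, hR, hirr, hsim, hp, hpodd, hc, hcard, hZ, hminus,
        sympType_degree (by omega) hR hirr hcard hZ, hle.trans inf_le_left⟩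
    · iterate 6 right
      exact Or.inl ⟨hev, Q, hQ, hpol, eq_inf_max hH (hle.trans inf_le_left) (spGL_not_le_quadSimilarityGroup hm hpol)⟩
  · iterate 7 right
    refine Or.inl ⟨r, K, hr, ?_, hK, hsa, halt,
      eq_inf_max hH (hle.trans inf_le_left) (spGL_not_le_subalgebraNormalizer hm hr.one_lt hK)⟩
    have h := MaxSub.degree_dvd_card hK
    rwa [card_fin_sum] at h
  · iterate 8 right
    exact Or.inl ⟨hodd, K, hK, hac, hns,
      eq_inf_max hH (hle.trans inf_le_left) (spGL_not_le_subalgebraNormalizer hm one_lt_two hK)⟩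
  · iterate 9 right
    have hn : n₁ * n₂ = 2 * m := by
      rw [← card_fin_sum, Fintype.card_congr e, Fintype.card_prod, Fintype.card_fin, Fintype.card_fin]
    have h1 : 2 ≤ n₁ := one_lt_of_symplecticForm (Nat.pos_of_ne_zero fun h => by rw [h, zero_mul] at hn; omega) hf₁
    exact Or.inl ⟨n₁, n₂, e, P, f₁, f₂, hodd, h1, h2, hn, hf₁, hf₂, hs,
      eq_inf_max hH (hle.trans inf_le_left) (spGL_not_le_tensorProductSubgroup (by omega) h1 (by omega) e P)⟩
  · iterate 10 right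
    have hn : k ^ t = 2 * m := by rw [← card_fin_sum, Fintype.card_congr e]; simp
    have hk : 2 ≤ k := one_lt_of_symplecticForm
      (Nat.pos_of_ne_zero fun h => by rw [h, zero_pow (by omega)] at hn; omega) hf₁
    exact Or.inl ⟨k, t, hk, ht, hn⟩

end Cfsg.Agent.ClassicalMax
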