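import Cfsg.Agent.ClassicalMax.SympExceptions

/-!
In `Sp_4(3)` the stabiliser of two complementary totally isotropic planes lies in the stabiliser of an
orthogonal decomposition into non-degenerate planes.
-/

set_option autoImplicit false

namespace Cfsg.Agent.ClassicalMax

open Matrix Cfsg.Geo Module Cfsg.Agent.Forms
open scoped MatrixGroups Matrix

variable {F : Type*} [Field F]

/-- A linear map of `Sp_4` carries decompositions to decompositions. -/
theorem mem_decompositionStabilizer_of_map_le {ι : Type} [Fintype ι] [DecidableEq ι] {t k : ℕ}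
    {D : Fin t → Submodule F (ι → F)} (hD : IsMDecomposition k D) {g : GL ι F} (σ : Equiv.Perm (Fin t))
    (h : ∀ i, ∀ x ∈ D i, (g : Matrix ι ι F) *ᵥ x ∈ D (σ i)) : g ∈ decompositionStabilizer D := by
  refine ⟨σ, fun i => ?_⟩
  apply Submodule.eq_of_le_of_finrank_eq
  · rintro _ ⟨x, hx, rfl⟩
    rw [Matrix.toLin'_apply]
    exact h i x hx
  · have hinj : Function.Injective (Matrix.toLin' (g : Matrix ι ι F)) := by
      intro x y hxy
      have := congrArg (fun z => ((g⁻¹ : GL ι F) : Matrix ι ι F) *ᵥ z) hxy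
      simpa [Matrix.mulVec_mulVec] using this
    rw [← LinearEquiv.finrank_eq (Submodule.equivMapOfInjective _ hinj (D i)), hD.finrank_eq, hD.finrank_eq]

/-- The exception `q = 3` for pairs of totally isotropic planes. -/
theorem pair_le_decomposition_three [Fintype F] (hF : Fintype.card F = 3)
    {D : Fin 2 → Submodule F (Fin 2 ⊕ Fin 2 → F)} (hD : IsMDecomposition 2 D)
    (hts : ∀ i, IsTotallySingularFor (Cfsg.sympForm 2 F) (D i)) :
    ∃ D' : Fin 2 → Submodule F (Fin 2 ⊕ Fin 2 → F), IsNondegenerateMDecomposition (Cfsg.sympForm 2 F) 2 D' ∧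
      decompositionStabilizer D ⊓ Cfsg.spGL 2 F ≤ decompositionStabilizer D' := by
  classical
  set B := sympBil 2 F
  have hB : ∀ u v, B u v = Cfsg.sympForm 2 F u v := sympBil_apply
  have hsw : ∀ u v, B u v = -B v u := fun u v => by rw [hB, hB]; exact sympForm_swap _ _
  have h3 : (3 : F) = 0 := by
    have := Nat.cast_card_eq_zero F
    rw [hF] at this
    exact_mod_cast this
  have h2 : (2 : F) ≠ 0 := fun h => one_ne_zero (α := F) (by linear_combination h3 - h)
  have hsq : ∀ d : F, d ≠ 0 → d * d = 1 := fun d hd => by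
    have := FiniteField.pow_card_sub_one_eq_one d hd
    rw [hF] at this
    linear_combination this
  have hD0 : ∀ x ∈ D 0, ∀ y ∈ D 0, B x y = 0 := fun x hx y hy => (hB x y).trans (hts 0 x hx y hy)
  have hD1 : ∀ x ∈ D 1, ∀ y ∈ D 1, B x y = 0 := fun x hx y hy => (hB x y).trans (hts 1 x hx y hy)
  have hsup : D 0 ⊔ D 1 = ⊤ := by
    rw [← hD.iSup_eq_top]
    exact le_antisymm (sup_le (le_iSup D 0) (le_iSup D 1))
      (iSup_le fun i => by fin_cases i; exacts [le_sup_left, le_sup_right])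
  have hnull : ∀ w, (∀ x ∈ D 0, B x w = 0) → (∀ x ∈ D 1, B x w = 0) → w = 0 := by
    intro w h0 h1
    by_contra hw
    obtain ⟨y, hy⟩ := exists_sympForm_ne_zero hw
    apply hy
    obtain ⟨a, ha, b, hb, rfl⟩ := Submodule.mem_sup.mp (hsup ▸ Submodule.mem_top : y ∈ D 0 ⊔ D 1)
    rw [← hB, map_add, LinearMap.add_apply, h0 a ha, h1 b hb, add_zero]
  -- dual bases
  let b0 : Basis (Fin 2) F (D 0) := Module.finBasisOfFinrankEq F (D 0) (hD.finrank_eq 0)
  let e : Fin 2 → (Fin 2 ⊕ Fin 2 → F) := fun i => b0 i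
  have he : ∀ i, e i ∈ D 0 := fun i => (b0 i).2
  have he0 : ∀ x ∈ D 0, ∃ a c : F, x = a • e 0 + c • e 1 := fun x hx => by
    refine ⟨b0.repr ⟨x, hx⟩ 0, b0.repr ⟨x, hx⟩ 1, ?_⟩
    have := congrArg Subtype.val (b0.sum_repr ⟨x, hx⟩)
    rw [Fin.sum_univ_two] at this
    exact this.symm
  let L : D 1 →ₗ[F] (Fin 2 → F) := LinearMap.pi fun i => (B (e i)).comp (D 1).subtype
  have hL : Function.Injective L := by
    rw [injective_iff_map_eq_zero]
    intro w hw
    apply Subtype.ext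
    refine hnull _ (fun x hx => ?_) fun x hx => hD1 x hx _ w.2
    obtain ⟨a, c, rfl⟩ := he0 x hx
    have e0 : B (e 0) (w : _) = 0 := congrFun hw 0
    have e1 : B (e 1) (w : _) = 0 := congrFun hw 1
    simp [e0, e1]
  have hLs : Function.Surjective L := (LinearMap.injective_iff_surjective_of_finrank_eq_finrank
    (by rw [hD.finrank_eq, Module.finrank_fin_fun])).mp hL
  choose f' hf' using fun j => hLs (Pi.single j (1 : F))
  let f : Fin 2 → (Fin 2 ⊕ Fin 2 → F) := fun j => f' j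
  have hf : ∀ j, f j ∈ D 1 := fun j => (f' j).2
  have hef : ∀ i j, B (e i) (f j) = if i = j then 1 else 0 := fun i j => by
    have : B (e i) (f j) = (Pi.single j (1 : F) : Fin 2 → F) i := congrFun (hf' j) i
    rw [this, Pi.single_apply]
  have hfe : ∀ j i, B (f j) (e i) = if i = j then -1 else 0 := fun j i => by
    rw [hsw, hef]; split <;> simp
  have hx0 : ∀ x ∈ D 0, x = B x (f 0) • e 0 + B x (f 1) • e 1 := fun x hx => by
    obtain ⟨a, c, rfl⟩ := he0 x hx
    simp [hef]
  have hx1 : ∀ y ∈ D 1, y = B (e 0) y • f 0 + B (e 1) y • f 1 := fun y hy => by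
    have : L ⟨y, hy⟩ = L (B (e 0) y • f' 0 + B (e 1) y • f' 1) := by
      rw [map_add, map_smul, map_smul, hf', hf']
      funext i
      fin_cases i <;> simp [L]
    exact congrArg Subtype.val (hL this)
  -- the two planes
  let sg : Fin 2 → F := ![1, -1]
  have hsg : ∀ s, sg s ≠ 0 := fun s => by fin_cases s <;> simp [sg]
  let u : Fin 2 → (Fin 2 ⊕ Fin 2 → F) := fun s => e 0 - sg s • f 1
  let v : Fin 2 → (Fin 2 ⊕ Fin 2 → F) := fun s => e 1 + sg s • f 0
  have hee : ∀ i j, B (e i) (e j) = 0 := fun i j => hD0 _ (he i) _ (he j)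
  have hff : ∀ i j, B (f i) (f j) = 0 := fun i j => hD1 _ (hf i) _ (hf j)
  have huu : ∀ s t, B (u s) (u t) = 0 := fun s t => by simp [u, hee, hff, hef, hfe]
  have hvv : ∀ s t, B (v s) (v t) = 0 := fun s t => by simp [v, hee, hff, hef, hfe]
  have huv : ∀ s t, B (u s) (v t) = sg s + sg t := fun s t => by simp [u, v, hee, hff, hef, hfe]; ring
  have hvu : ∀ s t, B (v t) (u s) = -(sg s + sg t) := fun s t => by rw [hsw, huv]
  let V : Fin 2 → Submodule F (Fin 2 ⊕ Fin 2 → F) := fun s => Submodule.span F {u s, v s}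
  have hVmem : ∀ s x, x ∈ V s → ∃ a c : F, x = a • u s + c • v s := fun s x hx => by
    obtain ⟨a, c, h⟩ := Submodule.mem_span_pair.mp hx
    exact ⟨a, c, h.symm⟩
  have hmemV : ∀ s (a c : F), a • u s + c • v s ∈ V s := fun s a c =>
    Submodule.mem_span_pair.mpr ⟨a, c, rfl⟩
  have hne2 : ∀ s, sg s + sg s ≠ 0 := fun s h => hsg s (by
    rw [← two_mul] at h
    exact (mul_eq_zero.mp h).resolve_left h2)
  have hnd : ∀ s, IsNondegenerateOn (Cfsg.sympForm 2 F) (V s) := by
    intro s w hw hw0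
    obtain ⟨a, c, rfl⟩ := hVmem s w hw
    have key : ∃ x ∈ V s, B x (a • u s + c • v s) ≠ 0 := by
      by_cases hc : c = 0
      · refine ⟨v s, by simpa using hmemV s 0 1, ?_⟩
        have ha : a ≠ 0 := fun ha => hw0 (by simp [ha, hc])
        simp only [hc, map_add, map_smul, hvu, hvv, smul_eq_mul, zero_mul, mul_zero, add_zero]
        exact mul_ne_zero ha (neg_ne_zero.mpr (hne2 s))
      · refine ⟨u s, by simpa using hmemV s 1 0, ?_⟩
        simp only [map_add, map_smul, huu, huv, smul_eq_mul, mul_zero, zero_add]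
        exact mul_ne_zero hc (hne2 s)
    obtain ⟨x, hx, hxw⟩ := key
    refine ⟨⟨x, hx, by rwa [← hB]⟩, ⟨x, hx, ?_⟩⟩
    rw [← hB, hsw, neg_ne_zero]
    exact hxw
  have horth : ∀ s t, s ≠ t → ∀ x ∈ V s, ∀ y ∈ V t, B x y = 0 := by
    intro s t hst x hx y hy
    obtain ⟨a, c, rfl⟩ := hVmem s x hx
    obtain ⟨a', c', rfl⟩ := hVmem t y hy
    have hs : sg s + sg t = 0 := by
      fin_cases s <;> fin_cases t <;> simp [sg] at hst ⊢
    have hs' : sg t + sg s = 0 := by rw [add_comm]; exact hs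
    simp [huu, hvv, huv, hvu, hs, hs']
  have hli : LinearIndependent F (fun p : Fin 2 × Fin 2 => if p.1 = 0 then u p.2 else v p.2) := by
    rw [Fintype.linearIndependent_iff]
    intro g hg
    simp only [Fintype.sum_prod_type, Fin.sum_univ_two] at hg
    have h01 : sg 0 + sg 1 = 0 := by simp [sg]
    have h10 : sg 1 + sg 0 = 0 := by simp [sg]
    have k1 := congrArg (B (u 0)) hg
    have k2 := congrArg (B (u 1)) hg
    have k3 := congrArg (B (v 0)) hg
    have k4 := congrArg (B (v 1)) hg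
    simp [huu, huv, hvv, hvu, h01, h10] at k1 k2 k3 k4
    rintro ⟨i, j⟩
    fin_cases i <;> fin_cases j
    · exact k3.resolve_right fun h => hne2 0 (by linear_combination -h)
    · exact k4.resolve_right fun h => hne2 1 (by linear_combination -h)
    · exact k1.resolve_right (hne2 0)
    · exact k2.resolve_right (hne2 1)
  let b := basisOfLinearIndependentOfCardEqFinrank hli (by simp)
  have hbV : ∀ s, V s = Submodule.span F (Set.range fun l => b (l, s)) := fun s => by
    simp only [V, b, coe_basisOfLinearIndependentOfCardEqFinrank]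
    congr 1
    ext x
    simp [Fin.exists_fin_two, eq_comm]
  have hVdec : IsMDecomposition 2 V := by
    rw [show V = fun s => Submodule.span F (Set.range fun l => b (l, s)) from funext hbV]
    exact isMDecomposition_of_basis le_rfl two_pos b
  refine ⟨V, ⟨hVdec, hnd, fun s t hst => ?_⟩, ?_⟩
  · intro x hx y hy
    exact (hB x y).symm.trans (horth s t hst x hx y hy)
  rintro g ⟨⟨π, hπ⟩, hg⟩
  set G : (Fin 2 ⊕ Fin 2 → F) →ₗ[F] (Fin 2 ⊕ Fin 2 → F) := Matrix.toLin' (g : Matrix _ _ F)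
  have hgB : ∀ x y, B (G x) (G y) = B x y := fun x y => by rw [hB, hB]; exact hg x y
  have hmap : ∀ i, ∀ x ∈ D i, G x ∈ D (π i) := fun i x hx => hπ i ▸ Submodule.mem_map_of_mem hx
  -- it suffices to move the two spanning vectors of each plane
  suffices hmove : ∃ (d : F), d ≠ 0 ∧ ∀ s t, sg t = sg s * d → G (u s) ∈ V t ∧ G (v s) ∈ V t by
    obtain ⟨d, hd, hmove⟩ := hmove
    have hdd : d = 1 ∨ d = -1 := mul_self_eq_one_iff.mp (hsq d hd)
    have hσ : ∃ σ : Equiv.Perm (Fin 2), ∀ s, sg (σ s) = sg s * d := by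
      rcases hdd with rfl | rfl
      · exact ⟨1, fun s => by simp⟩
      · exact ⟨Equiv.swap 0 1, fun s => by fin_cases s <;> simp [sg]⟩
    obtain ⟨σ, hσ⟩ := hσ
    refine mem_decompositionStabilizer_of_map_le hVdec σ fun s x hx => ?_
    obtain ⟨a, c, rfl⟩ := hVmem s x hx
    obtain ⟨h1, h2⟩ := hmove s (σ s) (hσ s)
    show (g : Matrix _ _ F) *ᵥ (a • u s + c • v s) ∈ V (σ s)
    rw [← Matrix.toLin'_apply, map_add, map_smul, map_smul]
    exact add_mem (Submodule.smul_mem _ _ h1) (Submodule.smul_mem _ _ h2)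
  have hcase : π 0 = 0 ∧ π 1 = 1 ∨ π 0 = 1 ∧ π 1 = 0 := by
    have := π.injective.ne (show (0 : Fin 2) ≠ 1 by decide)
    revert this
    generalize π 0 = x
    generalize π 1 = y
    fin_cases x <;> fin_cases y <;> simp
  have g00 := hgB (e 0) (f 0)
  have g01 := hgB (e 0) (f 1)
  have g10 := hgB (e 1) (f 0)
  have g11 := hgB (e 1) (f 1)
  rcases hcase with ⟨p0, p1⟩ | ⟨p0, p1⟩
  · obtain ⟨a, c, E0⟩ : ∃ a c : F, G (e 0) = a • e 0 + c • e 1 := ⟨_, _, hx0 _ (Eq.subst (motive := fun z => G (e 0) ∈ D z) p0 (hmap 0 (e 0) (he 0)))⟩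
    obtain ⟨b', d', E1⟩ : ∃ a c : F, G (e 1) = a • e 0 + c • e 1 := ⟨_, _, hx0 _ (Eq.subst (motive := fun z => G (e 1) ∈ D z) p0 (hmap 0 (e 1) (he 1)))⟩
    obtain ⟨x0, y0, Fw0⟩ : ∃ x y : F, G (f 0) = x • f 0 + y • f 1 := ⟨_, _, hx1 _ (Eq.subst (motive := fun z => G (f 0) ∈ D z) p1 (hmap 1 (f 0) (hf 0)))⟩
    obtain ⟨x1, y1, Fw1⟩ : ∃ x y : F, G (f 1) = x • f 0 + y • f 1 := ⟨_, _, hx1 _ (Eq.subst (motive := fun z => G (f 1) ∈ D z) p1 (hmap 1 (f 1) (hf 1)))⟩
    simp [E0, E1, Fw0, Fw1, hee, hff, hef, hfe] at g00 g01 g10 g11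
    have hΔ : a * d' - b' * c ≠ 0 := fun h => one_ne_zero (α := F) (by
      linear_combination (x0 * y1 - x1 * y0) * h - (b' * x1 + d' * y1) * g00 + (b' * x0 + d' * y0) * g01 - g11)
    refine ⟨_, hΔ, fun s t ht => ?_⟩
    have hinv := hsq _ hΔ
    have ex0 : x0 = (a * d' - b' * c) * d' := by
      linear_combination -x0 * hinv + (a*d'-b'*c) * d' * g00 - (a*d'-b'*c) * c * g10
    have ey0 : y0 = -((a * d' - b' * c) * b') := by
      linear_combination -y0 * hinv - (a*d'-b'*c) * b' * g00 + (a*d'-b'*c) * a * g10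
    have ex1 : x1 = -((a * d' - b' * c) * c) := by
      linear_combination -x1 * hinv + (a*d'-b'*c) * d' * g01 - (a*d'-b'*c) * c * g11
    have ey1 : y1 = (a * d' - b' * c) * a := by
      linear_combination -y1 * hinv - (a*d'-b'*c) * b' * g01 + (a*d'-b'*c) * a * g11
    constructor
    · convert hmemV t a c using 1
      simp only [u, v, map_sub, map_smul, ht, E0, Fw1, ex1, ey1]
      module
    · convert hmemV t b' d' using 1
      simp only [u, v, map_add, map_smul, ht, E1, Fw0, ex0, ey0]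
      module
  · obtain ⟨a, c, E0⟩ : ∃ a c : F, G (e 0) = a • f 0 + c • f 1 := ⟨_, _, hx1 _ (Eq.subst (motive := fun z => G (e 0) ∈ D z) p0 (hmap 0 (e 0) (he 0)))⟩
    obtain ⟨b', d', E1⟩ : ∃ a c : F, G (e 1) = a • f 0 + c • f 1 := ⟨_, _, hx1 _ (Eq.subst (motive := fun z => G (e 1) ∈ D z) p0 (hmap 0 (e 1) (he 1)))⟩
    obtain ⟨x0, y0, Fw0⟩ : ∃ x y : F, G (f 0) = x • e 0 + y • e 1 := ⟨_, _, hx0 _ (Eq.subst (motive := fun z => G (f 0) ∈ D z) p1 (hmap 1 (f 0) (hf 0)))⟩
    obtain ⟨x1, y1, Fw1⟩ : ∃ x y : F, G (f 1) = x • e 0 + y • e 1 := ⟨_, _, hx0 _ (Eq.subst (motive := fun z => G (f 1) ∈ D z) p1 (hmap 1 (f 1) (hf 1)))⟩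
    simp [E0, E1, Fw0, Fw1, hee, hff, hef, hfe] at g00 g01 g10 g11
    have hΔ : a * d' - b' * c ≠ 0 := fun h => one_ne_zero (α := F) (by
      linear_combination (x0 * y1 - x1 * y0) * h + (b' * x1 + d' * y1) * g00 - (b' * x0 + d' * y0) * g01 - g11)
    refine ⟨_, hΔ, fun s t ht => ?_⟩
    have hinv := hsq _ hΔ
    have hs2 := hsq _ (hsg s)
    have ex0 : x0 = -((a * d' - b' * c) * d') := by
      linear_combination -x0 * hinv - (a*d'-b'*c) * d' * g00 + (a*d'-b'*c) * c * g10
    have ey0 : y0 = (a * d' - b' * c) * b' := by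
      linear_combination -y0 * hinv + (a*d'-b'*c) * b' * g00 - (a*d'-b'*c) * a * g10
    have ex1 : x1 = (a * d' - b' * c) * c := by
      linear_combination -x1 * hinv - (a*d'-b'*c) * d' * g01 + (a*d'-b'*c) * c * g11
    have ey1 : y1 = -((a * d' - b' * c) * a) := by
      linear_combination -y1 * hinv + (a*d'-b'*c) * b' * g01 - (a*d'-b'*c) * a * g11
    constructor
    · have k1 : sg t * (-sg s * y1) = a := by
        rw [ht, ey1]; linear_combination a * (a*d'-b'*c) * (a*d'-b'*c) * hs2 + a * hinv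
      have k2 : -(sg t * (-sg s * x1)) = c := by
        rw [ht, ex1]; linear_combination c * (a*d'-b'*c) * (a*d'-b'*c) * hs2 + c * hinv
      convert hmemV t (-sg s * x1) (-sg s * y1) using 1
      simp only [u, v, map_sub, map_smul, E0, Fw1]
      rw [← k1, ← k2]
      module
    · have k1 : sg t * (sg s * y0) = b' := by
        rw [ht, ey0]; linear_combination b' * (a*d'-b'*c) * (a*d'-b'*c) * hs2 + b' * hinv
      have k2 : -(sg t * (sg s * x0)) = d' := by
        rw [ht, ex0]; linear_combination d' * (a*d'-b'*c) * (a*d'-b'*c) * hs2 + d' * hinv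
      convert hmemV t (sg s * x0) (sg s * y0) using 1
      simp only [u, v, map_add, map_smul, E1, Fw0]
      rw [← k1, ← k2]
      module

end Cfsg.Agent.ClassicalMax
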