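import Cfsg.Agent.ClassicalMax.SympCases
import Cfsg.Agent.ClassicalMax.OrderNine
import Cfsg.Agent.ClassicalMax.MinusTypeFour
import Cfsg.Agent.ClassicalMax.SympFourExceptions

/-!
The maximal subgroups of `Sp_4(q)`, `q` odd, given the symplectic dichotomy.
-/

set_option autoImplicit false

namespace Cfsg.Agent.ClassicalMax

open Matrix Cfsg.Geo
open scoped MatrixGroups Matrix

variable {F : Type*} [Field F] [Fintype F]

/-- `Sp_4(p)` does not normalise a symplectic-type group of order 32. -/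
theorem sp4_not_le_normalizer (hodd : Odd (Fintype.card F)) {p : ℕ} (hp : p.Prime) (hc : Fintype.card F = p)
    {R : Subgroup (GL (Fin 2 ⊕ Fin 2) F)} (hR : IsSymplecticTypeGroup 2 R)
    (hirr : ActsAbsolutelyIrreducibly (matrixSet R)) (h32 : Nat.card R = 32)
    (hZ : Nat.card (Subgroup.center R) = 2) : ¬ Cfsg.spGL 2 F ≤ subgroupNormalizer R := by
  classical
  intro hle
  have hchar : CharP F p := by
    obtain ⟨n, hn, he⟩ := FiniteField.card F (ringChar F)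
    rw [hc] at he
    have : ringChar F = p := (Nat.prime_dvd_prime_iff_eq hn hp).mp (he ▸ dvd_pow_self _ n.ne_zero)
    exact this ▸ ringChar.charP F
  have hp2 : p ≠ 2 := by rintro rfl; rw [hc] at hodd; exact absurd hodd (by decide)
  by_cases h3 : p = 3
  · subst h3
    obtain ⟨g, hg, h9, hne⟩ := exists_nine_spGL (F := F)
    have hidx : (Subgroup.center R).index = 16 := by
      have := (Subgroup.center R).card_mul_index
      rw [h32, hZ] at this
      omega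
    obtain ⟨c, hcg⟩ := scalar_cube_of_normalizes hirr (by rw [hZ]; decide) hidx (hle hg) h9
    exact hne c hcg
  · have h5 : 5 ≤ p := by
      have := hp.two_le
      by_contra h
      interval_cases p
      · exact hp2 rfl
      · exact h3 rfl
      · exact absurd hp (by decide)
    refine spGL_not_le_subgroupNormalizer le_rfl (fun h => ?_) hirr (sympType_class_two hR hZ)
      (fun z hz => hirr.2 _ ?_) ⟨2, fun h => ?_, fun h => ?_⟩ hle
    · rw [CharP.cast_eq_zero_iff F p] at h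
      have := Nat.le_of_dvd (by norm_num) h
      omega
    · rintro _ ⟨x, hx, rfl⟩
      exact congrArg Units.val (congrArg Subtype.val (Subgroup.mem_center_iff.mp hz ⟨x, hx⟩)).symm
    · have h' : ((2 : ℕ) : F) = 0 := by exact_mod_cast h
      rw [CharP.cast_eq_zero_iff F p] at h'
      have := Nat.le_of_dvd (by norm_num) h'
      omega
    · have h' : ((3 : ℕ) : F) = 0 := by
        push_cast; linear_combination h
      rw [CharP.cast_eq_zero_iff F p] at h'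
      have := Nat.le_of_dvd (by norm_num) h'
      omega

/-- The maximal subgroups of `Sp_4(q)`, `q` odd. -/
theorem sp4_odd_cases (hodd : Odd (Fintype.card F)) (hdich : SymplecticDichotomy 2 F)
    {H : Subgroup (GL (Fin 2 ⊕ Fin 2) F)} (hH : IsMaximalIn (Cfsg.spGL 2 F) H) :
    (∃ W : Submodule F (Fin 2 ⊕ Fin 2 → F), W ≠ ⊥ ∧ IsTotallySingularFor (Cfsg.sympForm 2 F) W ∧
      H = subspaceStabilizer W ⊓ Cfsg.spGL 2 F) ∨
    (∃ D : Fin 2 → Submodule F (Fin 2 ⊕ Fin 2 → F), IsNondegenerateMDecomposition (Cfsg.sympForm 2 F) 2 D ∧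
      H = decompositionStabilizer D ⊓ Cfsg.spGL 2 F) ∨
    (5 ≤ Fintype.card F ∧ ∃ D : Fin 2 → Submodule F (Fin 2 ⊕ Fin 2 → F), IsMDecomposition 2 D ∧
      (∀ i, IsTotallySingularFor (Cfsg.sympForm 2 F) (D i)) ∧ H = decompositionStabilizer D ⊓ Cfsg.spGL 2 F) ∨
    (∃ K : Subalgebra F (Matrix (Fin 2 ⊕ Fin 2) (Fin 2 ⊕ Fin 2) F), IsFieldSubalgebra 2 K ∧
      IsSelfAdjointFor (Cfsg.sympForm 2 F) K ∧
      (∀ k ∈ K, ∀ v : (Fin 2 ⊕ Fin 2 → F), (Cfsg.sympForm 2 F) (Matrix.mulVec k v) v = 0) ∧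
      H = subalgebraNormalizer K ⊓ Cfsg.spGL 2 F) ∨
    (5 ≤ Fintype.card F ∧ ∃ K : Subalgebra F (Matrix (Fin 2 ⊕ Fin 2) (Fin 2 ⊕ Fin 2) F),
      IsFieldSubalgebra 2 K ∧ IsAdjointClosedFor (Cfsg.sympForm 2 F) K ∧
      ¬ IsSelfAdjointFor (Cfsg.sympForm 2 F) K ∧ H = subalgebraNormalizer K ⊓ Cfsg.spGL 2 F) ∨
    (∃ (F₀ : Subfield F) (r : ℕ) (P : GL (Fin 2 ⊕ Fin 2) F) (ζ : F), r.Prime ∧
      Fintype.card F = Nat.card F₀ ^ r ∧ ζ ≠ 0 ∧ IsFormRationalStructure (Cfsg.sympForm 2 F) F₀ ζ P ∧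
      H = subfieldSubgroup F₀ P ⊓ Cfsg.spGL 2 F) ∨
    (∃ (p : ℕ) (R : Subgroup (GL (Fin 2 ⊕ Fin 2) F)), p.Prime ∧ Fintype.card F = p ∧
      IsSymplecticTypeGroup 2 R ∧ ActsAbsolutelyIrreducibly (matrixSet R) ∧
      R ≤ similarityGroup (Cfsg.sympForm 2 F) ∧ Nat.card R = 32 ∧ Nat.card (Subgroup.center R) = 2 ∧
      IsOfMinusType 2 R ∧ H = subgroupNormalizer R ⊓ Cfsg.spGL 2 F) ∨
    InSymplecticResidualClass H := by
  have hq3 : 3 ≤ Fintype.card F := by
    obtain ⟨j, hj⟩ := hodd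
    have := Fintype.one_lt_card (α := F)
    omega
  have hsmall : ¬ 5 ≤ Fintype.card F → Fintype.card F = 3 := fun h => by
    obtain ⟨j, hj⟩ := hodd; omega
  rcases sp_maximal_cases le_rfl (Or.inr (Or.inl ⟨rfl, hq3⟩)) hdich hH with hW | ⟨W, hb, hnd, hd, hd2, he⟩ |
    ⟨t, k, D, hD, htk, hk, ht2, hk2, he⟩ | ⟨-, D, hD, hts, he⟩ | hsub |
    ⟨R, p, k, hR, hirr, hsim, hp, -, hc, hcard, hZ, hminus, hk, hle⟩ | ⟨hev, -⟩ |
    ⟨r, K, hr, hrd, hK, hsa, halt, he⟩ | ⟨-, K, hK, hac, hns, he⟩ |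
    ⟨n₁, n₂, e, P, f₁, f₂, -, h1, h2, hn, -⟩ | ⟨k, t, hk, ht, hkt⟩ | hres
  · exact Or.inl hW
  · omega
  · obtain ⟨rfl, rfl⟩ : t = 2 ∧ k = 2 := by
      have : t ≤ 2 := by nlinarith
      constructor <;> nlinarith
    exact Or.inr (Or.inl ⟨D, hD, he⟩)
  · by_cases h5 : 5 ≤ Fintype.card F
    · exact Or.inr (Or.inr (Or.inl ⟨h5, D, hD, hts, he⟩))
    · obtain ⟨D', hD', hle⟩ := pair_le_decomposition_three (hsmall h5) hD hts
      exact Or.inr (Or.inl ⟨D', hD',
        eq_inf_max hH (he.le.trans hle) (spGL_not_le_decompositionStabilizer hD'.decomp le_rfl)⟩)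
  · exact Or.inr (Or.inr (Or.inr (Or.inr (Or.inr (Or.inl hsub)))))
  · obtain rfl : k = 2 := Nat.pow_right_injective le_rfl (show 2 ^ k = 2 ^ 2 from hk.symm)
    have h32 : Nat.card R = 32 := hcard.trans (by norm_num)
    iterate 6 right
    exact Or.inl ⟨p, R, hp, hc, hR, hirr, hsim, h32, hZ, hminus,
      eq_inf_max hH hle (sp4_not_le_normalizer hodd hp hc hR hirr h32 hZ)⟩
  · exact absurd hodd hev
  · obtain rfl : r = 2 := (Nat.prime_dvd_prime_iff_eq hr Nat.prime_two).mp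
      (hr.dvd_of_dvd_pow (n := 2) hrd)
    exact Or.inr (Or.inr (Or.inr (Or.inl ⟨K, hK, hsa, halt, he⟩)))
  · by_cases h5 : 5 ≤ Fintype.card F
    · exact Or.inr (Or.inr (Or.inr (Or.inr (Or.inl ⟨h5, K, hK, hac, hns, he⟩))))
    · obtain ⟨R, hR, hirr, hsim, h32, hZ, hminus, hle⟩ :=
        fieldNormalizer_le_symplecticType_three (hsmall h5) hK hac hns
      iterate 6 right
      exact Or.inl ⟨3, R, Nat.prime_three, hsmall h5, hR, hirr, hsim, h32, hZ, hminus,
        eq_inf_max hH (he.le.trans hle) (sp4_not_le_normalizer hodd Nat.prime_three (hsmall h5) hR hirr h32 hZ)⟩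
  · exfalso; nlinarith
  · exfalso
    have : 2 ^ 3 ≤ k ^ t := (Nat.pow_le_pow_left hk 3).trans (Nat.pow_le_pow_right (by omega) ht)
    omega
  · iterate 7 right
    exact hres

end Cfsg.Agent.ClassicalMax
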