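import Cfsg.Agent.ClassicalMax.UnitaryExceptions
import Cfsg.Agent.ClassicalMax.UnitaryProper
import Cfsg.Agent.MaxSub.Proper

/-!
Tools for the small exceptions of `SU_3(p)`: overgroups given by invariant sets of lines, conjugation by
unitary matrices, and coordinates for frames and real structures.
-/

set_option autoImplicit false
set_option linter.style.haveILetI false

namespace Cfsg.Agent.ClassicalMax

open Matrix Cfsg.Geo Module
open Cfsg.Agent.Classical.U (SqField sqField_of_fintype)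
open scoped MatrixGroups Matrix

variable {F : Type*} [Field F] {n q : ℕ}

/-- The stabiliser of a finite set of lines given by representatives. -/
def lineStab [Finite F] {N : ℕ} (v : Fin N → Fin n → F) : Subgroup (GL (Fin n) F) where
  carrier := {a | ∀ k, ∃ (l : Fin N) (s : F), (a : Matrix (Fin n) (Fin n) F) *ᵥ v k = s • v l}
  one_mem' k := ⟨k, 1, by simp⟩
  mul_mem' {a b} ha hb k := by
    obtain ⟨l, s, hl⟩ := hb k
    obtain ⟨l', s', hl'⟩ := ha l
    exact ⟨l', s * s', by rw [Units.val_mul, ← Matrix.mulVec_mulVec, hl, Matrix.mulVec_smul, hl', smul_smul]⟩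
  inv_mem' {a} ha := by
    have hpow : ∀ j : ℕ, ∀ k, ∃ (l : Fin N) (s : F),
        ((a ^ j : GL (Fin n) F) : Matrix (Fin n) (Fin n) F) *ᵥ v k = s • v l := by
      intro j
      induction j with
      | zero => exact fun k => ⟨k, 1, by simp⟩
      | succ j ih =>
        intro k
        obtain ⟨l, s, hl⟩ := ih k
        obtain ⟨l', s', hl'⟩ := ha l
        exact ⟨l', s * s', by rw [pow_succ', Units.val_mul, ← Matrix.mulVec_mulVec, hl, Matrix.mulVec_smul, hl', smul_smul]⟩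
    show ∀ k, ∃ (l : Fin N) (s : F), ((a⁻¹ : GL (Fin n) F) : Matrix (Fin n) (Fin n) F) *ᵥ v k = s • v l
    have hinv : a⁻¹ = a ^ (orderOf a - 1) := inv_eq_of_mul_eq_one_right (by
      rw [← pow_succ', Nat.sub_add_cancel (orderOf_pos a), pow_orderOf_eq_one])
    rw [hinv]
    exact hpow _

theorem scalar_mem_lineStab [Finite F] {N : ℕ} (v : Fin N → Fin n → F) {a : GL (Fin n) F} {c : F}
    (ha : (a : Matrix (Fin n) (Fin n) F) = c • 1) : a ∈ lineStab v :=
  fun k => ⟨k, c, by rw [ha, Matrix.smul_mulVec, Matrix.one_mulVec]⟩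

theorem suGL_conj_mem {P x : GL (Fin n) F} (hP : P ∈ Cfsg.GU n F q) (hx : x ∈ suGL n F q) :
    P * x * P⁻¹ ∈ suGL n F q := by
  refine ⟨Subgroup.mul_mem _ (Subgroup.mul_mem _ hP hx.1) (Subgroup.inv_mem _ hP), ?_⟩
  show P * x * P⁻¹ ∈ specialLinear (Fin n) F
  exact (MaxSub.specialLinear_normal (ι := Fin n) (F := F)).conj_mem x hx.2 P

/-- A maximal subgroup conjugate into a proper subgroup `L` contains the conjugates of all of `L`. -/
theorem not_maximal_of_conj {H L : Subgroup (GL (Fin n) F)} (hH : IsMaximalIn (suGL n F q) H)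
    {P : GL (Fin n) F} (hP : P ∈ Cfsg.GU n F q) (hle : ∀ m ∈ H, P⁻¹ * m * P ∈ L)
    {T : GL (Fin n) F} (hT : T ∈ suGL n F q) (hTL : T ∉ L) {X : GL (Fin n) F} (hX : X ∈ suGL n F q) (hXL : X ∈ L)
    (hXH : P * X * P⁻¹ ∉ H) : False := by
  have hHL : H ≤ suGL n F q ⊓ L.map (MulAut.conj P).toMonoidHom :=
    fun m hm => ⟨hH.1.le hm, P⁻¹ * m * P, hle m hm, by simp [mul_assoc]⟩
  rcases hH.2 _ hHL inf_le_left with h | h
  · exact hXH (h ▸ ⟨suGL_conj_mem hP hX, X, hXL, rfl⟩)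
  · have h' : P * T * P⁻¹ ∈ suGL n F q ⊓ L.map (MulAut.conj P).toMonoidHom := by
      rw [h]; exact suGL_conj_mem hP hT
    obtain ⟨y, hy, hye⟩ := h'.2
    rw [(MulAut.conj P).injective (show MulAut.conj P y = MulAut.conj P T from hye)] at hy
    exact hTL hy

/-- Matrices with orthonormal columns are unitary. -/
theorem exists_GU_of_columns (hF : SqField F q) {v : Fin n → Fin n → F}
    (hv : ∀ i j, Cfsg.hermForm n F q (v i) (v j) = if i = j then 1 else 0) :
    ∃ P ∈ Cfsg.GU n F q, ∀ i j, (P : Matrix (Fin n) (Fin n) F) i j = v j i := by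
  classical
  have hf := hermForm_isUnitaryFormPow (n := n) hF
  let M : Matrix (Fin n) (Fin n) F := Matrix.of fun i j => v j i
  have hM : Mᵀ * M.map (fun x => x ^ q) = 1 := by
    ext i j
    rw [Matrix.one_apply, ← hv i j]
    rfl
  have hdet : M.det ≠ 0 := fun h => by
    have := congrArg Matrix.det hM
    rw [Matrix.det_mul, Matrix.det_transpose, h, zero_mul, Matrix.det_one] at this
    exact zero_ne_one this
  refine ⟨Matrix.GeneralLinearGroup.mkOfDetNeZero M hdet, fun u w => ?_, fun i j => rfl⟩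
  show Cfsg.hermForm n F q (M *ᵥ u) (M *ᵥ w) = Cfsg.hermForm n F q u w
  have hMu : ∀ x, M *ᵥ x = ∑ i, x i • v i := fun x => by
    funext l
    simp [M, Matrix.mulVec, dotProduct, mul_comm]
  rw [hMu, hMu, hf.sum_left]
  simp only [hf.smul_left]
  simp only [hf.sum_right hF, hf.smul_right', hv, mul_ite, mul_one, mul_zero, Finset.sum_ite_eq, Finset.mem_univ,
    if_true]
  rfl

/-- Unitary matrices over a ring mapping to the field. -/
theorem exists_GU_of_ring (hF : SqField F q) {E : Type*} [CommRing E] (π : E →+* F) {cj : E → E}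
    (hπc : ∀ z, π (cj z) = π z ^ q) {B : Matrix (Fin n) (Fin n) E} (hB : Bᵀ * B.map cj = 1) :
    ∃ g ∈ Cfsg.GU n F q, (g : Matrix (Fin n) (Fin n) F) = B.map π := by
  classical
  obtain ⟨g, hg, he⟩ := exists_GU_of_columns hF (v := fun j i => π (B i j)) fun i j => by
    have := congrArg π (congrFun (congrFun hB i) j)
    simp only [Matrix.mul_apply, Matrix.transpose_apply, Matrix.map_apply, map_sum, map_mul, hπc,
      Matrix.one_apply, apply_ite π, map_one, map_zero] at this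
    exact this
  exact ⟨g, hg, Matrix.ext fun i j => he i j⟩

theorem exists_suGL_of_ring (hF : SqField F q) {E : Type*} [CommRing E] (π : E →+* F) {cj : E → E}
    (hπc : ∀ z, π (cj z) = π z ^ q) {B : Matrix (Fin n) (Fin n) E} (hB : Bᵀ * B.map cj = 1) (hd : B.det = 1) :
    ∃ g ∈ suGL n F q, (g : Matrix (Fin n) (Fin n) F) = B.map π := by
  obtain ⟨g, hg, he⟩ := exists_GU_of_ring hF π hπc hB
  refine ⟨g, ⟨hg, ?_⟩, he⟩
  show g ∈ specialLinear (Fin n) F
  rw [GeoClasses.mem_specialLinear_iff, he, show B.map π = π.mapMatrix B from rfl, ← RingHom.map_det, hd, map_one]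

theorem mem_lineStab_of_ring [Finite F] {E : Type*} [CommRing E] (π : E →+* F) {N : ℕ} {w : Fin N → Fin n → E}
    {g : GL (Fin n) F} {B : Matrix (Fin n) (Fin n) E} (hg : (g : Matrix (Fin n) (Fin n) F) = B.map π)
    (σ : Fin N → Fin N) (c : Fin N → E) (h : ∀ l i, (B *ᵥ w l) i = c l * w (σ l) i) :
    g ∈ lineStab fun k => π ∘ w k := by
  intro k
  refine ⟨σ k, π (c k), funext fun i => ?_⟩
  rw [hg]
  show (B.map π *ᵥ (π ∘ w k)) i = π (c k) * π (w (σ k) i)
  rw [← map_mul, ← h k i]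
  exact (RingHom.map_mulVec π B (w k) i).symm

theorem not_mem_lineStab_of_ring [Finite F] {E : Type*} [CommRing E] (π : E →+* F) (hπ : Function.Injective π) {N : ℕ}
    {w : Fin N → Fin n → E} {g : GL (Fin n) F} {B : Matrix (Fin n) (Fin n) E}
    (hg : (g : Matrix (Fin n) (Fin n) F) = B.map π)
    (h : ∃ k, ∀ l, ∃ i j, (B *ᵥ w k) i * w l j ≠ (B *ᵥ w k) j * w l i) :
    g ∉ lineStab fun k => π ∘ w k := by
  intro hmem
  obtain ⟨k, hk⟩ := h
  obtain ⟨l, s, hl⟩ := hmem k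
  obtain ⟨i, j, hij⟩ := hk l
  apply hij
  apply hπ
  have e : ∀ a, π ((B *ᵥ w k) a) = s * π (w l a) := fun a => by
    have := congrFun hl a
    rw [hg] at this
    rw [RingHom.map_mulVec π B (w k) a]
    exact this
  rw [map_mul, map_mul, e, e]
  ring

/-- Coordinates for a frame. -/
theorem frame_conj (hF : SqField F q) {D : Fin n → Submodule F (Fin n → F)}
    (hD : IsNondegenerateMDecomposition (Cfsg.hermForm n F q) 1 D) :
    ∃ P ∈ Cfsg.GU n F q, ∀ m ∈ decompositionStabilizer D, ∀ i, ∃ j, ∀ l, l ≠ j →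
      ((P⁻¹ * m * P : GL (Fin n) F) : Matrix (Fin n) (Fin n) F) l i = 0 := by
  classical
  have hf := hermForm_isUnitaryFormPow (n := n) hF
  have hv : ∀ i, ∃ v ∈ D i, Cfsg.hermForm n F q v v = 1 ∧ ∀ x ∈ D i, ∃ c : F, c • v = x := by
    intro i
    obtain ⟨w, hw, hw0, hspan⟩ : ∃ w ∈ D i, w ≠ 0 ∧ ∀ x ∈ D i, ∃ c : F, c • w = x := by
      obtain ⟨⟨w, hw⟩, hw0, hsp⟩ := finrank_eq_one_iff'.mp (hD.decomp.finrank_eq i)
      refine ⟨w, hw, fun h => hw0 (Subtype.ext h), fun x hx => ?_⟩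
      obtain ⟨c, hc⟩ := hsp ⟨x, hx⟩
      exact ⟨c, congrArg Subtype.val hc⟩
    obtain ⟨⟨x, hx, hxw⟩, -⟩ := hD.nondegenerate i w hw hw0
    have hww : Cfsg.hermForm n F q w w ≠ 0 := by
      obtain ⟨c, rfl⟩ := hspan x hx
      rw [hf.smul_left] at hxw
      exact right_ne_zero_of_mul hxw
    obtain ⟨s, hs⟩ := hF.exists_norm (c := (Cfsg.hermForm n F q w w)⁻¹) (by rw [inv_pow, ← hf.herm])
    have hs0 : s ≠ 0 := fun h => by
      rw [h, zero_pow (by omega)] at hs
      exact inv_ne_zero hww hs.symm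
    refine ⟨s • w, Submodule.smul_mem _ _ hw, ?_, fun y hy => ?_⟩
    · rw [hf.smul_left, hf.smul_right', ← mul_assoc, ← pow_succ', hs, inv_mul_cancel₀ hww]
    · obtain ⟨c, rfl⟩ := hspan y hy
      exact ⟨c * s⁻¹, by rw [smul_smul, mul_assoc, inv_mul_cancel₀ hs0, mul_one]⟩
  choose v hvmem hvv hvspan using hv
  obtain ⟨P, hP, hPv⟩ := exists_GU_of_columns hF (v := v) fun i j => by
    split
    · subst ‹i = j›; exact hvv i
    · exact hD.orthogonal i j ‹_› _ (hvmem i) _ (hvmem j)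
  refine ⟨P, hP, fun m hm i => ?_⟩
  obtain ⟨σ, hσ⟩ := hm
  obtain ⟨c, hc⟩ := hvspan (σ i) ((m : Matrix (Fin n) (Fin n) F) *ᵥ v i)
    (hσ i ▸ ⟨v i, hvmem i, Matrix.toLin'_apply _ _⟩)
  refine ⟨σ i, fun l hl => ?_⟩
  have hcol : ∀ j, v j = (P : Matrix (Fin n) (Fin n) F) *ᵥ Pi.single j 1 := fun j => by
    funext a; simp [Matrix.mulVec_single_one, hPv]
  have : ((P⁻¹ * m * P : GL (Fin n) F) : Matrix (Fin n) (Fin n) F) *ᵥ Pi.single i 1 = c • Pi.single (σ i) 1 := by
    rw [Units.val_mul, Units.val_mul, ← Matrix.mulVec_mulVec, ← hcol, ← Matrix.mulVec_mulVec, ← hc,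
      Matrix.mulVec_smul, hcol, Matrix.mulVec_mulVec, Units.inv_mul, Matrix.one_mulVec]
  have := congrFun this l
  simpa [Matrix.mulVec_single_one, Pi.single_apply, hl] using this

set_option maxHeartbeats 600000 in
/-- Coordinates for a subfield of prime order carrying the form. -/
theorem real_conj {p : ℕ} [Fact p.Prime] [CharP F p] (hp2 : p ≠ 2) (hF : SqField F p) {F₀ : Subfield F}
    (hc : Nat.card F₀ = p) {P₀ : GL (Fin 3) F} (hrat : IsFormRationalStructure (Cfsg.hermForm 3 F p) F₀ 1 P₀)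
    (hdiag : ∀ d₀ d₁ d₂ : ZMod p, d₀ ≠ 0 → d₁ ≠ 0 → d₂ ≠ 0 → ∃ (c : ZMod p), c ≠ 0 ∧
      ∃ W : Fin 3 → Fin 3 → ZMod p, ∀ i j,
        d₀ * W i 0 * W j 0 + d₁ * W i 1 * W j 1 + d₂ * W i 2 * W j 2 = if i = j then c else 0) :
    ∃ P ∈ Cfsg.GU 3 F p, ∀ m ∈ subfieldSubgroup F₀ P₀ ⊓ suGL 3 F p, ∃ (s : F) (A : Matrix (Fin 3) (Fin 3) (ZMod p)),
      s ^ 3 = 1 ∧ Aᵀ * A = 1 ∧ A.det = 1 ∧
      ((P⁻¹ * m * P : GL (Fin 3) F) : Matrix (Fin 3) (Fin 3) F) = s • A.map (ZMod.castHom (dvd_refl p) F) := by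
  classical
  set ι₀ := ZMod.castHom (dvd_refl p) F
  have hι : Function.Injective ι₀ := ι₀.injective
  have hmem : ∀ a, ι₀ a ∈ F₀ := fun a => by
    rw [← ZMod.natCast_zmod_val a, map_natCast]
    exact natCast_mem F₀ _
  haveI : Finite F := hF.1
  have hrange : ∀ x ∈ F₀, ∃ a, ι₀ a = x := by
    intro x hx
    have : Function.Bijective fun a => (⟨ι₀ a, hmem a⟩ : F₀) :=
      (Nat.bijective_iff_injective_and_card _).mpr ⟨fun a b h => hι (congrArg Subtype.val h), by rw [Nat.card_zmod, hc]⟩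
    obtain ⟨a, ha⟩ := this.2 ⟨x, hx⟩
    exact ⟨a, congrArg Subtype.val ha⟩
  have hfix : ∀ a, ι₀ a ^ p = ι₀ a := fun a => by rw [← map_pow, ZMod.pow_card]
  have hf := hermForm_isUnitaryFormPow (n := 3) hF
  let ιv : (Fin 3 → ZMod p) → (Fin 3 → F) := fun u i => ι₀ (u i)
  have ιv_add : ∀ u u', ιv (u + u') = ιv u + ιv u' := fun u u' => funext fun i => map_add _ _ _
  have ιv_smul : ∀ (a : ZMod p) u, ιv (a • u) = ι₀ a • ιv u := fun a u => funext fun i => map_mul _ _ _
  let Pv : (Fin 3 → ZMod p) → (Fin 3 → F) := fun u => (P₀ : Matrix (Fin 3) (Fin 3) F) *ᵥ ιv u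
  have hval : ∀ u u', ∃ a, ι₀ a = Cfsg.hermForm 3 F p (Pv u) (Pv u') := fun u u' =>
    hrange _ (by have := hrat (ιv u) (ιv u') (fun i => hmem _) (fun i => hmem _); rwa [one_mul] at this)
  choose b hb using hval
  let B : LinearMap.BilinForm (ZMod p) (Fin 3 → ZMod p) := LinearMap.mk₂ (ZMod p) b
    (fun u u' w => hι (by rw [hb, map_add, hb, hb]; simp only [Pv, ιv_add, Matrix.mulVec_add, hf.add_left]))
    (fun a u w => hι (by rw [hb, smul_eq_mul, map_mul, hb]; simp only [Pv, ιv_smul, Matrix.mulVec_smul, hf.smul_left]))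
    (fun u w w' => hι (by rw [hb, map_add, hb, hb]; simp only [Pv, ιv_add, Matrix.mulVec_add, hf.add_right' hF]))
    (fun a u w => hι (by
      rw [hb, smul_eq_mul, map_mul, hb]; simp only [Pv, ιv_smul, Matrix.mulVec_smul, hf.smul_right', hfix]))
  have hBb : ∀ u w, ι₀ (B u w) = Cfsg.hermForm 3 F p (Pv u) (Pv w) := hb
  have hsymm : LinearMap.IsSymm B := ⟨fun u w => hι (by
    rw [RingHom.id_apply, hBb, hBb, hf.herm, ← hBb w u, hfix, hBb])⟩
  have hnd : ∀ u, (∀ w, B u w = 0) → u = 0 := by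
    intro u hu
    by_contra hu0
    have hP0 : Pv u ≠ 0 := fun h => by
      apply hu0
      funext i
      apply hι
      have := congrFun (GeoClasses.mulVec_injective P₀ (h.trans (Matrix.mulVec_zero _).symm)) i
      rw [Pi.zero_apply, map_zero]
      exact this
    obtain ⟨-, x, hx⟩ := hf.nondegenerate _ hP0
    apply hx
    have hxdec : x = ∑ i, (((P₀⁻¹ : GL (Fin 3) F) : Matrix (Fin 3) (Fin 3) F) *ᵥ x) i • Pv (Pi.single i 1) := by
      have e : ∀ i, ιv (Pi.single i 1) = Pi.single i 1 := fun i => funext fun j => by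
        by_cases h : j = i
        · subst h; simp [ιv]
        · simp [ιv, Pi.single_eq_of_ne h]
      simp only [Pv, e, ← Matrix.mulVec_smul, ← Matrix.mulVec_sum]
      rw [← pi_eq_sum_univ', Matrix.mulVec_mulVec, Units.mul_inv, Matrix.one_mulVec]
    rw [hxdec, hf.sum_right hF]
    refine Finset.sum_eq_zero fun i _ => ?_
    rw [hf.smul_right', ← hBb, hu, map_zero, mul_zero]
  haveI : Invertible (2 : ZMod p) := invertibleOfNonzero fun h => by
    have h' : ((2 : ℕ) : ZMod p) = 0 := by exact_mod_cast h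
    rw [CharP.cast_eq_zero_iff (ZMod p) p] at h'
    exact hp2 ((Nat.prime_dvd_prime_iff_eq Fact.out Nat.prime_two).mp h')
  obtain ⟨bs₀, horth⟩ := LinearMap.BilinForm.exists_orthogonal_basis hsymm
  let bs := bs₀.reindex (finCongr (Module.finrank_fin_fun (ZMod p)))
  have horth' : ∀ i j, i ≠ j → B (bs i) (bs j) = 0 := fun i j hij => by
    simp only [bs, Basis.reindex_apply]
    exact horth (fun h => hij ((finCongr (Module.finrank_fin_fun (ZMod p))).symm.injective h))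
  have hd : ∀ i, B (bs i) (bs i) ≠ 0 := fun i h => bs.ne_zero i (hnd _ fun w => by
    have : B (bs i) = 0 := bs.ext fun j => by
      by_cases hij : i = j
      · subst hij; exact h
      · exact horth' i j hij
    rw [this]; rfl)
  obtain ⟨c, hc0, W, hW⟩ := hdiag _ _ _ (hd 0) (hd 1) (hd 2)
  let w : Fin 3 → (Fin 3 → ZMod p) := fun l => W l 0 • bs 0 + W l 1 • bs 1 + W l 2 • bs 2
  have hw : ∀ l l', B (w l) (w l') = if l = l' then c else 0 := fun l l' => by
    rw [← hW l l']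
    simp [w, horth']
    ring
  obtain ⟨t, ht⟩ := hF.exists_norm (c := (ι₀ c)⁻¹) (by rw [inv_pow, hfix])
  have ht0 : t ≠ 0 := fun h => by
    rw [h, zero_pow (by omega)] at ht
    exact inv_ne_zero ((map_ne_zero ι₀).mpr hc0) ht.symm
  obtain ⟨P, hP, hPv⟩ := exists_GU_of_columns hF (v := fun l => t • Pv (w l)) fun l l' => by
    rw [hf.smul_left, hf.smul_right', ← hBb, hw, ← mul_assoc, ← pow_succ', ht]
    split
    · rw [inv_mul_cancel₀ ((map_ne_zero ι₀).mpr hc0)]
    · rw [map_zero, mul_zero]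
  let Wm : Matrix (Fin 3) (Fin 3) (ZMod p) := Matrix.of fun i l => w l i
  have hPW : (P : Matrix (Fin 3) (Fin 3) F) = t • ((P₀ : Matrix (Fin 3) (Fin 3) F) * Wm.map ι₀) := by
    ext i l
    rw [hPv, Matrix.smul_apply, Matrix.mul_apply]
    rfl
  have hWdet : Wm.det ≠ 0 := fun h => Matrix.GeneralLinearGroup.det_ne_zero P (by
    rw [hPW, Matrix.det_smul, Matrix.det_mul, show Wm.map ι₀ = ι₀.mapMatrix Wm from rfl, ← RingHom.map_det, h,
      map_zero, mul_zero, mul_zero])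
  refine ⟨P, hP, fun m hm => ?_⟩
  obtain ⟨⟨y, hy, rfl⟩, hmS⟩ := hm
  rw [Subgroup.coe_mul_of_left_le_normalizer_right _ _
    (fun z _ => Subgroup.normalizer_eq_top (scalars (Fin 3) F) ▸ Subgroup.mem_top z)] at hy
  obtain ⟨_, ⟨g₀, rfl⟩, z, hz, hye⟩ := hy
  obtain ⟨z, hz⟩ := (Cfsg.Geo.mem_scalars_iff z).mp hz
  have hU : ∀ i j, ∃ a, ι₀ a = ((g₀ : Matrix (Fin 3) (Fin 3) F₀) i j : F) :=
    fun i j => hrange _ ((g₀ : Matrix (Fin 3) (Fin 3) F₀) i j).2
  choose U hU using hU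
  let Um : Matrix (Fin 3) (Fin 3) (ZMod p) := Matrix.of U
  set m : GL (Fin 3) F := (MulAut.conj P₀).toMonoidHom y with hmdef
  let A : Matrix (Fin 3) (Fin 3) (ZMod p) := Wm⁻¹ * Um * Wm
  have hyv : (y : Matrix (Fin 3) (Fin 3) F) = (z : F) • Um.map ι₀ := by
    rw [← hye, Units.val_mul, hz, Matrix.mul_smul, Matrix.mul_one]
    congr 1
    ext i j
    exact (hU i j).symm
  -- the matrix of `m` in the new coordinates
  have hm' : ((P⁻¹ * m * P : GL (Fin 3) F) : Matrix (Fin 3) (Fin 3) F) = (z : F) • A.map ι₀ := by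
    have h1 : (P : Matrix (Fin 3) (Fin 3) F) * ((z : F) • A.map ι₀) = (m : Matrix (Fin 3) (Fin 3) F) * (P : Matrix (Fin 3) (Fin 3) F) := by
      have hWA : Wm.map ι₀ * A.map ι₀ = Um.map ι₀ * Wm.map ι₀ := by
        rw [← Matrix.map_mul, ← Matrix.map_mul, ← mul_assoc, ← mul_assoc,
          Matrix.mul_nonsing_inv _ (isUnit_iff_ne_zero.mpr hWdet), one_mul]
      rw [hPW, hmdef, MulEquiv.coe_toMonoidHom, MulAut.conj_apply, Units.val_mul, Units.val_mul, hyv]
      simp only [Matrix.smul_mul, Matrix.mul_smul, smul_smul, mul_assoc, Units.inv_mul_cancel_left, hWA, mul_comm t]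
    rw [Units.val_mul, Units.val_mul, mul_assoc, ← h1, Units.inv_mul_cancel_left]
  have hmS' : P⁻¹ * m * P ∈ suGL 3 F p := by
    have := suGL_conj_mem (Subgroup.inv_mem _ hP) hmS
    rwa [inv_inv] at this
  have hN : ∀ i j, (z : F) ^ (p + 1) * ι₀ ((Aᵀ * A) i j) = if i = j then 1 else 0 := by
    intro i j
    have h := hmS'.1 (Pi.single i 1) (Pi.single j 1)
    simp only [Units.coeHom_apply, hm'] at h
    have e : Cfsg.hermForm 3 F p (Pi.single i 1) (Pi.single j 1) = if i = j then 1 else 0 := by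
      have hp0 : p ≠ 0 := (Fact.out : p.Prime).ne_zero
      rw [Cfsg.hermForm, Finset.sum_eq_single i (fun l _ hl => by rw [Pi.single_eq_of_ne hl, zero_mul]) (by simp),
        Pi.single_eq_same, one_mul]
      by_cases hij : i = j
      · subst hij; rw [Pi.single_eq_same, one_pow, if_pos rfl]
      · rw [Pi.single_eq_of_ne hij, zero_pow hp0, if_neg hij]
    have hcol : Cfsg.hermForm 3 F p (fun l => ι₀ (A l i)) (fun l => ι₀ (A l j)) = ι₀ ((Aᵀ * A) i j) := by
      rw [Cfsg.hermForm, Matrix.mul_apply, map_sum]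
      exact Finset.sum_congr rfl fun l _ => by rw [hfix, map_mul]; rfl
    rw [Matrix.smul_mulVec, Matrix.smul_mulVec, hf.smul_left, hf.smul_right', Matrix.mulVec_single_one,
      Matrix.mulVec_single_one, e] at h
    rw [← h, ← hcol, pow_succ', mul_assoc]
    rfl
  set a₀ := (Aᵀ * A) 0 0 with ha₀
  have ha : (z : F) ^ (p + 1) * ι₀ a₀ = 1 := (hN 0 0).trans (if_pos rfl)
  have hzN : (z : F) ^ (p + 1) ≠ 0 := pow_ne_zero _ z.ne_zero
  have hAA : Aᵀ * A = a₀ • 1 := by
    ext i j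
    apply hι
    apply mul_left_cancel₀ hzN
    rw [hN, Matrix.smul_apply, Matrix.one_apply]
    split <;> simp [ha]
  have ha0 : a₀ ≠ 0 := fun h => one_ne_zero (α := F) (by rw [← ha, h, map_zero, mul_zero])
  have hsq : A.det * A.det = a₀ ^ 3 := by
    have := congrArg Matrix.det hAA
    rwa [Matrix.det_mul, Matrix.det_transpose, Matrix.det_smul, Matrix.det_one, mul_one, Fintype.card_fin] at this
  have hA0 : A.det ≠ 0 := fun h => pow_ne_zero 3 ha0 (by rw [← hsq, h, mul_zero])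
  set r := A.det / a₀ with hr
  have hr2 : r * r = a₀ := by
    rw [hr, div_mul_div_comm, hsq]
    field_simp
  have hr0 : r ≠ 0 := div_ne_zero hA0 ha0
  refine ⟨(z : F) * ι₀ r, r⁻¹ • A, ?_, ?_, ?_, ?_⟩
  · have hd := GeoClasses.mem_specialLinear_iff.mp hmS'.2
    rw [hm', Matrix.det_smul, Fintype.card_fin, show A.map ι₀ = ι₀.mapMatrix A from rfl, ← RingHom.map_det] at hd
    rw [mul_pow, ← map_pow, ← hd]
    congr 2
    rw [hr, div_pow, ← hsq]
    field_simp
  · rw [Matrix.transpose_smul, Matrix.smul_mul, Matrix.mul_smul, smul_smul, hAA, smul_smul, ← mul_inv, hr2,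
      inv_mul_cancel₀ ha0, one_smul]
  · rw [Matrix.det_smul, Fintype.card_fin, inv_pow, hr, div_pow, ← hsq]
    field_simp
  · rw [hm']
    ext i j
    simp only [Matrix.smul_apply, Matrix.map_apply, smul_eq_mul, map_mul, map_inv₀]
    have : ι₀ r ≠ 0 := (map_ne_zero ι₀).mpr hr0
    field_simp

end Cfsg.Agent.ClassicalMax
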